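import Mathlib
import Cfsg.Agent.Lib.Char.Galois

/-!
# The degree of the field of values of a character is the size of its Galois orbit

For a character `χ` of a group `G` with `g ^ n = 1` for all `g`, the degree of `ℚ(χ)` over `ℚ` is
the number of functions `g ↦ χ (g ^ u)` with `u` prime to `n`.
-/

set_option autoImplicit false
set_option linter.unusedSectionVars false
set_option linter.unusedSimpArgs false
set_option linter.unusedVariables false
set_option linter.style.haveILetI false
set_option linter.unnecessarySimpa false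

open Module

namespace Cfsg.Agent.Lib.CharExtra

open Cfsg (IsCharacter IsIrrCharacter)
open Cfsg.Agent.Lib.Char

universe u

/-- The field of values of a function. -/
noncomputable def fld {G : Type u} (χ : G → ℂ) : IntermediateField ℚ ℂ :=
  IntermediateField.adjoin ℚ (Set.range χ)

theorem mem_fld {G : Type u} (χ : G → ℂ) (g : G) : χ g ∈ fld χ :=
  IntermediateField.subset_adjoin _ _ ⟨g, rfl⟩

theorem finrank_rat_eq_of_addEquiv {A B : Type*} [AddCommGroup A] [AddCommGroup B] [Module ℚ A]
    [Module ℚ B] (e : A ≃+ B) : finrank ℚ A = finrank ℚ B :=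
  (e.toLinearEquiv (fun c x => map_rat_smul e c x)).finrank_eq

/-- The Galois orbit of a function on `G`. -/
def galOrbit (n : ℕ) {G : Type u} [Group G] (χ : G → ℂ) : Set (G → ℂ) :=
  {χ' | ∃ u : ℕ, u.Coprime n ∧ χ' = fun g => χ (g ^ u)}

section

variable (n : ℕ) [NeZero n] (K : Type) [Field K] [Algebra ℚ K] [IsCyclotomicExtension {n} ℚ K]
  [FiniteDimensional ℚ K] [IsGalois ℚ K]

variable {G : Type u} [Group G]

variable {K} in
theorem exists_lift_char (ι : K →ₐ[ℚ] ℂ) {χ : G → ℂ} (hχ : IsCharacter G χ) (hn : ∀ g : G, g ^ n = 1) :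
    ∃ χ' : G → K, (∀ g, ι (χ' g) = χ g) ∧
      ∀ (σ : Gal(K/ℚ)) (u : ℕ), (∀ x : K, x ^ n = 1 → σ x = x ^ u) →
        ∀ g, ι (σ (χ' g)) = χ (g ^ u) := by
  obtain ⟨m, ρ, rfl⟩ := hχ
  have h := fun g => char_preimage n ι ρ g (hn g)
  choose χ' h1 h2 using h
  exact ⟨χ', h1, fun σ u hσ g => h2 g σ u hσ⟩

variable {K} in
theorem finrank_fld_eq_adjoin (ι : K →ₐ[ℚ] ℂ) {χ : G → ℂ} {χ' : G → K} (h1 : ∀ g, ι (χ' g) = χ g) :
    finrank ℚ (fld χ) = finrank ℚ (IntermediateField.adjoin ℚ (Set.range χ')) := by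
  have hF : (IntermediateField.adjoin ℚ (Set.range χ')).map ι = fld χ := by
    rw [IntermediateField.adjoin_map]
    unfold fld
    congr 1
    rw [← Set.range_comp]
    congr 1
    funext g
    exact h1 g
  rw [← hF]
  let g : (IntermediateField.adjoin ℚ (Set.range χ')) →+
      ((IntermediateField.adjoin ℚ (Set.range χ')).map ι) :=
    { toFun := fun x => ⟨ι x.1, ⟨x.1, x.2, rfl⟩⟩
      map_zero' := by
        ext
        simp
      map_add' := by
        intro x y
        ext
        simp }
  have hg : Function.Bijective g := by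
    constructor
    · intro x y h
      have h1 : ι x.1 = ι y.1 := congrArg Subtype.val h
      exact Subtype.ext (ι.toRingHom.injective h1)
    · rintro ⟨_, ⟨x, hx, rfl⟩⟩
      exact ⟨⟨x, hx⟩, rfl⟩
  exact (finrank_rat_eq_of_addEquiv (AddEquiv.ofBijective g hg)).symm

variable {K} in
theorem finrank_fld_eq_ncard_aux (ι : K →ₐ[ℚ] ℂ) {χ : G → ℂ} (hχ : IsCharacter G χ)
    (hn : ∀ g : G, g ^ n = 1) :
    finrank ℚ (fld χ) = (galOrbit n χ).ncard := by
  classical
  obtain ⟨χ', h1, h2⟩ := exists_lift_char n ι hχ hn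
  rw [finrank_fld_eq_adjoin ι h1, IntermediateField.finrank_eq_fixingSubgroup_index]
  have hstab : (IntermediateField.adjoin ℚ (Set.range χ')).fixingSubgroup =
      MulAction.stabilizer Gal(K/ℚ) χ' := by
    ext σ
    rw [IntermediateField.mem_fixingSubgroup_iff, MulAction.mem_stabilizer_iff]
    constructor
    · intro h
      funext g
      exact h _ (IntermediateField.subset_adjoin _ _ ⟨g, rfl⟩)
    · intro h x hx
      have hg : ∀ g, σ (χ' g) = χ' g := fun g => congrFun h g
      induction hx using IntermediateField.adjoin_induction with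
      | mem x hx =>
        obtain ⟨g, rfl⟩ := hx
        exact hg g
      | algebraMap x => exact AlgEquiv.commutes σ x
      | add x y _ _ hx hy => rw [map_add, hx, hy]
      | inv x _ hx => rw [map_inv₀, hx]
      | mul x y _ _ hx hy => rw [map_mul, hx, hy]
  rw [hstab, MulAction.index_stabilizer]
  have hinj : Function.Injective (fun f : G → K => fun g => ι (f g)) := by
    intro f f' h
    funext g
    exact ι.toRingHom.injective (congrFun h g)
  have himg : galOrbit n χ = (fun f : G → K => fun g => ι (f g)) ''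
      MulAction.orbit Gal(K/ℚ) χ' := by
    ext ξ
    constructor
    · rintro ⟨u, hu, rfl⟩
      obtain ⟨σ, hσ⟩ := exists_aut_pow n K u hu
      refine ⟨σ • χ', MulAction.mem_orbit _ _, ?_⟩
      funext g
      exact h2 σ u hσ g
    · rintro ⟨_, ⟨σ, rfl⟩, rfl⟩
      obtain ⟨u, hu, hσ⟩ := exists_pow_of_aut n K σ
      refine ⟨u, hu, ?_⟩
      funext g
      exact h2 σ u hσ g
  rw [himg, Set.ncard_image_of_injective _ hinj]

variable {K} in
theorem finrank_fld_pos_aux (ι : K →ₐ[ℚ] ℂ) {χ : G → ℂ} (hχ : IsCharacter G χ) (hn : ∀ g : G, g ^ n = 1) :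
    0 < finrank ℚ (fld χ) := by
  obtain ⟨χ', h1, h2⟩ := exists_lift_char n ι hχ hn
  rw [finrank_fld_eq_adjoin ι h1]
  exact Module.finrank_pos

variable {K} in
theorem finrank_fld_dvd_aux (ι : K →ₐ[ℚ] ℂ) {χ : G → ℂ} (hχ : IsCharacter G χ) (hn : ∀ g : G, g ^ n = 1) :
    finrank ℚ (fld χ) ∣ n.totient := by
  obtain ⟨χ', h1, h2⟩ := exists_lift_char n ι hχ hn
  rw [finrank_fld_eq_adjoin ι h1, ← IsCyclotomicExtension.finrank K
    (Polynomial.cyclotomic.irreducible_rat (NeZero.pos n))]
  exact ⟨finrank (IntermediateField.adjoin ℚ (Set.range χ')) K,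
    (Module.finrank_mul_finrank ℚ (IntermediateField.adjoin ℚ (Set.range χ')) K).symm⟩

end

section

variable (n : ℕ) [NeZero n] {G : Type u} [Group G]

/-- **The degree of the field of values is the size of the Galois orbit.** -/
theorem finrank_fld_eq_ncard {χ : G → ℂ} (hχ : IsCharacter G χ) (hn : ∀ g : G, g ^ n = 1) :
    finrank ℚ (fld χ) = (galOrbit n χ).ncard := by
  letI : Algebra ℚ (CyclotomicField n ℚ) := CyclotomicField.algebra n ℚ
  haveI : IsGalois ℚ (CyclotomicField n ℚ) := IsCyclotomicExtension.isGalois {n} ℚ _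
  haveI : FiniteDimensional ℚ (CyclotomicField n ℚ) :=
    IsCyclotomicExtension.finiteDimensional {n} ℚ _
  let ι : CyclotomicField n ℚ →ₐ[ℚ] ℂ := IsAlgClosed.lift
  exact finrank_fld_eq_ncard_aux n ι hχ hn

theorem finrank_fld_pos {χ : G → ℂ} (hχ : IsCharacter G χ) (hn : ∀ g : G, g ^ n = 1) :
    0 < finrank ℚ (fld χ) := by
  letI : Algebra ℚ (CyclotomicField n ℚ) := CyclotomicField.algebra n ℚ
  haveI : IsGalois ℚ (CyclotomicField n ℚ) := IsCyclotomicExtension.isGalois {n} ℚ _
  haveI : FiniteDimensional ℚ (CyclotomicField n ℚ) :=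
    IsCyclotomicExtension.finiteDimensional {n} ℚ _
  let ι : CyclotomicField n ℚ →ₐ[ℚ] ℂ := IsAlgClosed.lift
  exact finrank_fld_pos_aux n ι hχ hn

/-- The field of values has degree dividing the degree of the cyclotomic field. -/
theorem finrank_fld_dvd {χ : G → ℂ} (hχ : IsCharacter G χ) (hn : ∀ g : G, g ^ n = 1) :
    finrank ℚ (fld χ) ∣ n.totient := by
  letI : Algebra ℚ (CyclotomicField n ℚ) := CyclotomicField.algebra n ℚ
  haveI : IsGalois ℚ (CyclotomicField n ℚ) := IsCyclotomicExtension.isGalois {n} ℚ _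
  haveI : FiniteDimensional ℚ (CyclotomicField n ℚ) :=
    IsCyclotomicExtension.finiteDimensional {n} ℚ _
  let ι : CyclotomicField n ℚ →ₐ[ℚ] ℂ := IsAlgClosed.lift
  exact finrank_fld_dvd_aux n ι hχ hn

end

/-- A primitive `m`-th root of unity in the field of values forces `φ(m)` to divide the degree. -/
theorem totient_dvd_finrank_fld {G : Type u} {χ : G → ℂ} {ζ : ℂ} {m : ℕ} (hm : 0 < m)
    (hζ : IsPrimitiveRoot ζ m) (hmem : ζ ∈ fld χ) : m.totient ∣ finrank ℚ (fld χ) := by
  have hint : IsIntegral ℚ ζ := (hζ.isIntegral hm).tower_top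
  have h1 : finrank ℚ (IntermediateField.adjoin ℚ {ζ}) = m.totient := by
    rw [IntermediateField.adjoin.finrank hint, ← Polynomial.cyclotomic_eq_minpoly_rat hζ hm,
      Polynomial.natDegree_cyclotomic]
  rw [← h1]
  apply IntermediateField.finrank_dvd_of_le_right
  exact (IntermediateField.adjoin_simple_le_iff).2 hmem

end Cfsg.Agent.Lib.CharExtra
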