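import Mathlib
import Cfsg.Agent.Lib.CharExtra.FieldDeg
import Cfsg.Agent.Lib.Char.Monomial
import Cfsg.Agent.Lib.Char.Clifford
import Cfsg.Agent.Lib.Char.Constituent
import Cfsg.Agent.Lib.Degree.GaloisChar
import Cfsg.Agent.Lib.Degree.Cod
import Cfsg.Agent.Lib.PGroup.Basic

/-!
# Faithful characters of `p`-groups: the order is bounded by the degree and the field of values
-/

set_option autoImplicit false
set_option linter.unusedSectionVars false
set_option linter.unusedSimpArgs false
set_option linter.unusedVariables false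
set_option linter.style.haveILetI false
set_option linter.unnecessarySimpa false

open scoped ComplexConjugate
open Module

namespace Cfsg.Agent.Lib.CharExtra

open Cfsg (classInner IsCharacter IsIrrCharacter IrrCharacter IsClassFunction charDegree indFun
  extendByZero)
open Cfsg.Agent.Lib.Char
open Cfsg.Agent.Lib.Degree (kerOf mem_kerOf_iff kerOf_normal galois_isIrr mem_of_pow_mem_of_coprime)

universe u

section General

variable {G : Type u} [Group G] [Fintype G]

theorem eq_of_add_eq_irr {A B χ : G → ℂ} (hA : IsCharacter G A) (hB : IsCharacter G B)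
    (hχ : IsIrrCharacter G χ) (h : A + B = χ) (hA0 : A ≠ 0) : A = χ := by
  obtain ⟨φ, hφ, hne⟩ := exists_constituent hA hA0
  have h1 : classInner χ φ ≠ 0 := by
    rw [← h, classInner_add_left]
    obtain ⟨n₁, hn₁⟩ := classInner_isCharacter_nat hA (IsIrrCharacter.isCharacter hφ)
    obtain ⟨n₂, hn₂⟩ := classInner_isCharacter_nat hB (IsIrrCharacter.isCharacter hφ)
    rw [hn₁] at hne ⊢
    rw [hn₂]
    have hn : n₁ ≠ 0 := by
      rintro rfl
      simp at hne
    exact_mod_cast (by omega : n₁ + n₂ ≠ 0)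
  have h2 : χ = φ := eq_of_irr_of_constituent hχ hφ h1
  subst h2
  refine eq_of_constituent_of_degree_eq hA hχ hne ?_
  have h3 := charDegree_add hA hB
  rw [h] at h3
  omega

end General

section Ind

variable {P : Type u} [Group P] [Fintype P] {p : ℕ} [hp : Fact p.Prime]

/-- A nonlinear irreducible character of a `p`-group is induced from a subgroup of index `p`. -/
theorem exists_index_prime_ind (hP : IsPGroup p P) {χ : P → ℂ} (hχ : IsIrrCharacter P χ)
    (h1 : charDegree χ ≠ 1) :
    ∃ U : Subgroup P, U.Normal ∧ U.index = p ∧ ∃ ψ : U → ℂ, IsIrrCharacter U ψ ∧ indFun U ψ = χ := by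
  classical
  have hχ' := hχ
  obtain ⟨m, ρ, hρ, rfl⟩ := hχ
  have hdeg : finrank ℂ (Fin m → ℂ) ≠ 1 := by
    intro h
    apply h1
    apply charDegree_natCast
    rw [Representation.char_one, h]
  have hnil : Group.IsNilpotent (P ⧸ scalarSubgroup ρ) := (hP.to_quotient _).isNilpotent
  obtain ⟨T, hT, ψ₀, hψ₀, hind⟩ := imprimitive_of_quotient_nilpotent ρ hρ hdeg hnil
  obtain ⟨U, hU, hTU⟩ := (eq_top_or_exists_le_coatom T).resolve_left hT
  have hUi := Cfsg.Agent.Lib.PGroup.index_eq_prime_of_isCoatom hP hU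
  have hUn := Cfsg.Agent.Lib.PGroup.normal_of_index_eq_prime hP hUi
  haveI : Fintype U := Fintype.ofFinite U
  have htrans := indFun_trans T U hTU ψ₀
  set θ : (T.subgroupOf U) → ℂ := fun x => ψ₀ ⟨(x : U), Subgroup.mem_subgroupOf.mp x.2⟩ with hθdef
  have hθc : IsCharacter (T.subgroupOf U) θ :=
    IsCharacter.comp (Subgroup.subgroupOfEquivOfLe hTU).toMonoidHom (IsIrrCharacter.isCharacter hψ₀)
  haveI : Fintype (T.subgroupOf U) := Fintype.ofFinite _
  have hI : IsCharacter U (indFun (T.subgroupOf U) θ) := indFun_isCharacter _ hθc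
  have hne : indFun (T.subgroupOf U) θ ≠ 0 := by
    intro h0
    rw [h0, indFun_zero, hind] at htrans
    have := map_one_ne_zero_of_irr hχ'
    rw [← htrans] at this
    exact this rfl
  obtain ⟨ψ, hψ, hc⟩ := exists_constituent hI hne
  have hsub := isCharacter_sub_of_constituent hI hψ hc
  refine ⟨U, hUn, hUi, ψ, hψ, ?_⟩
  refine eq_of_add_eq_irr (indFun_isCharacter U (IsIrrCharacter.isCharacter hψ))
    (indFun_isCharacter U hsub) hχ' ?_ ?_
  · rw [← indFun_add, add_sub_cancel, htrans, hind]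
  · intro h0
    have h2 := congrFun h0 1
    rw [indFun_one] at h2
    have h3 := map_one_ne_zero_of_irr hψ
    have h4 : (U.index : ℂ) ≠ 0 := by exact_mod_cast U.index_ne_zero_of_finite
    simp only [Pi.zero_apply] at h2
    exact (mul_ne_zero h4 h3) h2

variable {U : Subgroup P}

theorem ker_ind_le (hN : U.Normal) {ψ : U → ℂ} (hψ : IsIrrCharacter U ψ) :
    kerOf (indFun U ψ) ≤ U := by
  intro g hg
  by_contra hgU
  have hc := indFun_isCharacter U (IsIrrCharacter.isCharacter hψ)
  have h1 := (mem_kerOf_iff hc).1 hg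
  have h2 : indFun U ψ g = 0 := by
    rw [indFun_apply]
    have : ∀ x : P, extendByZero U ψ (x⁻¹ * g * x) = 0 := by
      intro x
      apply extendByZero_of_not_mem
      intro h
      apply hgU
      have := hN.conj_mem _ h x
      simpa [mul_assoc] using this
    simp [this]
  have h3 : indFun U ψ 1 ≠ 0 := by
    rw [indFun_one]
    have h4 : (U.index : ℂ) ≠ 0 := by exact_mod_cast U.index_ne_zero_of_finite
    exact mul_ne_zero h4 (map_one_ne_zero_of_irr hψ)
  rw [h2] at h1
  exact h3 h1.symm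

theorem mem_ker_ind_of (hN : U.Normal) {ψ : U → ℂ} (hψ : IsIrrCharacter U ψ) (u : U)
    (h : ∀ x : P, ψ ⟨x⁻¹ * u * x, by
      have := hN.conj_mem u u.2 x⁻¹
      simpa using this⟩ = ψ 1) : (u : P) ∈ kerOf (indFun U ψ) := by
  have hc := indFun_isCharacter U (IsIrrCharacter.isCharacter hψ)
  rw [mem_kerOf_iff hc, indFun_apply, indFun_apply]
  congr 1
  refine Finset.sum_congr rfl fun x _ => ?_
  have hm : x⁻¹ * (u : P) * x ∈ U := by
    have := hN.conj_mem u u.2 x⁻¹
    simpa using this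
  have hm1 : x⁻¹ * 1 * x ∈ U := by simp
  rw [extendByZero_of_mem _ _ hm, extendByZero_of_mem _ _ hm1, h x]
  congr 1
  apply Subtype.ext
  simp

/-- The index of the kernel of an induced character. -/
theorem relIndex_ker_ind_le (hN : U.Normal) {ψ : U → ℂ} (hψ : IsIrrCharacter U ψ) :
    (kerOf (indFun U ψ)).relIndex U ≤ (kerOf ψ).index ^ U.index := by
  classical
  haveI : Fintype (P ⧸ U) := Fintype.ofFinite _
  have hψc := IsIrrCharacter.isCharacter hψ
  haveI hKn : (kerOf ψ).Normal := kerOf_normal (IsCharacter.isClassFunction hψc)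
  let r : P ⧸ U → P := Quotient.out
  let N : Subgroup U := ⨅ t : P ⧸ U, (kerOf ψ).comap (conjEquiv hN (r t)⁻¹).toMonoidHom
  have hle : N ≤ (kerOf (indFun U ψ)).subgroupOf U := by
    intro u hu
    rw [Subgroup.mem_subgroupOf]
    apply mem_ker_ind_of hN hψ
    intro x
    have ht := (Subgroup.mem_iInf.1 hu) (QuotientGroup.mk x)
    rw [Subgroup.mem_comap] at ht
    have hy : (r (QuotientGroup.mk x))⁻¹ * x ∈ U := by
      have : (QuotientGroup.mk (r (QuotientGroup.mk x)) : P ⧸ U) = QuotientGroup.mk x :=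
        QuotientGroup.out_eq' _
      exact QuotientGroup.eq.1 this
    set rx := r (QuotientGroup.mk x) with hrx
    let y : U := ⟨rx⁻¹ * x, hy⟩
    have h5 := hKn.conj_mem _ ht y⁻¹
    have h6 := (mem_kerOf_iff hψc).1 h5
    rw [← h6]
    congr 1
    apply Subtype.ext
    simp [conjEquiv, y, mul_assoc]
  have h1 : (kerOf (indFun U ψ)).relIndex U ≤ N.index := by
    rw [Subgroup.relIndex]
    exact Subgroup.index_antitone hle
  refine h1.trans ?_
  have h2 := Subgroup.index_iInf_le (fun t : P ⧸ U => (kerOf ψ).comap (conjEquiv hN (r t)⁻¹).toMonoidHom)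
  refine h2.trans ?_
  have h3 : ∀ t : P ⧸ U, ((kerOf ψ).comap (conjEquiv hN (r t)⁻¹).toMonoidHom).index = (kerOf ψ).index :=
    fun t => Subgroup.index_comap_of_surjective _ (conjEquiv hN (r t)⁻¹).surjective
  simp only [h3, Finset.prod_const, Finset.card_univ]
  have h4 : Fintype.card (P ⧸ U) = U.index := by
    rw [Subgroup.index_eq_card, Nat.card_eq_fintype_card]
  rw [h4]

/-- If all conjugates of `ψ` have the kernel of `ψ`, the kernel of the induced character is that
of `ψ`. -/
theorem relIndex_ker_ind_le_of_same (hN : U.Normal) {ψ : U → ℂ} (hψ : IsIrrCharacter U ψ)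
    (hsame : ∀ x : P, ∀ k ∈ kerOf ψ, conjFn hN x ψ k = ψ 1) :
    (kerOf (indFun U ψ)).relIndex U ≤ (kerOf ψ).index := by
  have hle : kerOf ψ ≤ (kerOf (indFun U ψ)).subgroupOf U := by
    intro u hu
    rw [Subgroup.mem_subgroupOf]
    apply mem_ker_ind_of hN hψ
    intro x
    have h := hsame x⁻¹ u hu
    rw [← h]
    simp only [conjFn]
    congr 2
    simp
  rw [Subgroup.relIndex]
  exact Subgroup.index_antitone hle

end Ind

section FieldForm

variable {P : Type u} [Group P] [Fintype P] {p : ℕ} [hp : Fact p.Prime]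

/-- A nontrivial irreducible character of a `p`-group has a primitive `p`-th root of unity in its
field of values. -/
theorem exists_prime_root_mem_fld (hP : IsPGroup p P) {χ : P → ℂ} (hχ : IsIrrCharacter P χ)
    (hne : χ ≠ fun _ => 1) : ∃ ω : ℂ, IsPrimitiveRoot ω p ∧ ω ∈ fld χ := by
  classical
  have hχ0 := map_one_ne_zero_of_irr hχ
  obtain ⟨m, ρ, hρ, rfl⟩ := hχ
  have hker : ρ.ker ≠ ⊤ := by
    intro htop
    apply hne
    have hall : ∀ g : P, ρ g = 1 := fun g => by
      have : g ∈ ρ.ker := by rw [htop]; trivial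
      exact this
    have h1 : finrank ℂ (Fin m → ℂ) = 1 := by
      refine finrank_eq_one_of_image_comm ρ hρ fun a b => ?_
      rw [map_mul, map_mul, hall a, hall b]
    funext g
    have hg1 : ρ g = ρ 1 := by rw [hall g, hall 1]
    rw [show ρ.character g = ρ.character 1 by
      show LinearMap.trace ℂ _ (ρ g) = LinearMap.trace ℂ _ (ρ 1)
      rw [hg1], Representation.char_one, h1]
    simp
  haveI hnt : Nontrivial (P ⧸ ρ.ker) := QuotientGroup.nontrivial_iff.mpr hker
  have hQ : IsPGroup p (P ⧸ ρ.ker) := hP.to_quotient _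
  haveI := hQ.center_nontrivial
  obtain ⟨⟨q, hq⟩, hq1⟩ := exists_ne (1 : Subgroup.center (P ⧸ ρ.ker))
  obtain ⟨z, rfl⟩ := QuotientGroup.mk_surjective q
  have hz1 : z ∉ ρ.ker := by
    intro h
    apply hq1
    apply Subtype.ext
    exact (QuotientGroup.eq_one_iff z).2 h
  have hcomm : ∀ g : P, ρ (g * z) = ρ (z * g) := by
    intro g
    have h1 : (QuotientGroup.mk (g * z) : P ⧸ ρ.ker) = QuotientGroup.mk (z * g) := by
      rw [QuotientGroup.mk_mul, QuotientGroup.mk_mul]
      exact (Subgroup.mem_center_iff.1 hq _)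
    have h2 := QuotientGroup.eq.1 h1
    have h3 : ρ ((g * z)⁻¹ * (z * g)) = 1 := h2
    have h5 : z * g = (g * z) * ((g * z)⁻¹ * (z * g)) := by group
    calc ρ (g * z) = ρ (g * z) * 1 := (mul_one _).symm
      _ = ρ (g * z) * ρ ((g * z)⁻¹ * (z * g)) := by rw [h3]
      _ = ρ ((g * z) * ((g * z)⁻¹ * (z * g))) := (map_mul ρ _ _).symm
      _ = ρ (z * g) := by rw [← h5]
  obtain ⟨c, hc⟩ := schur_scalar ρ hρ (ρ z) (fun g v => by
    have h1 : ρ z (ρ g v) = ρ (z * g) v := by rw [map_mul]; rfl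
    have h2 : ρ g (ρ z v) = ρ (g * z) v := by rw [map_mul]; rfl
    rw [h1, h2, hcomm g])
  have hzpow : ∀ k : ℕ, ρ (z ^ k) = c ^ k • (1 : Module.End ℂ (Fin m → ℂ)) := by
    intro k
    rw [map_pow, hc, smul_pow, one_pow]
  have hc1 : c ≠ 1 := by
    rintro rfl
    apply hz1
    show ρ z = 1
    rw [hc, one_smul]
  obtain ⟨a, ha⟩ := IsPGroup.iff_card.1 hP
  have hfin : finrank ℂ (Fin m → ℂ) ≠ 0 := (finrank_pos_of_irr hρ).ne'
  have hcpow : c ^ p ^ a = 1 := by
    have h1 : z ^ p ^ a = 1 := by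
      rw [← ha]
      exact pow_card_eq_one'
    have h2 := hzpow (p ^ a)
    rw [h1, map_one] at h2
    by_contra h3
    have h4 : (1 : Module.End ℂ (Fin m → ℂ)) = c ^ p ^ a • 1 := h2
    have h5 := congrArg (fun T => LinearMap.trace ℂ _ T) h4
    simp only [map_smul, LinearMap.trace_one, smul_eq_mul] at h5
    have h6 : ((finrank ℂ (Fin m → ℂ) : ℕ) : ℂ) ≠ 0 := by exact_mod_cast hfin
    apply h3
    have h7 : (1 - c ^ p ^ a) * ((finrank ℂ (Fin m → ℂ) : ℕ) : ℂ) = 0 := by
      rw [sub_mul, one_mul]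
      exact sub_eq_zero.2 (by simpa using h5)
    rcases mul_eq_zero.1 h7 with h8 | h8
    · exact (sub_eq_zero.1 h8).symm
    · exact absurd h8 h6
  -- the least `j` with `c ^ p ^ j = 1`
  have hex : ∃ j, c ^ p ^ j = 1 := ⟨a, hcpow⟩
  set j := Nat.find hex with hj
  have hjs : c ^ p ^ j = 1 := Nat.find_spec hex
  have hj0 : j ≠ 0 := by
    intro h0
    rw [h0, pow_zero, pow_one] at hjs
    exact hc1 hjs
  obtain ⟨i, hi⟩ := Nat.exists_eq_succ_of_ne_zero hj0
  have hi1 : c ^ p ^ i ≠ 1 := Nat.find_min hex (by omega : i < Nat.find hex)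
  refine ⟨c ^ p ^ i, ?_, ?_⟩
  · have h1 : (c ^ p ^ i) ^ p = 1 := by
      rw [← pow_mul, ← pow_succ, ← Nat.succ_eq_add_one, ← hi, hjs]
    have h2 := orderOf_eq_prime h1 hi1
    have h3 := IsPrimitiveRoot.orderOf (c ^ p ^ i)
    rwa [h2] at h3
  · have h1 : ρ.character (z ^ p ^ i) = c ^ p ^ i * (finrank ℂ (Fin m → ℂ) : ℂ) := by
      show LinearMap.trace ℂ _ (ρ (z ^ p ^ i)) = _
      rw [hzpow, map_smul, LinearMap.trace_one, smul_eq_mul]
    have h2 : ρ.character 1 = (finrank ℂ (Fin m → ℂ) : ℂ) := Representation.char_one ρ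
    have h3 : c ^ p ^ i = ρ.character (z ^ p ^ i) / ρ.character 1 := by
      rw [h1, h2]
      have h6 : ((finrank ℂ (Fin m → ℂ) : ℕ) : ℂ) ≠ 0 := by exact_mod_cast hfin
      field_simp
    rw [h3]
    exact div_mem (mem_fld _ _) (mem_fld _ _)

/-- The field of values of a nontrivial irreducible character of a `p`-group has degree
`(p - 1) p ^ t`. -/
theorem finrank_fld_form (hP : IsPGroup p P) {χ : P → ℂ} (hχ : IsIrrCharacter P χ)
    (hne : χ ≠ fun _ => 1) : ∃ t : ℕ, finrank ℚ (fld χ) = (p - 1) * p ^ t := by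
  classical
  obtain ⟨a, ha⟩ := IsPGroup.iff_card.1 hP
  have hpp := hp.out
  haveI : NeZero (Nat.card P) := ⟨Nat.card_pos.ne'⟩
  have hg : ∀ g : P, g ^ Nat.card P = 1 := fun g => pow_card_eq_one'
  have h1 := finrank_fld_dvd (Nat.card P) (IsIrrCharacter.isCharacter hχ) hg
  obtain ⟨ω, hω, hmem⟩ := exists_prime_root_mem_fld hP hχ hne
  have h2 := totient_dvd_finrank_fld hpp.pos hω hmem
  rw [Nat.totient_prime hpp] at h2
  obtain ⟨c, hc⟩ := h2
  rcases a with _ | b
  · exfalso
    apply hne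
    have hsub : Subsingleton P := by
      apply (Nat.card_eq_one_iff_unique.mp _).1
      rw [ha, pow_zero]
    have := hχ
    obtain ⟨m, ρ, hρ, hh⟩ := hχ
    funext g
    rw [Subsingleton.elim g 1]
    rw [← hh, Representation.char_one]
    have : finrank ℂ (Fin m → ℂ) = 1 := by
      refine finrank_eq_one_of_image_comm ρ hρ fun a b => ?_
      rw [Subsingleton.elim (a * b) (b * a)]
    rw [this]
    simp
  · rw [ha, Nat.totient_prime_pow_succ hpp, hc, mul_comm (p ^ b)] at h1
    have hp1 : 0 < p - 1 := by have := hpp.two_le; omega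
    have h3 := Nat.dvd_of_mul_dvd_mul_left hp1 h1
    obtain ⟨t, -, rfl⟩ := (Nat.dvd_prime_pow hpp).1 h3
    exact ⟨t, hc⟩

end FieldForm

section Orbit

variable {P : Type u} [Group P] [Fintype P] {U : Subgroup P} {p : ℕ} [hp : Fact p.Prime]

theorem indFun_gal (ψ : U → ℂ) {u : ℕ} (hu : u.Coprime (Nat.card P)) (g : P) :
    indFun U (fun h => ψ (h ^ u)) g = indFun U ψ (g ^ u) := by
  rw [indFun_apply, indFun_apply]
  congr 1
  refine Finset.sum_congr rfl fun x _ => ?_
  have hc : x⁻¹ * g ^ u * x = (x⁻¹ * g * x) ^ u := by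
    have := conj_pow (a := x⁻¹) (b := g) (i := u)
    simpa using this.symm
  rw [hc]
  by_cases hm : x⁻¹ * g * x ∈ U
  · rw [extendByZero_of_mem _ _ hm, extendByZero_of_mem _ _ (U.pow_mem hm u)]
    rfl
  · rw [extendByZero_of_not_mem _ _ hm, extendByZero_of_not_mem _ _
      (fun h => hm (mem_of_pow_mem_of_coprime U hu h))]

theorem coprime_card_subgroup {u : ℕ} (hu : u.Coprime (Nat.card P)) : u.Coprime (Nat.card U) :=
  Nat.Coprime.coprime_dvd_right (Subgroup.card_subgroup_dvd_card U) hu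

/-- Every irreducible character with the same induced character is a conjugate. -/
theorem exists_conj_of_ind_eq [Fintype U] (hN : U.Normal) {ψ₁ f : U → ℂ} (hψ₁ : IsIrrCharacter U ψ₁)
    (hf : IsIrrCharacter U f) (hχ : IsIrrCharacter P (indFun U ψ₁)) (h : indFun U f = indFun U ψ₁) :
    ∃ x : P, f = conjFn hN x ψ₁ := by
  have h1 : classInner (fun n : U => indFun U ψ₁ n) f ≠ 0 := by
    have h2 := frobenius_reciprocity' U f (indFun U ψ₁) (IsCharacter.isClassFunction (IsIrrCharacter.isCharacter hχ))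
    rw [← h2, h, classInner_irr_self hχ]
    exact one_ne_zero
  rw [classInner_indFun_restrict hN] at h1
  have h2 : ∑ x : P, classInner (conjFn hN x⁻¹ ψ₁) f ≠ 0 := by
    intro h3
    rw [h3, mul_zero] at h1
    exact h1 rfl
  obtain ⟨x, -, hx⟩ := Finset.exists_ne_zero_of_sum_ne_zero h2
  exact ⟨x⁻¹, (eq_of_irr_of_constituent (conjFn_isIrr hN x⁻¹ hψ₁) hf hx).symm⟩

/-- The conjugates of a class function, indexed by cosets. -/
theorem conjFn_eq_out (hN : U.Normal) {θ : U → ℂ} (hθ : IsClassFunction U θ) (z : P) :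
    conjFn hN z θ = conjFn hN (Quotient.out (QuotientGroup.mk z : P ⧸ U)) θ := by
  set r := Quotient.out (QuotientGroup.mk z : P ⧸ U) with hr
  have hm : r⁻¹ * z ∈ U := by
    have : (QuotientGroup.mk r : P ⧸ U) = QuotientGroup.mk z := QuotientGroup.out_eq' _
    exact QuotientGroup.eq.1 this
  have hm' : z * r⁻¹ ∈ U := by
    have := hN.conj_mem _ hm r
    simpa [mul_assoc] using this
  funext n
  simp only [conjFn]
  have h := hθ ⟨r * n * r⁻¹, hN.conj_mem n n.2 r⟩ ⟨z * r⁻¹, hm'⟩
  rw [← h]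
  congr 1
  apply Subtype.ext
  simp [mul_assoc]

/-- Comparison of the Galois orbits of `ψ` and of the induced character. -/
theorem orbit_compare [Fintype U] (hN : U.Normal) (hUi : U.index = p) {ψ : U → ℂ} (hψ : IsIrrCharacter U ψ)
    (hχ : IsIrrCharacter P (indFun U ψ)) :
    finrank ℚ (fld (indFun U ψ)) ≤ finrank ℚ (fld ψ) ∧
    finrank ℚ (fld ψ) ≤ p * finrank ℚ (fld (indFun U ψ)) ∧
    (finrank ℚ (fld ψ) = p * finrank ℚ (fld (indFun U ψ)) →
      ∀ x : P, ∃ u : ℕ, u.Coprime (Nat.card P) ∧ conjFn hN x ψ = fun h => ψ (h ^ u)) := by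
  classical
  haveI : NeZero (Nat.card P) := ⟨Nat.card_pos.ne'⟩
  have hgP : ∀ g : P, g ^ Nat.card P = 1 := fun g => pow_card_eq_one'
  have hgU : ∀ g : U, g ^ Nat.card P = 1 := fun g => by
    apply Subtype.ext
    simp [pow_card_eq_one']
  set n := Nat.card P with hn
  set χ := indFun U ψ with hχdef
  have hψc := IsIrrCharacter.isCharacter hψ
  have hχc := IsIrrCharacter.isCharacter hχ
  have h1 := finrank_fld_eq_ncard n hψc hgU
  have h2 := finrank_fld_eq_ncard n hχc hgP
  have hpos1 := finrank_fld_pos n hψc hgU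
  have hpos2 := finrank_fld_pos n hχc hgP
  have hfinA : (galOrbit n ψ).Finite := Set.finite_of_ncard_pos (by omega)
  have hfinB : (galOrbit n χ).Finite := Set.finite_of_ncard_pos (by omega)
  set A := hfinA.toFinset with hA
  set B := hfinB.toFinset with hB
  have hAc : finrank ℚ (fld ψ) = A.card := by
    rw [h1, Set.ncard_eq_toFinset_card _ hfinA]
  have hBc : finrank ℚ (fld χ) = B.card := by
    rw [h2, Set.ncard_eq_toFinset_card _ hfinB]
  rw [hAc, hBc]
  let Φ : (U → ℂ) → (P → ℂ) := fun f => indFun U f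
  have hmaps : ∀ f ∈ A, Φ f ∈ B := by
    intro f hf
    rw [hA, Set.Finite.mem_toFinset] at hf
    obtain ⟨u, hu, rfl⟩ := hf
    rw [hB, Set.Finite.mem_toFinset]
    refine ⟨u, hu, ?_⟩
    funext g
    exact indFun_gal ψ hu g
  have hsurj : B ⊆ A.image Φ := by
    intro b hb
    rw [hB, Set.Finite.mem_toFinset] at hb
    obtain ⟨u, hu, rfl⟩ := hb
    rw [Finset.mem_image]
    refine ⟨fun h => ψ (h ^ u), ?_, ?_⟩
    · rw [hA, Set.Finite.mem_toFinset]
      exact ⟨u, hu, rfl⟩
    · funext g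
      exact indFun_gal ψ hu g
  let W : (U → ℂ) → Finset (U → ℂ) := fun θ =>
    Finset.univ.image (fun t : P ⧸ U => conjFn hN (Quotient.out t) θ)
  have hWc : ∀ θ, (W θ).card ≤ p := by
    intro θ
    refine Finset.card_image_le.trans ?_
    rw [Finset.card_univ, ← Nat.card_eq_fintype_card, ← Subgroup.index_eq_card, hUi]
  have hfib : ∀ b ∈ B, ∃ θ, (A.filter (fun f => Φ f = b)) ⊆ W θ := by
    intro b hb
    have hb' := hb
    rw [hB, Set.Finite.mem_toFinset] at hb'
    obtain ⟨u, hu1, hu2⟩ := hb'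
    refine ⟨fun h => ψ (h ^ u), ?_⟩
    intro f hf
    rw [Finset.mem_filter] at hf
    obtain ⟨hfA, hfb⟩ := hf
    have hcu := coprime_card_subgroup (U := U) hu1
    have hψu : IsIrrCharacter U (fun h => ψ (h ^ u)) := galois_isIrr hψ hcu
    have hfA' := hfA
    rw [hA, Set.Finite.mem_toFinset] at hfA'
    obtain ⟨v, hv, hfv⟩ := hfA'
    have hfI : IsIrrCharacter U f := by
      rw [hfv]
      exact galois_isIrr hψ (coprime_card_subgroup (U := U) hv)
    have hind : indFun U (fun h => ψ (h ^ u)) = b := by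
      rw [hu2]
      funext g
      exact indFun_gal ψ hu1 g
    have hindI : IsIrrCharacter P (indFun U (fun h => ψ (h ^ u))) := by
      rw [hind, hu2]
      exact galois_isIrr hχ hu1
    obtain ⟨x, hx⟩ := exists_conj_of_ind_eq hN hψu hfI hindI (hfb.trans hind.symm)
    rw [Finset.mem_image]
    refine ⟨QuotientGroup.mk x, Finset.mem_univ _, ?_⟩
    rw [hx]
    exact (conjFn_eq_out hN (IsCharacter.isClassFunction (IsIrrCharacter.isCharacter hψu)) x).symm
  have hfibc : ∀ b ∈ B, (A.filter (fun f => Φ f = b)).card ≤ p := fun b hb => by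
    obtain ⟨θ, hθ⟩ := hfib b hb
    exact (Finset.card_le_card hθ).trans (hWc _)
  have hsum : A.card = ∑ b ∈ B, (A.filter (fun f => Φ f = b)).card :=
    Finset.card_eq_sum_card_fiberwise (fun f hf => hmaps f hf)
  refine ⟨?_, ?_, ?_⟩
  · exact (Finset.card_le_card hsurj).trans Finset.card_image_le
  · rw [hsum]
    calc ∑ b ∈ B, (A.filter (fun f => Φ f = b)).card ≤ ∑ b ∈ B, p := Finset.sum_le_sum hfibc
      _ = p * B.card := by rw [Finset.sum_const, smul_eq_mul, mul_comm]
  · intro heq x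
    -- the fibre over `χ` is full
    have hχB : χ ∈ B := by
      rw [hB, Set.Finite.mem_toFinset]
      refine ⟨1, Nat.coprime_one_left _, ?_⟩
      funext g
      simp
    have hfull : (A.filter (fun f => Φ f = χ)).card = p := by
      by_contra hlt
      have hlt' : (A.filter (fun f => Φ f = χ)).card < p := lt_of_le_of_ne (hfibc χ hχB) hlt
      have : ∑ b ∈ B, (A.filter (fun f => Φ f = b)).card < ∑ b ∈ B, p :=
        Finset.sum_lt_sum hfibc ⟨χ, hχB, hlt'⟩
      rw [← hsum, Finset.sum_const, smul_eq_mul, mul_comm] at this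
      omega
    have hψA : ψ ∈ A := by
      rw [hA, Set.Finite.mem_toFinset]
      refine ⟨1, Nat.coprime_one_left _, ?_⟩
      funext g
      simp
    -- all conjugates of `ψ` lie in the fibre
    have hsub : A.filter (fun f => Φ f = χ) ⊆ W ψ := by
      intro f hf
      rw [Finset.mem_filter] at hf
      obtain ⟨hfA, hfb⟩ := hf
      have hfA' := hfA
      rw [hA, Set.Finite.mem_toFinset] at hfA'
      obtain ⟨v, hv, hfv⟩ := hfA'
      have hfI : IsIrrCharacter U f := by
        rw [hfv]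
        exact galois_isIrr hψ (coprime_card_subgroup (U := U) hv)
      obtain ⟨y, hy⟩ := exists_conj_of_ind_eq hN hψ hfI hχ hfb
      rw [Finset.mem_image]
      refine ⟨QuotientGroup.mk y, Finset.mem_univ _, ?_⟩
      rw [hy]
      exact (conjFn_eq_out hN (IsCharacter.isClassFunction hψc) y).symm
    have heqW : A.filter (fun f => Φ f = χ) = W ψ :=
      Finset.eq_of_subset_of_card_le hsub (by rw [hfull]; exact hWc ψ)
    have hxW : conjFn hN x ψ ∈ W ψ := by
      rw [Finset.mem_image]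
      exact ⟨QuotientGroup.mk x, Finset.mem_univ _, (conjFn_eq_out hN (IsCharacter.isClassFunction hψc) x).symm⟩
    rw [← heqW, Finset.mem_filter] at hxW
    have hx := hxW.1
    rw [hA, Set.Finite.mem_toFinset] at hx
    exact hx

end Orbit

section Main

variable {p : ℕ} [hp : Fact p.Prime]

/-- Linear characters. -/
theorem linear_bound {P : Type u} [Group P] [Fintype P] {χ : P → ℂ}
    (hχ : IsIrrCharacter P χ) (h1 : charDegree χ = 1) {t a : ℕ}
    (hd : finrank ℚ (fld χ) = (p - 1) * p ^ t) (ha : (kerOf χ).index = p ^ a) : a ≤ t + 1 := by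
  classical
  have hpp := hp.out
  rcases a with _ | b
  · omega
  have hχc := IsIrrCharacter.isCharacter hχ
  have hone : χ 1 = 1 := by
    rw [map_one_eq_charDegree hχc, h1]
    simp
  obtain ⟨lam, rfl⟩ := exists_hom_of_character_one hχc hone
  have hker : kerOf (fun g => ((lam g : ℂˣ) : ℂ)) = lam.ker := by
    ext g
    rw [mem_kerOf_iff hχc, MonoidHom.mem_ker]
    simp only [map_one, Units.val_one]
    exact ⟨fun h => Units.ext h, fun h => by rw [h]; rfl⟩
  rw [hker, Subgroup.index_ker] at ha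
  haveI : IsCyclic lam.range := inferInstance
  obtain ⟨⟨r, hr⟩, hgen⟩ := IsCyclic.exists_generator (α := lam.range)
  obtain ⟨g, rfl⟩ := hr
  have hord : orderOf (lam g) = p ^ (b + 1) := by
    have h2 := orderOf_eq_card_of_forall_mem_zpowers hgen
    rw [ha] at h2
    have h3 := Subgroup.orderOf_coe (⟨lam g, ⟨g, rfl⟩⟩ : lam.range)
    exact h3.trans h2
  have hprim : IsPrimitiveRoot ((lam g : ℂˣ) : ℂ) (p ^ (b + 1)) := by
    rw [← hord, ← orderOf_units]
    exact IsPrimitiveRoot.orderOf _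
  have hmem : ((lam g : ℂˣ) : ℂ) ∈ fld (fun g => ((lam g : ℂˣ) : ℂ)) :=
    mem_fld (fun g => ((lam g : ℂˣ) : ℂ)) g
  have hdvd := totient_dvd_finrank_fld (pow_pos hpp.pos _) hprim hmem
  rw [hd, Nat.totient_prime_pow_succ hpp, mul_comm] at hdvd
  have hp1 : 0 < p - 1 := by have := hpp.two_le; omega
  have h3 := Nat.dvd_of_mul_dvd_mul_left hp1 hdvd
  have h4 := (Nat.pow_dvd_pow_iff_le_right hpp.one_lt).1 h3
  omega

theorem arith_one (q a a' t f' : ℕ) (hq : 1 ≤ q) (hf' : 1 ≤ f') (h : q * a' ≤ (f' - 1) + q * (t + 1) * f')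
    (ha : a ≤ 1 + a' * (q + 1)) :
    q * a ≤ ((q + 1) * f' - 1) + q * (t + 1) * ((q + 1) * f') := by
  obtain ⟨g, rfl⟩ : ∃ g, f' = g + 1 := ⟨f' - 1, by omega⟩
  have e1 : g + 1 - 1 = g := by omega
  rw [e1] at h
  have e2 : (q + 1) * (g + 1) - 1 = q * g + q + g := by
    have : (q + 1) * (g + 1) = q * g + q + g + 1 := by ring
    omega
  rw [e2]
  have h1 : q * a ≤ q * (1 + a' * (q + 1)) := Nat.mul_le_mul_left _ ha
  have h2 : q * (1 + a' * (q + 1)) = q + (q + 1) * (q * a') := by ring
  have h3 : (q + 1) * (q * a') ≤ (q + 1) * (g + q * (t + 1) * (g + 1)) := Nat.mul_le_mul_left _ h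
  nlinarith

theorem arith_two (q a a' t f' : ℕ) (hq : 1 ≤ q) (hf' : 1 ≤ f') (h : q * a' ≤ (f' - 1) + q * (t + 1 + 1) * f')
    (ha : a ≤ 1 + a') :
    q * a ≤ ((q + 1) * f' - 1) + q * (t + 1) * ((q + 1) * f') := by
  obtain ⟨g, rfl⟩ : ∃ g, f' = g + 1 := ⟨f' - 1, by omega⟩
  have e1 : g + 1 - 1 = g := by omega
  rw [e1] at h
  have e2 : (q + 1) * (g + 1) - 1 = q * g + q + g := by
    have : (q + 1) * (g + 1) = q * g + q + g + 1 := by ring
    omega
  rw [e2]
  have h1 : q * a ≤ q * (1 + a') := Nat.mul_le_mul_left _ ha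
  have h2 : q * (1 + a') = q + q * a' := by ring
  obtain ⟨r, rfl⟩ : ∃ r, q = r + 1 := ⟨q - 1, by omega⟩
  have key : 1 ≤ (t + 1) * (r + 1) * (g + 1) := Nat.succ_le_of_lt (by positivity)
  nlinarith

/-- **The main bound.** -/
theorem main_bound : ∀ (N : ℕ) (P : Type u) [Group P] [Fintype P], Nat.card P = N → IsPGroup p P →
    ∀ χ : P → ℂ, IsIrrCharacter P χ → χ ≠ (fun _ => 1) → ∀ t a : ℕ,
      finrank ℚ (fld χ) = (p - 1) * p ^ t → (kerOf χ).index = p ^ a →
      (p - 1) * a ≤ (charDegree χ - 1) + (p - 1) * (t + 1) * charDegree χ := by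
  classical
  intro N
  induction N using Nat.strong_induction_on with
  | _ N ih =>
    intro P _ _ hN hP χ hχ hne t a hd ha
    have hpp := hp.out
    have hq : 1 ≤ p - 1 := by have := hpp.two_le; omega
    by_cases h1 : charDegree χ = 1
    · have := linear_bound hχ h1 hd ha
      rw [h1]
      have e : (1 : ℕ) - 1 = 0 := rfl
      rw [e, zero_add, mul_one]
      exact Nat.mul_le_mul_left _ this
    obtain ⟨U, hUn, hUi, ψ, hψ, rfl⟩ := exists_index_prime_ind hP hχ h1
    haveI : Fintype U := Fintype.ofFinite U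
    have hψc := IsIrrCharacter.isCharacter hψ
    have hχc := IsIrrCharacter.isCharacter hχ
    have hUP : IsPGroup p U := hP.to_subgroup U
    -- `ψ` is nontrivial
    have hψne : ψ ≠ fun _ => 1 := by
      rintro rfl
      apply hne
      have h2 : classInner (indFun U (fun _ => (1 : ℂ))) (fun _ => 1) ≠ 0 := by
        have h3 := frobenius_reciprocity U (fun _ => (1 : ℂ)) (fun _ : P => (1 : ℂ)) (by
          intro g h
          rfl)
        rw [h3, classInner_irr_self (isIrrCharacter_one (G := U))]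
        exact one_ne_zero
      exact eq_of_irr_of_constituent hχ isIrrCharacter_one h2
    obtain ⟨t', ht'⟩ := finrank_fld_form hUP hψ hψne
    obtain ⟨a', ha'⟩ : ∃ a', (kerOf ψ).index = p ^ a' := by
      obtain ⟨k, hk⟩ := IsPGroup.iff_card.1 hUP
      have h2 : (kerOf ψ).index ∣ p ^ k := by
        rw [← hk]
        exact Subgroup.index_dvd_card _
      obtain ⟨a', -, h3⟩ := (Nat.dvd_prime_pow hpp).1 h2
      exact ⟨a', h3⟩
    have hcard : Nat.card U < N := by
      have h2 := Subgroup.card_mul_index U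
      rw [hUi, hN] at h2
      have h3 : 0 < Nat.card U := Nat.card_pos
      have := hpp.two_le
      nlinarith
    have hIH := ih _ hcard U rfl hUP ψ hψ hψne t' a' ht' ha'
    -- degrees
    have hdeg : charDegree (indFun U ψ) = p * charDegree ψ := by
      apply charDegree_natCast
      rw [indFun_one, hUi, map_one_eq_charDegree hψc]
      push_cast
      ring
    have hf' : 1 ≤ charDegree ψ := charDegree_pos_of_irr hψ
    -- the index of the kernel
    have hle := ker_ind_le hUn hψ
    have hrel := Subgroup.relIndex_mul_index hle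
    rw [ha, hUi] at hrel
    have hapos : a ≠ 0 := by
      rintro rfl
      rw [pow_zero] at hrel
      have := Nat.eq_one_of_mul_eq_one_left hrel
      exact hpp.one_lt.ne' this
    obtain ⟨b, rfl⟩ := Nat.exists_eq_succ_of_ne_zero hapos
    have hrel2 : (kerOf (indFun U ψ)).relIndex U = p ^ b := by
      rw [pow_succ] at hrel
      exact Nat.eq_of_mul_eq_mul_right hpp.pos hrel
    obtain ⟨h3, h4, h5⟩ := orbit_compare hUn hUi hψ hχ
    rw [ht', hd] at h3 h4
    have hp1 : 0 < p - 1 := hq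
    have ht1 : t ≤ t' := by
      have := Nat.le_of_mul_le_mul_left h3 hp1
      exact (Nat.pow_le_pow_iff_right hpp.one_lt).1 this
    have ht2 : t' ≤ t + 1 := by
      have h6 : (p - 1) * p ^ t' ≤ (p - 1) * p ^ (t + 1) := by
        calc (p - 1) * p ^ t' ≤ p * ((p - 1) * p ^ t) := h4
          _ = (p - 1) * p ^ (t + 1) := by ring
      have := Nat.le_of_mul_le_mul_left h6 hp1
      exact (Nat.pow_le_pow_iff_right hpp.one_lt).1 this
    have hpe : p = (p - 1) + 1 := by have := hpp.two_le; omega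
    rw [hdeg]
    set q := p - 1 with hqdef
    have hpq : p = q + 1 := hpe
    rw [hpq]
    rcases (by omega : t' = t ∨ t' = t + 1) with rfl | rfl
    · -- no extra Galois orbit
      have h6 := relIndex_ker_ind_le hUn hψ
      rw [hrel2, ha', hUi, ← pow_mul] at h6
      have h7 := (Nat.pow_le_pow_iff_right hpp.one_lt).1 h6
      refine arith_one q (b + 1) a' t' (charDegree ψ) hq hf' hIH ?_
      rw [← hpq]
      omega
    · -- all conjugates are Galois conjugate
      have h6 : finrank ℚ (fld ψ) = p * finrank ℚ (fld (indFun U ψ)) := by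
        rw [ht', hd]
        rw [hpq]
        ring
      have hsame : ∀ x : P, ∀ k ∈ kerOf ψ, conjFn hUn x ψ k = ψ 1 := by
        intro x k hk
        obtain ⟨u, hu, hux⟩ := h5 h6 x
        rw [hux]
        exact (mem_kerOf_iff hψc).1 ((kerOf ψ).pow_mem hk u)
      have h7 := relIndex_ker_ind_le_of_same hUn hψ hsame
      rw [hrel2, ha'] at h7
      have h8 := (Nat.pow_le_pow_iff_right hpp.one_lt).1 h7
      exact arith_two q (b + 1) a' t (charDegree ψ) hq hf' hIH (by omega)

end Main

end Cfsg.Agent.Lib.CharExtra
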