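import Cfsg.Agent.Lib.Char.Integral
import Cfsg.Agent.Lib.Char.Projective
import Cfsg.Agent.Lib.Char.Constituent
import Cfsg.Agent.Lib.Char.Induced
import Cfsg.Agent.Lib.Char.DetExt
import Cfsg.Agent.Lib.Char.Complete
import Cfsg.Agent.Lib.Char.Burnside
import Mathlib

/-!
# Primitive faithful characters of degree two

The group acts on the lines of `ℂ²` fixed by a noncentral element; the count of fixed points gives the
classical equation for finite subgroups of `PGL₂(ℂ)`.
-/

set_option autoImplicit false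
set_option linter.unusedSectionVars false
set_option linter.unusedSimpArgs false
set_option linter.unusedVariables false

open scoped ComplexConjugate
open Module
open Cfsg
open Cfsg.Agent.Lib.Char

namespace Cfsg.Agent.Lib.CharExtra

/-- The coordinate plane. -/
abbrev Plane := Fin 2 → ℂ

theorem finrank_plane : finrank ℂ Plane = 2 := by simp

section Eigen

/-- A nonscalar endomorphism of finite order of the plane has exactly two stable lines. -/
theorem exists_two_eigenspaces (T : Module.End ℂ Plane) {o : ℕ} (ho : 0 < o) (hT : T ^ o = 1) (hns : ∀ c : ℂ, T ≠ c • 1) :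
    ∃ a b : ℂ, a ≠ b ∧ finrank ℂ (T.eigenspace a) = 1 ∧ finrank ℂ (T.eigenspace b) = 1 ∧
      ∀ L : Submodule ℂ Plane, finrank ℂ L = 1 → (∀ v ∈ L, T v ∈ L) → L = T.eigenspace a ∨ L = T.eigenspace b := by
  classical
  have hss : T.IsSemisimple := by
    refine Module.End.isSemisimple_of_squarefree_aeval_eq_zero (p := Polynomial.X ^ o - Polynomial.C 1) ?_ ?_
    · apply Polynomial.Separable.squarefree
      apply Polynomial.separable_X_pow_sub_C
      · exact_mod_cast ho.ne'
      · exact one_ne_zero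
    · simp [hT]
  have hsup := hss.iSup_eigenspace_eq_top
  obtain ⟨a, ha⟩ := Module.End.exists_eigenvalue T
  have ha' : T.eigenspace a ≠ ⊥ := Module.End.hasEigenvalue_iff.mp ha
  obtain ⟨b, hab, hb'⟩ : ∃ b, a ≠ b ∧ T.eigenspace b ≠ ⊥ := by
    by_contra hcon
    push Not at hcon
    have h1 : T.eigenspace a = ⊤ := by
      rw [eq_top_iff, ← hsup]
      refine iSup_le fun μ => ?_
      by_cases h : a = μ
      · rw [h]
      · rw [hcon μ h]
        exact bot_le
    apply hns a
    apply LinearMap.ext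
    intro v
    have h2 : v ∈ T.eigenspace a := by
      rw [h1]
      trivial
    have h3 := Module.End.mem_eigenspace_iff.mp h2
    rw [h3]
    simp
  have hdis : Disjoint (T.eigenspace a) (T.eigenspace b) :=
    (Module.End.eigenspaces_iSupIndep T).pairwiseDisjoint hab
  have hle := Submodule.finrank_add_finrank_le_of_disjoint hdis
  rw [finrank_plane] at hle
  have h1a : 1 ≤ finrank ℂ (T.eigenspace a) := Submodule.one_le_finrank_iff.mpr ha'
  have h1b : 1 ≤ finrank ℂ (T.eigenspace b) := Submodule.one_le_finrank_iff.mpr hb'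
  have hfa : finrank ℂ (T.eigenspace a) = 1 := by omega
  have hfb : finrank ℂ (T.eigenspace b) = 1 := by omega
  refine ⟨a, b, hab, hfa, hfb, fun L hL hst => ?_⟩
  have hsuptop : T.eigenspace a ⊔ T.eigenspace b = ⊤ := by
    apply Submodule.eq_top_of_finrank_eq
    have h2 := Submodule.finrank_sup_add_finrank_inf_eq (T.eigenspace a) (T.eigenspace b)
    rw [hdis.eq_bot, finrank_bot, add_zero, hfa, hfb] at h2
    rw [h2, finrank_plane]
  obtain ⟨v, hv0, hv⟩ := finrank_eq_one_iff'.mp hL
  have hv0' : (v : Plane) ≠ 0 := fun h => hv0 (Subtype.ext h)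
  obtain ⟨c, hc⟩ := hv ⟨T v, hst v v.2⟩
  have hTv : T (v : Plane) = c • (v : Plane) := (congrArg Subtype.val hc).symm
  have hmem : (v : Plane) ∈ T.eigenspace a ⊔ T.eigenspace b := by
    rw [hsuptop]
    trivial
  obtain ⟨u, hu, u', hu', huu⟩ := Submodule.mem_sup.mp hmem
  have hu1 := Module.End.mem_eigenspace_iff.mp hu
  have hu2 := Module.End.mem_eigenspace_iff.mp hu'
  have hsplit : (c - a) • u = (b - c) • u' := by
    have h3 : T u + T u' = c • (u + u') := by
      rw [← map_add, huu, hTv]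
    rw [hu1, hu2, smul_add] at h3
    have h4 : (c - a) • u - (b - c) • u' = (c • u + c • u') - (a • u + b • u') := by module
    rw [← h3, sub_self] at h4
    exact sub_eq_zero.mp h4
  have hza : (c - a) • u ∈ T.eigenspace a := Submodule.smul_mem _ _ hu
  have hzb : (c - a) • u ∈ T.eigenspace b := by
    rw [hsplit]
    exact Submodule.smul_mem _ _ hu'
  have hz : (c - a) • u = 0 := by
    have := Submodule.disjoint_def.mp hdis _ hza hzb
    exact this
  have hz' : (b - c) • u' = 0 := by rw [← hsplit, hz]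
  -- the vector lies in one of the eigenspaces
  have hcase : (v : Plane) ∈ T.eigenspace a ∨ (v : Plane) ∈ T.eigenspace b := by
    by_cases hca : c = a
    · left
      have hbc : b - c ≠ 0 := by
        rw [hca]
        exact sub_ne_zero.mpr hab.symm
      have hu'0 : u' = 0 := (smul_eq_zero.mp hz').resolve_left hbc
      rw [← huu, hu'0, add_zero]
      exact hu
    · right
      have hu0 : u = 0 := (smul_eq_zero.mp hz).resolve_left (sub_ne_zero.mpr hca)
      rw [← huu, hu0, zero_add]
      exact hu'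
  have hle' : ∀ E : Submodule ℂ Plane, (v : Plane) ∈ E → L ≤ E := by
    intro E hE x hx
    obtain ⟨c', hc'⟩ := hv ⟨x, hx⟩
    have : x = c' • (v : Plane) := (congrArg Subtype.val hc').symm
    rw [this]
    exact Submodule.smul_mem _ _ hE
  rcases hcase with h | h
  · left
    exact Submodule.eq_of_le_of_finrank_eq (hle' _ h) (by rw [hL, hfa])
  · right
    exact Submodule.eq_of_le_of_finrank_eq (hle' _ h) (by rw [hL, hfb])

/-- Trace and determinant at an eigenvalue of an endomorphism of the plane. -/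
theorem eigen_trace_det (T : Module.End ℂ Plane) {v : Plane} (hv : v ≠ 0) {c : ℂ} (hTv : T v = c • v) :
    c * LinearMap.trace ℂ Plane T = c ^ 2 + LinearMap.det T := by
  have htr : LinearMap.trace ℂ Plane T = Matrix.trace (LinearMap.toMatrix' T) := by
    rw [LinearMap.trace_eq_matrix_trace ℂ (Pi.basisFun ℂ (Fin 2)), LinearMap.toMatrix_eq_toMatrix']
  rw [htr, ← LinearMap.det_toMatrix', Matrix.trace_fin_two, Matrix.det_fin_two]
  set m := LinearMap.toMatrix' T with hm
  have hmul : ∀ w : Plane, T w = m.mulVec w := fun w => by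
    rw [hm, LinearMap.toMatrix'_mulVec]
  have h0 := congrFun (hmul v) 0
  have h1 := congrFun (hmul v) 1
  rw [hTv] at h0 h1
  simp only [Matrix.mulVec, dotProduct, Fin.sum_univ_two, Pi.smul_apply, smul_eq_mul] at h0 h1
  have hv' : v 0 ≠ 0 ∨ v 1 ≠ 0 := by
    by_contra hcon
    push Not at hcon
    apply hv
    funext i
    fin_cases i
    · exact hcon.1
    · exact hcon.2
  have key0 : ((m 0 0 - c) * (m 1 1 - c) - m 0 1 * m 1 0) * v 0 = 0 := by
    linear_combination (m 1 1 - c) * (-h0) + (m 0 1) * h1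
  have key1 : ((m 0 0 - c) * (m 1 1 - c) - m 0 1 * m 1 0) * v 1 = 0 := by
    linear_combination (m 0 0 - c) * (-h1) + (m 1 0) * h0
  have key : (m 0 0 - c) * (m 1 1 - c) - m 0 1 * m 1 0 = 0 := by
    rcases hv' with h | h
    · exact (mul_eq_zero.mp key0).resolve_right h
    · exact (mul_eq_zero.mp key1).resolve_right h
  linear_combination (-1 : ℂ) * key

end Eigen

section Lines

variable {G : Type*} [Group G] [Fintype G] (ρ : Representation ℂ G Plane)

/-- A line stabilized by a noncentral element. -/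
def IsSpecialLine (L : Submodule ℂ Plane) : Prop :=
  finrank ℂ L = 1 ∧ ∃ g : G, g ∉ Subgroup.center G ∧ ∀ v ∈ L, ρ g v ∈ L

/-- The special lines. -/
abbrev SpecialLine := {L : Submodule ℂ Plane // IsSpecialLine ρ L}

theorem map_rep_eq (g : G) (L : Submodule ℂ Plane) : L.map (ρ g) = L.map ((repEquiv ρ g : Plane ≃ₗ[ℂ] Plane) : Plane →ₗ[ℂ] Plane) := rfl

theorem finrank_map_rep (g : G) (L : Submodule ℂ Plane) : finrank ℂ (L.map (ρ g)) = finrank ℂ L := by
  rw [map_rep_eq]
  exact LinearEquiv.finrank_map_eq (repEquiv ρ g) L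

theorem isSpecialLine_map (g : G) {L : Submodule ℂ Plane} (hL : IsSpecialLine ρ L) : IsSpecialLine ρ (L.map (ρ g)) := by
  obtain ⟨h1, x, hx, hst⟩ := hL
  refine ⟨by rw [finrank_map_rep, h1], g * x * g⁻¹, ?_, ?_⟩
  · intro hc
    apply hx
    have h2 := (inferInstance : (Subgroup.center G).Normal).conj_mem _ hc g⁻¹
    simpa [mul_assoc] using h2
  · rintro _ ⟨v, hv, rfl⟩
    refine ⟨ρ x v, hst v hv, ?_⟩
    show ρ g (ρ x v) = ρ (g * x * g⁻¹) (ρ g v)
    have h3 : ρ g⁻¹ (ρ g v) = v := by
      rw [← Module.End.mul_apply, ← map_mul, inv_mul_cancel, map_one]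
      rfl
    rw [map_mul, map_mul, Module.End.mul_apply, Module.End.mul_apply, h3]

instance lineAction : MulAction G (SpecialLine ρ) where
  smul g L := ⟨L.1.map (ρ g), isSpecialLine_map ρ g L.2⟩
  one_smul L := by
    apply Subtype.ext
    show L.1.map (ρ 1) = L.1
    rw [map_one]
    exact Submodule.map_id _
  mul_smul a b L := by
    apply Subtype.ext
    show L.1.map (ρ (a * b)) = (L.1.map (ρ b)).map (ρ a)
    rw [map_mul, ← Submodule.map_comp]
    rfl

theorem smul_val (g : G) (L : SpecialLine ρ) : (g • L).1 = L.1.map (ρ g) := rfl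

/-- A line is fixed by `g` when it is stable. -/
theorem smul_eq_iff (g : G) (L : SpecialLine ρ) : g • L = L ↔ ∀ v ∈ L.1, ρ g v ∈ L.1 := by
  constructor
  · intro h v hv
    have h1 : L.1.map (ρ g) = L.1 := congrArg Subtype.val h
    rw [← h1]
    exact ⟨v, hv, rfl⟩
  · intro h
    apply Subtype.ext
    apply Submodule.eq_of_le_of_finrank_eq
    · rintro _ ⟨v, hv, rfl⟩
      exact h v hv
    · rw [smul_val, finrank_map_rep]

variable (hρ : ρ.IsIrreducible) (hfaith : ∀ g : G, ρ g = 1 → g = 1)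

include hρ in
/-- Central elements act by scalars. -/
theorem scalar_of_center {z : G} (hz : z ∈ Subgroup.center G) : ∃ c : ℂ, ρ z = c • 1 := by
  refine schur_scalar ρ hρ (ρ z) fun g v => ?_
  rw [← Module.End.mul_apply, ← Module.End.mul_apply, ← map_mul, ← map_mul, (Subgroup.mem_center_iff.mp hz) g]

include hfaith in
/-- Noncentral elements do not act by scalars. -/
theorem not_scalar_of_notMem {g : G} (hg : g ∉ Subgroup.center G) (c : ℂ) : ρ g ≠ c • 1 := by
  intro h
  apply hg
  rw [Subgroup.mem_center_iff]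
  intro x
  have h1 : ρ (x * g * x⁻¹ * g⁻¹) = 1 := by
    have h2 : ρ (x * g) = ρ (g * x) := by
      rw [map_mul, map_mul, h]
      ext v
      simp
    rw [map_mul, map_mul ρ (x * g), h2]
    have h3 : ρ (g * x) * ρ x⁻¹ * ρ g⁻¹ = ρ (g * x * x⁻¹ * g⁻¹) := by
      simp only [map_mul]
    rw [h3]
    simp
  have h2 := hfaith _ h1
  have h3 : x * g * x⁻¹ = g := by
    rwa [mul_inv_eq_one] at h2
  rwa [mul_inv_eq_iff_eq_mul] at h3

include hρ hfaith in
/-- The two fixed lines of a noncentral element. -/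
theorem exists_two_fixed_lines {g : G} (hg : g ∉ Subgroup.center G) :
    ∃ L₁ L₂ : SpecialLine ρ, L₁ ≠ L₂ ∧ ∀ L : SpecialLine ρ, g • L = L ↔ L = L₁ ∨ L = L₂ := by
  have ho : 0 < orderOf g := orderOf_pos g
  have hT : (ρ g) ^ orderOf g = 1 := by
    rw [← map_pow, pow_orderOf_eq_one, map_one]
  obtain ⟨a, b, hab, hfa, hfb, hL⟩ := exists_two_eigenspaces (ρ g) ho hT (not_scalar_of_notMem ρ hfaith hg)
  have hst : ∀ c, ∀ v ∈ Module.End.eigenspace (ρ g) c, ρ g v ∈ Module.End.eigenspace (ρ g) c := by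
    intro c v hv
    have := Module.End.mem_eigenspace_iff.mp hv
    rw [this]
    exact Submodule.smul_mem _ _ hv
  let L₁ : SpecialLine ρ := ⟨Module.End.eigenspace (ρ g) a, hfa, g, hg, hst a⟩
  let L₂ : SpecialLine ρ := ⟨Module.End.eigenspace (ρ g) b, hfb, g, hg, hst b⟩
  refine ⟨L₁, L₂, ?_, fun L => ⟨fun h => ?_, ?_⟩⟩
  · intro h
    have h1 : Module.End.eigenspace (ρ g) a = Module.End.eigenspace (ρ g) b := congrArg Subtype.val h
    have hdis : Disjoint (Module.End.eigenspace (ρ g) a) (Module.End.eigenspace (ρ g) b) :=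
      (Module.End.eigenspaces_iSupIndep (ρ g)).pairwiseDisjoint hab
    rw [h1, disjoint_self] at hdis
    rw [hdis, finrank_bot] at hfb
    exact zero_ne_one hfb
  · rcases hL L.1 L.2.1 ((smul_eq_iff ρ g L).mp h) with h1 | h1
    · left
      exact Subtype.ext h1
    · right
      exact Subtype.ext h1
  · rintro (rfl | rfl)
    · exact (smul_eq_iff ρ g _).mpr (hst a)
    · exact (smul_eq_iff ρ g _).mpr (hst b)

include hρ hfaith in
theorem finite_specialLine : Finite (SpecialLine ρ) := by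
  classical
  let F : {g : G // g ∉ Subgroup.center G} → Set (SpecialLine ρ) := fun g => {L | g.1 • L = L}
  have hF : ∀ g, (F g).Finite := by
    intro g
    obtain ⟨L₁, L₂, -, h⟩ := exists_two_fixed_lines ρ hρ hfaith g.2
    refine Set.Finite.subset (Set.toFinite {L₁, L₂}) fun L hL => ?_
    exact (h L).mp hL
  have hU : (Set.univ : Set (SpecialLine ρ)) ⊆ ⋃ g, F g := by
    intro L _
    obtain ⟨-, g, hg, hst⟩ := L.2
    exact Set.mem_iUnion.mpr ⟨⟨g, hg⟩, (smul_eq_iff ρ g L).mpr hst⟩
  exact Set.finite_univ_iff.mp (Set.Finite.subset (Set.finite_iUnion hF) hU)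

include hρ in
theorem center_fixes (L : SpecialLine ρ) {z : G} (hz : z ∈ Subgroup.center G) : z • L = L := by
  obtain ⟨c, hc⟩ := scalar_of_center ρ hρ hz
  rw [smul_eq_iff]
  intro v hv
  rw [hc]
  exact Submodule.smul_mem _ _ hv

/-- The arithmetic of three orbits. -/
theorem three_orbits_arith_aux {h i₁ i₂ i₃ n : ℕ} (h1 : 2 * i₁ = h) (h2 : 3 * i₂ = h) (h3 : n * i₃ = h)
    (hi₁ : 3 ≤ i₁) (hi₂ : 3 ≤ i₂) (hi₃ : 3 ≤ i₃) (hn : 2 ≤ n) (hs : i₁ + i₂ + i₃ = h + 2) :
    h = 12 ∨ h = 24 ∨ h = 60 := by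
  have hi : i₃ * 6 = h + 12 := by omega
  have hn6 : n < 6 := by
    by_contra hcon
    push Not at hcon
    have : 6 * i₃ ≤ n * i₃ := Nat.mul_le_mul_right _ hcon
    omega
  interval_cases n <;> omega

theorem three_orbits_arith {h i₁ i₂ i₃ n₁ n₂ n₃ : ℕ} (h1 : n₁ * i₁ = h) (h2 : n₂ * i₂ = h) (h3 : n₃ * i₃ = h)
    (hn₁ : 2 ≤ n₁) (hn₂ : 2 ≤ n₂) (hn₃ : 2 ≤ n₃) (hi₁ : 3 ≤ i₁) (hi₂ : 3 ≤ i₂) (hi₃ : 3 ≤ i₃)
    (hs : i₁ + i₂ + i₃ = h + 2) : h = 12 ∨ h = 24 ∨ h = 60 := by
  -- one of the `n` is two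
  have aux : ∀ {i₁ i₂ i₃ n₂ n₃ : ℕ}, 2 * i₁ = h → n₂ * i₂ = h → n₃ * i₃ = h → 2 ≤ n₂ → 2 ≤ n₃ → 3 ≤ i₁ → 3 ≤ i₂ → 3 ≤ i₃ →
      i₁ + i₂ + i₃ = h + 2 → h = 12 ∨ h = 24 ∨ h = 60 := by
    intro i₁ i₂ i₃ n₂ n₃ h1 h2 h3 hn₂ hn₃ hi₁ hi₂ hi₃ hs
    by_cases h22 : n₂ = 2
    · subst h22
      omega
    by_cases h32 : n₃ = 2
    · subst h32
      omega
    by_cases h23 : n₂ = 3
    · subst h23
      exact three_orbits_arith_aux h1 h2 h3 hi₁ hi₂ hi₃ hn₃ hs
    by_cases h33 : n₃ = 3
    · subst h33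
      exact three_orbits_arith_aux h1 h3 h2 hi₁ hi₃ hi₂ hn₂ (by omega)
    exfalso
    have h24 : 4 ≤ n₂ := by omega
    have h34 : 4 ≤ n₃ := by omega
    have h5 : 4 * i₂ ≤ n₂ * i₂ := Nat.mul_le_mul_right _ h24
    have h6 : 4 * i₃ ≤ n₃ * i₃ := Nat.mul_le_mul_right _ h34
    omega
  by_cases h12 : n₁ = 2
  · subst h12
    exact aux h1 h2 h3 hn₂ hn₃ hi₁ hi₂ hi₃ hs
  by_cases h22 : n₂ = 2
  · subst h22
    exact aux h2 h1 h3 hn₁ hn₃ hi₂ hi₁ hi₃ (by omega)
  by_cases h32 : n₃ = 2
  · subst h32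
    exact aux h3 h1 h2 hn₁ hn₂ hi₃ hi₁ hi₂ (by omega)
  exfalso
  have h4 : 3 * i₁ ≤ n₁ * i₁ := Nat.mul_le_mul_right _ (by omega)
  have h5 : 3 * i₂ ≤ n₂ * i₂ := Nat.mul_le_mul_right _ (by omega)
  have h6 : 3 * i₃ ≤ n₃ * i₃ := Nat.mul_le_mul_right _ (by omega)
  omega

/-- The arithmetic over the set of orbits. -/
theorem orbits_arith {ι : Type*} [Fintype ι] (i n : ι → ℕ) (h : ℕ) (hh : 2 ≤ h) (hn : ∀ ω, 2 ≤ n ω)
    (hni : ∀ ω, n ω * i ω = h) (hi : ∀ ω, 3 ≤ i ω) (E : ∑ ω, i ω + 2 * h = Fintype.card ι * h + 2) :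
    h = 12 ∨ h = 24 ∨ h = 60 := by
  classical
  set r := Fintype.card ι with hr
  have hle : 2 * ∑ ω, i ω ≤ r * h := by
    rw [Finset.mul_sum]
    calc ∑ ω, 2 * i ω ≤ ∑ ω : ι, h := Finset.sum_le_sum fun ω _ => by
          rw [← hni ω]
          exact Nat.mul_le_mul_right _ (hn ω)
      _ = r * h := by simp [hr]
  have hr3 : r ≤ 3 := by
    by_contra hcon
    push Not at hcon
    have h4 : 4 * h ≤ r * h := Nat.mul_le_mul_right _ hcon
    omega
  have hsum3 : 3 * r ≤ ∑ ω, i ω := by
    calc 3 * r = ∑ ω : ι, 3 := by simp [hr, mul_comm]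
      _ ≤ ∑ ω, i ω := Finset.sum_le_sum fun ω _ => hi ω
  have hr' : r = 3 := by
    interval_cases r
    · omega
    · omega
    · omega
    · rfl
  obtain ⟨a, b, c, hab, hac, hbc, huniv⟩ := Finset.card_eq_three.mp (show (Finset.univ : Finset ι).card = 3 by
    rw [Finset.card_univ, ← hr, hr'])
  have hs : i a + i b + i c = h + 2 := by
    rw [huniv, Finset.sum_insert (by simp [hab, hac]), Finset.sum_insert (by simp [hbc]), Finset.sum_singleton, hr'] at E
    omega
  exact three_orbits_arith (hni a) (hni b) (hni c) (hn a) (hn b) (hn c) (hi a) (hi b) (hi c) hs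

end Lines

section Final

variable {G : Type*} [Group G] [Fintype G] (ρ : Representation ℂ G Plane)

/-- A line stable under a subgroup of index two gives an induced expression of the character. -/
theorem indFun_of_stable_line (hρ : ρ.IsIrreducible) (H : Subgroup G) (L : Submodule ℂ Plane) (hL : finrank ℂ L = 1)
    (hst : ∀ h ∈ H, ∀ v ∈ L, ρ h v ∈ L) (hi : H.index = 2) :
    ∃ θ : H → ℂ, IsCharacter H θ ∧ ρ.character = indFun H θ := by
  classical
  haveI : Fintype H := Fintype.ofFinite H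
  obtain ⟨v, hv0, hv⟩ := finrank_eq_one_iff'.mp hL
  have hv0' : (v : Plane) ≠ 0 := fun h => hv0 (Subtype.ext h)
  have hex : ∀ h : H, ∃ c : ℂ, ρ h (v : Plane) = c • (v : Plane) := by
    intro h
    obtain ⟨c, hc⟩ := hv ⟨ρ h v, hst h h.2 v v.2⟩
    exact ⟨c, (congrArg Subtype.val hc).symm⟩
  choose f hf using hex
  have hfuniq : ∀ (h : H) (c : ℂ), ρ h (v : Plane) = c • (v : Plane) → f h = c := by
    intro h c hc
    have h1 : (f h - c) • (v : Plane) = 0 := by
      rw [sub_smul, ← hf h, hc, sub_self]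
    exact sub_eq_zero.mp ((smul_eq_zero.mp h1).resolve_right hv0')
  let F : H →* ℂ :=
    { toFun := f
      map_one' := hfuniq 1 1 (by simp)
      map_mul' := fun a b => hfuniq (a * b) (f a * f b) (by
        have h1 : ρ ((a * b : H) : G) = ρ a * ρ b := map_mul _ _ _
        rw [h1, Module.End.mul_apply, hf b, map_smul, hf a, smul_smul, mul_comm]) }
  let lam : H →* ℂˣ := F.toHomUnits
  have hlam : ∀ h : H, (lam h : ℂ) = f h := fun h => rfl
  let D : H →* ℂˣ := detHom (ρ.comp H.subtype)
  let μ : H →* ℂˣ := D * lam⁻¹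
  have hsplit : ∀ h : H, ρ.character h = (lam h : ℂ) + (μ h : ℂ) := by
    intro h
    have h1 := eigen_trace_det (ρ h) hv0' (hf h)
    have h2 : LinearMap.det (ρ h) = (D h : ℂ) := (detHom_apply (ρ.comp H.subtype) h).symm
    have h3 : (μ h : ℂ) = (D h : ℂ) * ((lam h : ℂ))⁻¹ := by
      simp [μ]
    have hc : (lam h : ℂ) ≠ 0 := Units.ne_zero _
    rw [h3, hlam] at *
    rw [h2] at h1
    show LinearMap.trace ℂ Plane (ρ h) = _
    field_simp
    linear_combination h1
  have hθ₁ : IsIrrCharacter H (fun h => (lam h : ℂ)) := isIrrCharacter_of_hom lam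
  have hθ₂ : IsIrrCharacter H (fun h => (μ h : ℂ)) := isIrrCharacter_of_hom μ
  refine ⟨fun h => (lam h : ℂ), IsIrrCharacter.isCharacter hθ₁, ?_⟩
  have hχ : IsIrrCharacter G ρ.character := ⟨2, ρ, hρ, rfl⟩
  have hχc := IsIrrCharacter.isCharacter hχ
  have hind := indFun_isCharacter H (IsIrrCharacter.isCharacter hθ₁)
  have hres : (fun h : H => ρ.character h) = (fun h => (lam h : ℂ)) + (fun h => (μ h : ℂ)) := by
    funext h
    exact hsplit h
  have hinner : classInner (indFun H (fun h => (lam h : ℂ))) ρ.character ≠ 0 := by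
    rw [frobenius_reciprocity H _ _ (IsCharacter.isClassFunction hχc), ← conj_classInner, hres, classInner_add_left,
      classInner_irr_self hθ₁]
    obtain ⟨c, hc⟩ := classInner_isCharacter_nat (IsIrrCharacter.isCharacter hθ₂) (IsIrrCharacter.isCharacter hθ₁)
    rw [hc]
    have h3 : ((1 : ℂ) + (c : ℂ)) = ((1 + c : ℕ) : ℂ) := by push_cast; ring
    rw [h3, Complex.conj_natCast]
    exact Nat.cast_ne_zero.mpr (by omega)
  have hdeg1 : charDegree (indFun H (fun h => (lam h : ℂ))) = 2 := by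
    apply charDegree_natCast
    rw [indFun_one, hi]
    simp
  have hdeg2 : charDegree ρ.character = 2 := by
    apply charDegree_natCast
    rw [Representation.char_one]
    simp
  exact (eq_of_constituent_of_degree_eq hind hχ hinner (by rw [hdeg1, hdeg2])).symm

end Final

section Main

variable {G : Type*} [Group G] [Fintype G]

/-- The main theorem. -/
theorem center_index_of_primitive (χ : IrrCharacter G) (hfaith : ∀ g : G, (χ : G → ℂ) g = (χ : G → ℂ) 1 → g = 1)
    (h2 : charDegree (χ : G → ℂ) = 2)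
    (hprim : ∀ H : Subgroup G, H ≠ ⊤ → ∀ θ : H → ℂ, IsCharacter H θ → (χ : G → ℂ) ≠ indFun H θ) :
    (Subgroup.center G).index = 12 ∨ (Subgroup.center G).index = 24 ∨ (Subgroup.center G).index = 60 := by
  classical
  obtain ⟨χ, n, ρ, hρ, rfl⟩ := χ
  have hn : n = 2 := by
    have h1 : charDegree ρ.character = n := by
      apply charDegree_natCast
      rw [Representation.char_one]
      simp
    rw [← h1]
    exact h2
  subst hn
  simp only at hfaith h2 hprim
  have hfaith' : ∀ g : G, ρ g = 1 → g = 1 := by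
    intro g hg
    apply hfaith
    exact congrArg (LinearMap.trace ℂ _) (by rw [hg, map_one])
  haveI hfin := finite_specialLine ρ hρ hfaith'
  haveI : Fintype (SpecialLine ρ) := Fintype.ofFinite _
  let Ω := MulAction.orbitRel.Quotient G (SpecialLine ρ)
  haveI : Fintype Ω := Fintype.ofFinite _
  set Z := Subgroup.center G with hZ
  set h := Z.index with hh
  -- the Burnside count
  have hcount : ∀ g : G, Fintype.card (MulAction.fixedBy (SpecialLine ρ) g) =
      if g ∈ Z then Fintype.card (SpecialLine ρ) else 2 := by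
    intro g
    split_ifs with hg
    · rw [Fintype.card_of_subtype (Finset.univ : Finset (SpecialLine ρ)) (fun L => by
        simp only [Finset.mem_univ, MulAction.mem_fixedBy, true_iff]
        exact center_fixes ρ hρ L hg), Finset.card_univ]
    · obtain ⟨L₁, L₂, hne, hL⟩ := exists_two_fixed_lines ρ hρ hfaith' hg
      rw [Fintype.card_of_subtype ({L₁, L₂} : Finset (SpecialLine ρ)) (fun L => by
        simp only [Finset.mem_insert, Finset.mem_singleton, MulAction.mem_fixedBy]
        exact (hL L).symm), Finset.card_pair hne]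
  have hB := MulAction.sum_card_fixedBy_eq_card_orbits_mul_card_group G (SpecialLine ρ)
  simp only [hcount] at hB
  set r := Fintype.card Ω with hr
  have hB' : r * Fintype.card G = Nat.card Z * Fintype.card (SpecialLine ρ) + ((Finset.univ.filter fun g : G => g ∉ Z).card) * 2 := by
    rw [← hB, Finset.sum_ite, Finset.sum_const, Finset.sum_const, smul_eq_mul, smul_eq_mul]
    congr 2
    rw [Nat.card_eq_fintype_card]
    exact (Fintype.card_subtype _).symm
  have hcardG : Nat.card Z + (Finset.univ.filter fun g : G => g ∉ Z).card = Fintype.card G := by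
    have h1 := Finset.card_filter_add_card_filter_not (s := (Finset.univ : Finset G)) (fun g : G => g ∈ Z)
    rw [Finset.card_univ] at h1
    rw [← h1, Nat.card_eq_fintype_card]
    congr 1
    exact Fintype.card_subtype _
  have hzh : Nat.card Z * h = Fintype.card G := by
    rw [hh, ← Nat.card_eq_fintype_card]
    exact Subgroup.card_mul_index Z
  have hzpos : 0 < Nat.card Z := Nat.card_pos
  -- the class formula
  let i : Ω → ℕ := fun ω => (MulAction.stabilizer G ω.out).index
  have hclass : Fintype.card (SpecialLine ρ) = ∑ ω, i ω := by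
    rw [← Nat.card_eq_fintype_card, Nat.card_congr (MulAction.selfEquivSigmaOrbitsQuotientStabilizer G (SpecialLine ρ)),
      Nat.card_sigma]
    rfl
  have hE : ∑ ω, i ω + 2 * h = r * h + 2 := by
    rw [← hclass]
    apply Nat.eq_of_mul_eq_mul_left hzpos
    rw [← hzh] at hB' hcardG
    nlinarith
  -- stabilizers
  have hZS : ∀ ω : Ω, Z ≤ MulAction.stabilizer G ω.out := fun ω z hz => center_fixes ρ hρ _ hz
  let m : Ω → ℕ := fun ω => Z.relIndex (MulAction.stabilizer G ω.out)
  have hmi : ∀ ω, m ω * i ω = h := fun ω => Subgroup.relIndex_mul_index (hZS ω)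
  have hh0 : h ≠ 0 := Subgroup.index_ne_zero_of_finite
  have hm2 : ∀ ω, 2 ≤ m ω := by
    intro ω
    have h0 : m ω ≠ 0 := by
      intro h0
      apply hh0
      rw [← hmi ω, h0, zero_mul]
    have h1 : m ω ≠ 1 := by
      intro h1
      have h3 := Subgroup.relIndex_eq_one.mp h1
      obtain ⟨-, g, hg, hst⟩ := (ω.out : SpecialLine ρ).2
      exact hg (h3 ((smul_eq_iff ρ g _).mpr hst))
    omega
  have hi3 : ∀ ω, 3 ≤ i ω := by
    intro ω
    have h0 : i ω ≠ 0 := by
      intro h0
      apply hh0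
      rw [← hmi ω, h0, mul_zero]
    have h1 : i ω ≠ 1 := by
      intro h1
      have h3 : MulAction.stabilizer G ω.out = ⊤ := Subgroup.index_eq_one.mp h1
      have h4 : ∀ g : G, ∀ v ∈ (ω.out : SpecialLine ρ).1, ρ g v ∈ (ω.out : SpecialLine ρ).1 := by
        intro g
        have h5 : g ∈ MulAction.stabilizer G ω.out := by
          rw [h3]
          exact Subgroup.mem_top g
        exact (smul_eq_iff ρ g _).mp h5
      have h6 := ((isIrreducible_iff ρ).mp hρ).2 _ h4
      have h7 := (ω.out : SpecialLine ρ).2.1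
      rcases h6 with h6 | h6
      · rw [h6, finrank_bot] at h7
        exact zero_ne_one h7
      · rw [h6, finrank_top, finrank_plane] at h7
        omega
    have h2 : i ω ≠ 2 := by
      intro h2
      obtain ⟨θ, hθ, hχ⟩ := indFun_of_stable_line ρ hρ (MulAction.stabilizer G ω.out) (ω.out : SpecialLine ρ).1
        (ω.out : SpecialLine ρ).2.1 (fun g hg => (smul_eq_iff ρ g _).mp hg) h2
      refine hprim _ ?_ θ hθ hχ
      intro h3
      have h4 : i ω = 1 := Subgroup.index_eq_one.mpr h3
      omega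
    omega
  have hh2 : 2 ≤ h := by
    have h1 : h ≠ 1 := by
      intro h1
      have h3 : Z = ⊤ := Subgroup.index_eq_one.mp h1
      have hcomm : ∀ a b : G, a * b = b * a := by
        intro a b
        have ha : a ∈ Z := by
          rw [h3]
          exact Subgroup.mem_top a
        exact ((Subgroup.mem_center_iff.mp ha) b).symm
      have h4 := charDegree_eq_one_of_comm hcomm (⟨2, ρ, hρ, rfl⟩ : IsIrrCharacter G ρ.character)
      rw [Representation.char_one] at h4
      norm_num at h4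
    omega
  exact orbits_arith i m h hh2 hm2 hmi hi3 hE

end Main

end Cfsg.Agent.Lib.CharExtra
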