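import Cfsg.Agent.S4736
import Cfsg.Agent.Lib.Block.BrauerFeit
import Cfsg.Agent.Lib.Block.Ortho
import Cfsg.Agent.Lib.Char.Complete
import Cfsg.Agent.Lib.Char.DefectZero

/-!
# Prime-power degree characters from vanishing sums
-/

set_option autoImplicit false
set_option linter.unusedSectionVars false
set_option linter.unusedSimpArgs false
set_option linter.unusedVariables false

open scoped ComplexConjugate
open Cfsg MonoidAlgebra
open Cfsg.Agent.Lib.Block Cfsg.Agent.Lib.Char

namespace Cfsg.Agent.Lib.CharExtra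

universe u

variable {G : Type u} [Group G] [Fintype G]

/-- If a partial column sum against degrees vanishes, some nonprincipal member has degree prime to `r`. -/
theorem exists_not_dvd_of_sum {A : Set (IrrCharacter G)} (hone : oneIrr G ∈ A) {r : ℕ} (hr : r.Prime) {x : G}
    (hsum : ∑ χ : IrrCharacter G, (open Classical in if χ ∈ A then conj ((χ : G → ℂ) x) * (χ : G → ℂ) 1 else 0) = 0) :
    ∃ χ ∈ A, (χ : G → ℂ) ≠ (fun _ => 1) ∧ ¬ r ∣ charDegree (χ : G → ℂ) := by
  classical
  by_contra hcon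
  push Not at hcon
  obtain ⟨M, hM⟩ := exists_isPModular r hr
  haveI : Fact r.Prime := ⟨hr⟩
  haveI := isPModular_isPrime hM
  have h1 : ∀ χ ∈ Finset.univ.erase (oneIrr G),
      MemLocalIdeal M (if χ ∈ A then conj ((χ : G → ℂ) x) * (χ : G → ℂ) 1 else 0) := by
    intro χ hχ
    split_ifs with h
    · have hne : (χ : G → ℂ) ≠ fun _ => 1 := fun h2 => (Finset.mem_erase.mp hχ).1 (Subtype.ext h2)
      have h3 := hcon χ h hne
      rw [map_one_eq_charDegree (IsIrrCharacter.isCharacter χ.2)]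
      refine memLocalIdeal_mul_left ?_ ((memLocalIdeal_natCast_iff hM _).mpr h3)
      rw [← IsCharacter.map_inv' (IsIrrCharacter.isCharacter χ.2) x]
      exact memLocalRing_of_isIntegral (IsCharacter.isIntegral' (IsIrrCharacter.isCharacter χ.2) _)
    · exact memLocalIdeal_zero
  have h2 := memLocalIdeal_sum _ _ h1
  rw [← Finset.add_sum_erase _ _ (Finset.mem_univ (oneIrr G))] at hsum
  rw [if_pos hone] at hsum
  have h3 : ∑ χ ∈ Finset.univ.erase (oneIrr G), (if χ ∈ A then conj ((χ : G → ℂ) x) * (χ : G → ℂ) 1 else 0) = -1 := by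
    have h4 : conj (((oneIrr G : IrrCharacter G) : G → ℂ) x) * ((oneIrr G : IrrCharacter G) : G → ℂ) 1 = 1 := by
      show conj (1 : ℂ) * 1 = 1
      simp
    rw [h4] at hsum
    linear_combination hsum
  rw [h3] at h2
  have h5 := memLocalIdeal_neg h2
  rw [neg_neg] at h5
  have h6 : ¬ r ∣ 1 := fun h => hr.one_lt.ne' (Nat.dvd_one.mp h)
  exact not_memLocalIdeal_natCast hM h6 (by simpa using h5)

theorem exists_degree_pow_core [Nontrivial G] (p q r a b c : ℕ) (hp : p.Prime) (hq : q.Prime) (hr : r.Prime)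
    (hpq : p ≠ q) (hpr : p ≠ r) (ha : a ≤ 2)
    (hG : Nat.card G = p ^ a * q ^ b * r ^ c) :
    ∃ χ : IrrCharacter G, (χ : G → ℂ) ≠ (fun _ => 1) ∧ ∃ k : ℕ, charDegree (χ : G → ℂ) = q ^ k := by
  classical
  have hfinish : ∀ χ : IrrCharacter G, ¬ r ∣ charDegree (χ : G → ℂ) → (a = 0 ∨ ¬ p ∣ charDegree (χ : G → ℂ)) →
      ∃ k : ℕ, charDegree (χ : G → ℂ) = q ^ k := by
    intro χ h1 h2
    have hd : charDegree (χ : G → ℂ) ∣ p ^ a * q ^ b * r ^ c := by
      rw [← hG]
      exact charDegree_dvd_card χ.2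
    have hco1 : (charDegree (χ : G → ℂ)).Coprime (r ^ c) :=
      Nat.Coprime.pow_right _ ((Nat.coprime_comm.mp ((Nat.Prime.coprime_iff_not_dvd hr).mpr h1)))
    have hd1 := hco1.dvd_of_dvd_mul_right hd
    have hco2 : (charDegree (χ : G → ℂ)).Coprime (p ^ a) := by
      rcases h2 with rfl | h2
      · simp
      · exact Nat.Coprime.pow_right _ ((Nat.coprime_comm.mp ((Nat.Prime.coprime_iff_not_dvd hp).mpr h2)))
    have hd2 := hco2.dvd_of_dvd_mul_left hd1
    obtain ⟨k, -, hk⟩ := (Nat.dvd_prime_pow hq).mp hd2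
    exact ⟨k, hk⟩
  by_cases ha0 : a = 0
  · obtain ⟨x, hx⟩ := exists_ne (1 : G)
    have h1 := second_orthogonality' (1 : G) x
    have hnc : ¬ IsConj (1 : G) x := by
      rw [isConj_one_right]
      exact hx
    rw [if_neg hnc] at h1
    obtain ⟨χ, -, hne, hnd⟩ := exists_not_dvd_of_sum (A := Set.univ) (x := x) (Set.mem_univ _) hr (by
      simp only [Set.mem_univ, if_true]
      rw [← h1]
      refine Finset.sum_congr rfl fun χ _ => ?_
      ring)
    exact ⟨χ, hne, hfinish χ hnd (Or.inl ha0)⟩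
  · haveI : Fact p.Prime := ⟨hp⟩
    obtain ⟨M, hM⟩ := exists_isPModular p hp
    haveI := isPModular_isPrime hM
    have hpd : p ∣ Nat.card G := by
      rw [hG]
      exact Dvd.dvd.mul_right (Dvd.dvd.mul_right (dvd_pow_self p ha0) _) _
    obtain ⟨x, hx⟩ := exists_prime_orderOf_dvd_card' p hpd
    have h1 := sum_block_eq_zero hM (isBlockUnion_of_isPBlock (isPBlock_principalBlock (M := M) (G := G))) (x := 1) (y := x)
      (by simpa using hp.one_lt.ne') (by rw [hx])
    obtain ⟨χ, hχ, hne, hnd⟩ := exists_not_dvd_of_sum (x := x) oneIrr_mem_principalBlock hr (by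
      convert h1 using 3)
    refine ⟨χ, hne, hfinish χ hnd (Or.inr ?_)⟩
    have hdef : blockDefect p (principalBlock M G) ≤ 2 := by
      rw [blockDefect_principalBlock, hG, mul_assoc]
      have hq0 : q ^ b ≠ 0 := pow_ne_zero _ hq.ne_zero
      have hr0 : r ^ c ≠ 0 := pow_ne_zero _ hr.ne_zero
      have hnd' : ¬ p ∣ q ^ b * r ^ c := by
        intro hd
        rcases (Nat.Prime.dvd_mul hp).mp hd with h3 | h3
        · exact hpq ((Nat.prime_dvd_prime_iff_eq hp hq).mp (hp.dvd_of_dvd_pow h3))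
        · exact hpr ((Nat.prime_dvd_prime_iff_eq hp hr).mp (hp.dvd_of_dvd_pow h3))
      rw [Nat.factorization_mul (pow_ne_zero _ hp.ne_zero) (mul_ne_zero hq0 hr0), hp.factorization_pow]
      simp [Nat.factorization_eq_zero_of_not_dvd hnd']
      exact ha
    have hh := (brauer_feit_height hM (isPBlock_principalBlock (M := M) (G := G))).2 χ hχ
    have hzero : blockHeight p (principalBlock M G) (χ : G → ℂ) = 0 := by
      by_cases h2 : blockDefect p (principalBlock M G) ≤ 1
      · exact hh.1 h2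
      · have h3 := hh.2 (by omega)
        omega
    exact (Cfsg.Agent.S4736.blockHeight_principal hM).mp hzero

end Cfsg.Agent.Lib.CharExtra
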