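import Mathlib
import Cfsg.Agent.Lib.CharExtra.PGroupField
import Cfsg.Agent.Lib.Char.Complete
import Cfsg.Agent.Lib.Core.Basic
import Cfsg.Agent.Lib.Geo.PrimSolvable
import Cfsg.Agent.Lib.Uniq.NilCrit

/-!
# Primitive faithful characters of solvable groups: a prime power divisor of the degree `≡ 0, ±1`
-/

set_option autoImplicit false
set_option linter.unusedSectionVars false
set_option linter.unusedSimpArgs false
set_option linter.unusedVariables false
set_option linter.style.haveILetI false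
set_option linter.unnecessarySimpa false

open scoped ComplexConjugate
open Module

namespace Cfsg.Agent.Lib.CharExtra.QPow

open Cfsg (classInner IsCharacter IsIrrCharacter IrrCharacter IsClassFunction charDegree indFun
  extendByZero pCore fittingSubgroup)
open Cfsg.Agent.Lib.Char
open Cfsg.Agent.Lib.Core (pCore_normal pCore_isPGroup fittingSubgroup_eq_iSup_pCore)

universe u

section Count

variable {Γ : Type*} [Group Γ] [Finite Γ] {p : ℕ} [hp : Fact p.Prime]

/-- The number of elements of a subgroup normalised by a `p`-element `y` is congruent modulo `p`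
to the number of those commuting with `y`. -/
theorem card_modEq_centralizer (A : Subgroup Γ) (y : Γ) (hy : IsPGroup p (Subgroup.zpowers y))
    (hA : y ∈ Subgroup.normalizer (A : Set Γ)) :
    Nat.card A ≡ Nat.card ↥(A ⊓ Subgroup.centralizer ({y} : Set Γ)) [MOD p] := by
  classical
  have hQ : Subgroup.zpowers y ≤ Subgroup.normalizer (A : Set Γ) :=
    Subgroup.zpowers_le.2 hA
  letI act : MulAction (Subgroup.zpowers y) A :=
    { smul := fun q a => ⟨(q : Γ) * a * (q : Γ)⁻¹, (Subgroup.mem_normalizer_iff.1 (hQ q.2) a).1 a.2⟩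
      one_smul := fun a => by
        apply Subtype.ext
        show ((1 : Subgroup.zpowers y) : Γ) * a * ((1 : Subgroup.zpowers y) : Γ)⁻¹ = a
        simp
      mul_smul := fun q q' a => by
        apply Subtype.ext
        show ((q * q' : Subgroup.zpowers y) : Γ) * a * ((q * q' : Subgroup.zpowers y) : Γ)⁻¹ =
          (q : Γ) * ((q' : Γ) * a * (q' : Γ)⁻¹) * (q : Γ)⁻¹
        simp only [Subgroup.coe_mul, mul_inv_rev]
        group }
  have h1 := hy.card_modEq_card_fixedPoints A
  suffices h2 : Nat.card (MulAction.fixedPoints (Subgroup.zpowers y) A) =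
      Nat.card ↥(A ⊓ Subgroup.centralizer ({y} : Set Γ)) by
    rw [← h2]
    exact h1
  refine Nat.card_congr ?_
  refine
    { toFun := fun a => ⟨a.1.1, a.1.2, ?_⟩
      invFun := fun a => ⟨⟨a.1, a.2.1⟩, ?_⟩
      left_inv := fun a => rfl
      right_inv := fun a => rfl }
  · have h2 := a.2 ⟨y, Subgroup.mem_zpowers y⟩
    have h3 : y * (a.1 : Γ) * y⁻¹ = a.1 := congrArg Subtype.val h2
    show (a.1 : Γ) ∈ Subgroup.centralizer ({y} : Set Γ)
    rw [Subgroup.mem_centralizer_singleton_iff]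
    calc (a.1 : Γ) * y = y * (a.1 : Γ) * y⁻¹ * y := by rw [h3]
      _ = y * a.1 := by group
  · rintro ⟨q, hq⟩
    obtain ⟨k, rfl⟩ := Subgroup.mem_zpowers_iff.1 hq
    apply Subtype.ext
    have h4 : (a.1 : Γ) * y = y * a.1 := (Subgroup.mem_centralizer_singleton_iff.1 a.2.2)
    show y ^ k * (a : Γ) * (y ^ k)⁻¹ = a
    have h5 : Commute (a : Γ) y := h4
    have h6 : Commute (a : Γ) (y ^ k) := h5.zpow_right k
    rw [← h6.eq]
    group

end Count

section Rpow

variable {G : Type*} [Group G] [Finite G]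

theorem eq_one_of_pow_coprime {r : ℕ} [Fact r.Prime] {R : Subgroup G} (hR : IsPGroup r R) {e : G} (he : e ∈ R)
    {o : ℕ} (ho : o.Coprime r) (h : e ^ o = 1) : e = 1 := by
  obtain ⟨k, hk⟩ := (IsPGroup.iff_orderOf.1 hR) ⟨e, he⟩
  have h1 : orderOf e = r ^ k := by
    rw [← hk]
    exact (Subgroup.orderOf_mk e he).symm
  have h2 := orderOf_dvd_of_pow_eq_one h
  rw [h1] at h2
  have h3 : (r ^ k).Coprime o := Nat.Coprime.pow_left k ho.symm
  have h4 : r ^ k = 1 := Nat.Coprime.eq_one_of_dvd h3 h2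
  rw [← orderOf_eq_one_iff, h1, h4]

end Rpow

section Twist

variable {A : Type u} [Group A] [Fintype A]

/-- If `z` acts on `f` by the scalar `c` of norm one and central in `A`, and `τ` is an irreducible
constituent of `f`, then `z` acts on `τ` by `c`. -/
theorem twist_of_constituent {τ f : A → ℂ} (hτ : IsIrrCharacter A τ) (z : A)
    (hz : ∀ y, z * y = y * z) {c : ℂ} (hc : ‖c‖ = 1) (hf : ∀ y, f (z * y) = c * f y)
    (hne : classInner f τ ≠ 0) : ∀ y, τ (z * y) = c * τ y := by
  classical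
  obtain ⟨m, ρ, hρ, rfl⟩ := hτ
  obtain ⟨μ, hμ⟩ := schur_scalar ρ hρ (ρ z) (fun g v => by
    have h1 : ρ z (ρ g v) = ρ (z * g) v := by rw [map_mul]; rfl
    have h2 : ρ g (ρ z v) = ρ (g * z) v := by rw [map_mul]; rfl
    rw [h1, h2, hz g])
  have htw : ∀ y, ρ.character (z * y) = μ * ρ.character y := by
    intro y
    show LinearMap.trace ℂ _ (ρ (z * y)) = μ * LinearMap.trace ℂ _ (ρ y)
    rw [map_mul, hμ]
    simp [smul_mul_assoc]
  have h1 : classInner f ρ.character = c * conj μ * classInner f ρ.character := by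
    unfold classInner
    have h2 : ∑ g : A, f g * conj (ρ.character g) =
        ∑ g : A, f (z * g) * conj (ρ.character (z * g)) :=
      (Equiv.sum_comp (Equiv.mulLeft z) (fun g => f g * conj (ρ.character g))).symm
    have h3 : ∀ g : A, f (z * g) * conj (ρ.character (z * g)) =
        c * conj μ * (f g * conj (ρ.character g)) := by
      intro g
      rw [hf, htw, map_mul]
      ring
    have hS : ∑ g : A, f g * conj (ρ.character g) = c * conj μ * ∑ g : A, f g * conj (ρ.character g) := by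
      calc ∑ g : A, f g * conj (ρ.character g) = ∑ g : A, f (z * g) * conj (ρ.character (z * g)) := h2
        _ = ∑ g : A, c * conj μ * (f g * conj (ρ.character g)) := Finset.sum_congr rfl fun g _ => h3 g
        _ = _ := (Finset.mul_sum _ _ _).symm
    calc (Nat.card A : ℂ)⁻¹ * ∑ g : A, f g * conj (ρ.character g)
        = (Nat.card A : ℂ)⁻¹ * (c * conj μ * ∑ g : A, f g * conj (ρ.character g)) := by rw [← hS]
      _ = _ := by ring
  have h2 : c * conj μ = 1 := by
    have h3 : (1 - c * conj μ) * classInner f ρ.character = 0 := by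
      rw [sub_mul, one_mul, ← h1, sub_self]
    rcases mul_eq_zero.1 h3 with h4 | h4
    · exact (sub_eq_zero.1 h4).symm
    · exact absurd h4 hne
  have h3 : conj μ = conj c := by
    have h4 : c * conj c = 1 := by
      rw [Complex.mul_conj, Complex.normSq_eq_norm_sq, hc]
      simp
    have h5 : c ≠ 0 := by
      intro h0
      rw [h0] at hc
      simp at hc
    exact mul_left_cancel₀ h5 (h2.trans h4.symm)
  have h4 : μ = c := by
    have := congrArg conj h3
    simpa using this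
  intro y
  rw [htw, h4]

end Twist

section FullyRamified

variable {G : Type u} [Group G] [Fintype G]

/-- **Fully ramified characters of class two sections.**  Let `Z₀ ≤ A` with `Z₀` the centre of `A`,
containing the commutators of `A` and central in `G`, acting on the class function `f` on `A` by
scalars which are nontrivial on nontrivial elements.  Then an irreducible constituent `τ` of `f` has
`τ(1)² |Z₀| = |A|`. -/
theorem fr_degree {A Z₀ : Subgroup G} [Fintype A] (hZA : Z₀ ≤ A)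
    (hZc : ∀ z ∈ Z₀, ∀ g : G, z * g = g * z)
    (hcen : ∀ a ∈ A, (∀ b ∈ A, a * b = b * a) → a ∈ Z₀)
    (hcomm : ∀ a ∈ A, ∀ b ∈ A, a * b * a⁻¹ * b⁻¹ ∈ Z₀)
    {f τ : A → ℂ} (hτ : IsIrrCharacter A τ)
    (hscal : ∀ z (hz : z ∈ Z₀), ∃ c : ℂ, ‖c‖ = 1 ∧ (z ≠ 1 → c ≠ 1) ∧
      ∀ y : A, f (⟨z, hZA hz⟩ * y) = c * f y)
    (hne : classInner f τ ≠ 0) :
    charDegree τ ^ 2 * Nat.card Z₀ = Nat.card A := by
  classical
  have hτc := IsIrrCharacter.isCharacter hτ
  have hcl := IsCharacter.isClassFunction hτc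
  have htw : ∀ z (hz : z ∈ Z₀), ∃ c : ℂ, ‖c‖ = 1 ∧ (z ≠ 1 → c ≠ 1) ∧
      ∀ y : A, τ (⟨z, hZA hz⟩ * y) = c * τ y := by
    intro z hz
    obtain ⟨c, hc1, hc2, hc3⟩ := hscal z hz
    refine ⟨c, hc1, hc2, ?_⟩
    refine twist_of_constituent hτ ⟨z, hZA hz⟩ (fun y => ?_) hc1 hc3 hne
    apply Subtype.ext
    exact hZc z hz y
  -- vanishing off `Z₀`
  have hvan : ∀ y : A, (y : G) ∉ Z₀ → τ y = 0 := by
    intro y hy
    have h1 : ∃ b ∈ A, (y : G) * b ≠ b * y := by
      by_contra hcon
      push Not at hcon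
      exact hy (hcen y y.2 hcon)
    obtain ⟨b, hb, hyb⟩ := h1
    have hzmem := hcomm b hb y y.2
    set z := b * (y : G) * b⁻¹ * (y : G)⁻¹ with hzdef
    have hz1 : z ≠ 1 := by
      intro h0
      apply hyb
      have h2 : b * (y : G) * b⁻¹ * (y : G)⁻¹ = 1 := h0
      have h3 : b * (y : G) * b⁻¹ = y := by
        rw [mul_inv_eq_one] at h2
        exact h2
      calc (y : G) * b = b * (y : G) * b⁻¹ * b := by rw [h3]
        _ = b * y := by group
    obtain ⟨c, -, hc2, hc3⟩ := htw z hzmem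
    have h4 := hc3 y
    have h5 : (⟨z, hZA hzmem⟩ : A) * y = (⟨b, hb⟩ : A) * y * (⟨b, hb⟩ : A)⁻¹ := by
      apply Subtype.ext
      simp [hzdef, mul_assoc]
    rw [h5, hcl] at h4
    have h6 : (1 - c) * τ y = 0 := by
      rw [sub_mul, one_mul, ← h4, sub_self]
    rcases mul_eq_zero.1 h6 with h7 | h7
    · exact absurd (sub_eq_zero.1 h7).symm (hc2 hz1)
    · exact h7
  -- the norm
  have hval : ∀ z (hz : z ∈ Z₀), τ ⟨z, hZA hz⟩ * conj (τ ⟨z, hZA hz⟩) = (charDegree τ : ℂ) ^ 2 := by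
    intro z hz
    obtain ⟨c, hc1, -, hc3⟩ := htw z hz
    have h1 := hc3 1
    rw [mul_one] at h1
    rw [h1, map_mul, map_one_eq_charDegree hτc, map_natCast]
    have h2 : c * conj c = 1 := by
      rw [Complex.mul_conj, Complex.normSq_eq_norm_sq, hc1]
      simp
    calc c * (charDegree τ : ℂ) * (conj c * (charDegree τ : ℂ))
        = (c * conj c) * (charDegree τ : ℂ) ^ 2 := by ring
      _ = _ := by rw [h2, one_mul]
  have hnorm := classInner_irr_self hτ
  unfold classInner at hnorm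
  have hsum : ∑ y : A, τ y * conj (τ y) = (Nat.card Z₀ : ℂ) * (charDegree τ : ℂ) ^ 2 := by
    have h1 : ∑ y : A, τ y * conj (τ y) =
        ∑ y ∈ Finset.univ.filter (fun y : A => (y : G) ∈ Z₀), τ y * conj (τ y) := by
      rw [Finset.sum_filter]
      refine Finset.sum_congr rfl fun y _ => ?_
      split_ifs with h
      · rfl
      · rw [hvan y h]
        simp
    rw [h1]
    have h2 : ∀ y ∈ Finset.univ.filter (fun y : A => (y : G) ∈ Z₀),
        τ y * conj (τ y) = (charDegree τ : ℂ) ^ 2 := by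
      intro y hy
      have hy' : (y : G) ∈ Z₀ := (Finset.mem_filter.1 hy).2
      exact hval y hy'
    rw [Finset.sum_congr rfl h2, Finset.sum_const, nsmul_eq_mul]
    congr 1
    have h3 : (Finset.univ.filter (fun y : A => (y : G) ∈ Z₀)).card = Nat.card Z₀ := by
      rw [← Fintype.card_subtype, ← Nat.card_eq_fintype_card]
      refine Nat.card_congr
        { toFun := fun y => ⟨y.1.1, y.2⟩
          invFun := fun z => ⟨⟨z.1, hZA z.2⟩, z.2⟩
          left_inv := fun y => rfl
          right_inv := fun z => rfl }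
    rw [h3]
  rw [hsum] at hnorm
  have hA0 : (Nat.card A : ℂ) ≠ 0 := by exact_mod_cast Nat.card_pos.ne'
  have h3 : (Nat.card Z₀ : ℂ) * (charDegree τ : ℂ) ^ 2 = Nat.card A := by
    field_simp at hnorm
    exact hnorm
  have h4 : Nat.card Z₀ * charDegree τ ^ 2 = Nat.card A := by exact_mod_cast h3
  rw [mul_comm]
  exact h4

end FullyRamified

section CentreC

variable {G : Type*} [Group G] [Finite G]

/-- The centre of the centraliser of a coprime element `x` in a class two group `R` is central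
in `R`. -/
theorem comm_of_comm_centralizer {r : ℕ} [Fact r.Prime] {R Z₀ : Subgroup G} (hR : IsPGroup r R)
    (x : G) (hx : x ∈ Subgroup.normalizer (R : Set G)) (ho : (orderOf x).Coprime r)
    (hZR : Z₀ ≤ R) (hZc : ∀ z ∈ Z₀, ∀ g : G, z * g = g * z)
    (hcomm : ∀ a ∈ R, ∀ b ∈ R, a * b * a⁻¹ * b⁻¹ ∈ Z₀)
    {y : G} (hy : y ∈ R) (hyx : y * x = x * y)
    (hyC : ∀ b ∈ R, b * x = x * b → y * b = b * y) : ∀ w ∈ R, y * w = w * y := by
  classical
  intro w hw
  have hxn : ∀ k : ℕ, ∀ a ∈ R, x ^ k * a * (x ^ k)⁻¹ ∈ R := by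
    intro k
    induction k with
    | zero => intro a ha; simpa using ha
    | succ k ih =>
      intro a ha
      have h1 := ih a ha
      have h2 := (Subgroup.mem_normalizer_iff.1 hx _).1 h1
      have h3 : x * (x ^ k * a * (x ^ k)⁻¹) * x⁻¹ = x ^ (k + 1) * a * (x ^ (k + 1))⁻¹ := by
        rw [pow_succ']
        group
      rwa [h3] at h2
  -- the commutator map
  let F : G → G := fun a => y * a * y⁻¹ * a⁻¹
  have hFmem : ∀ a ∈ R, F a ∈ Z₀ := fun a ha => hcomm y hy a ha
  have hFmul : ∀ a ∈ R, ∀ b ∈ R, F (a * b) = F a * F b := by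
    intro a ha b hb
    have h1 : F b * a⁻¹ = a⁻¹ * F b := hZc _ (hFmem b hb) a⁻¹
    show y * (a * b) * y⁻¹ * (a * b)⁻¹ = (y * a * y⁻¹ * a⁻¹) * F b
    have h2 : y * (a * b) * y⁻¹ * (a * b)⁻¹ = y * a * y⁻¹ * (F b * a⁻¹) := by
      simp only [F]
      group
    rw [h2, h1]
    group
  have hFconj : ∀ k : ℕ, ∀ a ∈ R, F (x ^ k * a * (x ^ k)⁻¹) = F a := by
    intro k a ha
    have hyk : y * x ^ k = x ^ k * y := ((show Commute y x from hyx).pow_right k).eq
    have hyk' : y⁻¹ * x ^ k = x ^ k * y⁻¹ := ((show Commute y⁻¹ x from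
      (show Commute y x from hyx).inv_left).pow_right k).eq
    have h1 : F (x ^ k * a * (x ^ k)⁻¹) = x ^ k * F a * (x ^ k)⁻¹ := by
      show y * (x ^ k * a * (x ^ k)⁻¹) * y⁻¹ * (x ^ k * a * (x ^ k)⁻¹)⁻¹ =
        x ^ k * (y * a * y⁻¹ * a⁻¹) * (x ^ k)⁻¹
      have e1 : y * (x ^ k * a * (x ^ k)⁻¹) * y⁻¹ = x ^ k * (y * a * y⁻¹) * (x ^ k)⁻¹ := by
        calc y * (x ^ k * a * (x ^ k)⁻¹) * y⁻¹ = (y * x ^ k) * a * ((x ^ k)⁻¹ * y⁻¹) := by group
          _ = (x ^ k * y) * a * (x ^ k * y)⁻¹ * 1 * 1 * (x ^ k * y) * ((x ^ k)⁻¹ * y⁻¹) := by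
            rw [hyk]
            group
          _ = _ := by
            have e2 : (x ^ k * y) * ((x ^ k)⁻¹ * y⁻¹) = (y * x ^ k) * ((x ^ k)⁻¹ * y⁻¹) := by rw [hyk]
            simp only [mul_one]
            rw [mul_assoc ((x ^ k * y) * a * (x ^ k * y)⁻¹), e2]
            group
      rw [e1]
      group
    rw [h1]
    have h2 := hZc _ (hFmem a ha) (x ^ k)
    rw [← h2]
    group
  -- the norm
  let N : ℕ → G := fun k => ((List.range k).map (fun i => x ^ i * w * (x ^ i)⁻¹)).prod
  have hN0 : N 0 = 1 := rfl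
  have hNs : ∀ k, N (k + 1) = N k * (x ^ k * w * (x ^ k)⁻¹) := by
    intro k
    simp only [N]
    rw [List.range_succ, List.map_append, List.prod_append]
    simp
  have hNR : ∀ k, N k ∈ R := by
    intro k
    induction k with
    | zero => rw [hN0]; exact R.one_mem
    | succ k ih =>
      rw [hNs]
      exact R.mul_mem ih (hxn k w hw)
  have hFN : ∀ k, F (N k) = F w ^ k := by
    intro k
    induction k with
    | zero =>
      rw [hN0]
      simp [F]
    | succ k ih =>
      rw [hNs, hFmul _ (hNR k) _ (hxn k w hw), ih, hFconj k w hw, pow_succ]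
  have hxN : ∀ k, x * N k * x⁻¹ = w⁻¹ * N k * (x ^ k * w * (x ^ k)⁻¹) := by
    intro k
    induction k with
    | zero =>
      rw [hN0]
      simp
    | succ k ih =>
      rw [hNs]
      have e1 : x * (N k * (x ^ k * w * (x ^ k)⁻¹)) * x⁻¹ =
          (x * N k * x⁻¹) * (x ^ (k + 1) * w * (x ^ (k + 1))⁻¹) := by
        rw [pow_succ']
        group
      rw [e1, ih]
      group
  set o := orderOf x with ho'
  have hxo : x ^ o = 1 := pow_orderOf_eq_one x
  have h1 : x * N o * x⁻¹ = w⁻¹ * N o * w := by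
    rw [hxN, hxo]
    simp
  -- `N o` commutes with `x`
  set e := x * N o * x⁻¹ * (N o)⁻¹ with he
  have heZ : e ∈ Z₀ := by
    have h2 := hcomm w⁻¹ (R.inv_mem hw) (N o) (hNR o)
    have h3 : e = w⁻¹ * N o * w⁻¹⁻¹ * (N o)⁻¹ := by
      rw [he, h1]
      simp
    rw [h3]
    exact h2
  have hxk : ∀ k : ℕ, x ^ k * N o * (x ^ k)⁻¹ = e ^ k * N o := by
    intro k
    induction k with
    | zero => simp
    | succ k ih =>
      have e1 : x ^ (k + 1) * N o * (x ^ (k + 1))⁻¹ = x * (x ^ k * N o * (x ^ k)⁻¹) * x⁻¹ := by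
        rw [pow_succ']
        group
      rw [e1, ih]
      have e2 : e ^ k * x⁻¹ = x⁻¹ * e ^ k := by
        have h4 : Commute e x⁻¹ := hZc e heZ x⁻¹
        exact (h4.pow_left k).eq
      have e3 : e * N o = x * N o * x⁻¹ := by
        rw [he]
        group
      have e4 : x * (e ^ k * N o) * x⁻¹ = e ^ k * (x * N o * x⁻¹) := by
        have h5 : x * e ^ k = e ^ k * x := by
          have h4 : Commute e x := hZc e heZ x
          exact (h4.pow_left k).symm.eq
        calc x * (e ^ k * N o) * x⁻¹ = (x * e ^ k) * N o * x⁻¹ := by group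
          _ = _ := by rw [h5]; group
      rw [e4, ← e3, pow_succ]
      group
  have heo : e ^ o = 1 := by
    have h2 := hxk o
    rw [hxo] at h2
    simp only [one_mul, inv_one, mul_one] at h2
    exact (mul_eq_right.1 h2.symm)
  have he1 : e = 1 := eq_one_of_pow_coprime hR (hZR heZ) ho heo
  have hNx : N o * x = x * N o := by
    have h2 : x * N o * x⁻¹ * (N o)⁻¹ = 1 := he1
    rw [mul_inv_eq_one, mul_inv_eq_iff_eq_mul] at h2
    exact h2.symm
  have hFo : F w ^ o = 1 := by
    rw [← hFN]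
    have h2 := hyC (N o) (hNR o) hNx
    show y * N o * y⁻¹ * (N o)⁻¹ = 1
    rw [h2]
    group
  have hFw : F w = 1 := eq_one_of_pow_coprime hR (hZR (hFmem w hw)) ho hFo
  have h2 : y * w * y⁻¹ * w⁻¹ = 1 := hFw
  rw [mul_inv_eq_one, mul_inv_eq_iff_eq_mul] at h2
  exact h2

end CentreC

section Primitive

variable {G : Type u} [Group G] [Fintype G] {p : ℕ} [hp : Fact p.Prime]

/-- Faithfulness in terms of the representation. -/
theorem rep_inj {m : ℕ} (ρ : Representation ℂ G (Fin m → ℂ))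
    (hfaith : ∀ g : G, ρ.character g = ρ.character 1 → g = 1) {g h : G} (hgh : ρ g = ρ h) : g = h := by
  have h1 : ρ (g * h⁻¹) = ρ 1 := by
    rw [map_mul, hgh, ← map_mul, mul_inv_cancel]
  have h2 : ρ.character (g * h⁻¹) = ρ.character 1 := by
    show LinearMap.trace ℂ _ (ρ (g * h⁻¹)) = LinearMap.trace ℂ _ (ρ 1)
    rw [h1]
  have h3 := hfaith _ h2
  exact mul_inv_eq_one.1 h3

theorem central_scal {m : ℕ} (ρ : Representation ℂ G (Fin m → ℂ)) (hρ : ρ.IsIrreducible)
    (hfaith : ∀ g : G, ρ.character g = ρ.character 1 → g = 1) {z : G} (hz : ∀ g : G, z * g = g * z) :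
    ∃ c : ℂ, ‖c‖ = 1 ∧ (z ≠ 1 → c ≠ 1) ∧ ∀ g : G, ρ.character (z * g) = c * ρ.character g := by
  classical
  obtain ⟨c, hc⟩ := schur_scalar ρ hρ (ρ z) (fun g v => by
    have h1 : ρ z (ρ g v) = ρ (z * g) v := by rw [map_mul]; rfl
    have h2 : ρ g (ρ z v) = ρ (g * z) v := by rw [map_mul]; rfl
    rw [h1, h2, hz g])
  have hfin : finrank ℂ (Fin m → ℂ) ≠ 0 := (finrank_pos_of_irr hρ).ne'
  have hcn : c ^ Nat.card G = 1 := by
    have h1 : z ^ Nat.card G = 1 := pow_card_eq_one'
    have h2 : ρ (z ^ Nat.card G) = c ^ Nat.card G • (1 : Module.End ℂ (Fin m → ℂ)) := by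
      rw [map_pow, hc, smul_pow, one_pow]
    rw [h1, map_one] at h2
    have h5 := congrArg (fun T => LinearMap.trace ℂ _ T) h2
    simp only [map_smul, LinearMap.trace_one, smul_eq_mul] at h5
    have h6 : ((finrank ℂ (Fin m → ℂ) : ℕ) : ℂ) ≠ 0 := by exact_mod_cast hfin
    have h7 : (1 - c ^ Nat.card G) * ((finrank ℂ (Fin m → ℂ) : ℕ) : ℂ) = 0 := by
      rw [sub_mul, one_mul]
      exact sub_eq_zero.2 (by simpa using h5)
    rcases mul_eq_zero.1 h7 with h8 | h8
    · exact (sub_eq_zero.1 h8).symm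
    · exact absurd h8 h6
  refine ⟨c, Complex.norm_eq_one_of_pow_eq_one hcn Nat.card_pos.ne', ?_, ?_⟩
  · rintro hz1 rfl
    apply hz1
    apply rep_inj ρ hfaith
    rw [hc, one_smul, map_one]
  · intro g
    show LinearMap.trace ℂ _ (ρ (z * g)) = c * LinearMap.trace ℂ _ (ρ g)
    rw [map_mul, hc]
    simp [smul_mul_assoc]

theorem comm_of_linear {χ : G → ℂ} (hχ : IsCharacter G χ) (hfaith : ∀ g : G, χ g = χ 1 → g = 1)
    (N : Subgroup G) [Fintype N]
    (hlin : ∀ τ : N → ℂ, IsIrrCharacter N τ → classInner (fun n : N => χ n) τ ≠ 0 → charDegree τ = 1)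
    {a b : G} (ha : a ∈ N) (hb : b ∈ N) : a * b = b * a := by
  classical
  let f : N → ℂ := fun n => χ n
  have hf : IsClassFunction N f := by
    intro g h
    exact IsCharacter.isClassFunction hχ (g : G) (h : G)
  have hsum := classFunction_eq_sum f hf
  let y : N := ⟨a, ha⟩ * ⟨b, hb⟩ * (⟨a, ha⟩ : N)⁻¹ * (⟨b, hb⟩ : N)⁻¹
  have hy : f y = f 1 := by
    rw [hsum]
    simp only [Finset.sum_apply, Pi.smul_apply, smul_eq_mul]
    refine Finset.sum_congr rfl fun τ _ => ?_
    by_cases hc : classInner f (τ : N → ℂ) = 0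
    · rw [hc, zero_mul, zero_mul]
    · have hd := hlin τ τ.2 hc
      have hτc := IsIrrCharacter.isCharacter τ.2
      have h1 : (τ : N → ℂ) 1 = 1 := by
        rw [map_one_eq_charDegree hτc, hd]
        simp
      obtain ⟨lam, hlam⟩ := exists_hom_of_character_one hτc h1
      congr 1
      rw [hlam]
      simp only [y, map_mul, map_inv]
      simp
  have h1 : χ (y : G) = χ ((1 : N) : G) := hy
  have h2 := hfaith _ (by simpa using h1)
  have h3 : a * b * a⁻¹ * b⁻¹ = 1 := by simpa [y] using h2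
  rw [mul_inv_eq_one, mul_inv_eq_iff_eq_mul] at h3
  exact h3

theorem congr_of_sq {p q : ℕ} (hp : p.Prime) (h : ((p : ℤ)) ∣ (q : ℤ) ^ 2 - 1) :
    ((q : ℤ) ≡ -1 [ZMOD p] ∨ (q : ℤ) ≡ 0 [ZMOD p] ∨ (q : ℤ) ≡ 1 [ZMOD p]) := by
  have h1 : (q : ℤ) ^ 2 - 1 = ((q : ℤ) - 1) * ((q : ℤ) + 1) := by ring
  rw [h1] at h
  rcases (Nat.prime_iff_prime_int.1 hp).dvd_or_dvd h with h2 | h2
  · right; right
    apply Int.modEq_iff_dvd.2
    have h3 : (1 : ℤ) - q = -((q : ℤ) - 1) := by ring
    rw [h3]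
    exact dvd_neg.2 h2
  · left
    apply Int.modEq_iff_dvd.2
    have h3 : (-1 : ℤ) - q = -((q : ℤ) + 1) := by ring
    rw [h3]
    exact dvd_neg.2 h2

/-- **The primitive case.** -/
theorem primitive_case [Group.IsSolvable G] {m : ℕ} (ρ : Representation ℂ G (Fin m → ℂ))
    (hρ : ρ.IsIrreducible) (hfaith : ∀ g : G, ρ.character g = ρ.character 1 → g = 1)
    (hprim : ∀ T : Subgroup G, T ≠ ⊤ → ∀ ψ : T → ℂ, IsIrrCharacter T ψ → indFun T ψ ≠ ρ.character)
    (hpn : ¬ p ∣ charDegree ρ.character) (P : Sylow p G) (hP : ¬ (P : Subgroup G).Normal) :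
    ∃ q : ℕ, IsPrimePow q ∧ q ∣ charDegree ρ.character ∧
      ((q : ℤ) ≡ -1 [ZMOD p] ∨ (q : ℤ) ≡ 0 [ZMOD p] ∨ (q : ℤ) ≡ 1 [ZMOD p]) := by
  classical
  have hpp := hp.out
  set χ := ρ.character with hχdef
  have hχI : IsIrrCharacter G χ := ⟨m, ρ, hρ, rfl⟩
  have hχc := IsIrrCharacter.isCharacter hχI
  -- normal abelian subgroups are central
  have habn : ∀ A : Subgroup G, A.Normal → (∀ a ∈ A, ∀ b ∈ A, a * b = b * a) →
      ∀ a ∈ A, ∀ g : G, a * g = g * a := by
    intro A hA hcomm a ha g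
    by_contra hne
    have hns : a ∉ scalarSubgroup ρ := by
      intro hs
      obtain ⟨c, -, hc⟩ := hs
      apply hne
      apply rep_inj ρ hfaith
      rw [map_mul, map_mul, hc]
      simp [smul_mul_assoc, mul_smul_comm]
    obtain ⟨T, hT, ψ, hψ, hind⟩ := imprimitive_of_normal_comm ρ hρ A hA
      (fun a ha b hb => by rw [hcomm a ha b hb]) a ha hns
    exact hprim T hT ψ hψ hind
  -- `O_p(G)` is central
  have hOp : ∀ a ∈ pCore p G, ∀ g : G, a * g = g * a := by
    refine habn _ (pCore_normal p G) ?_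
    intro a ha b hb
    haveI : Fintype (pCore p G) := Fintype.ofFinite _
    refine comm_of_linear hχc hfaith (pCore p G) ?_ ha hb
    intro τ hτ hne
    obtain ⟨e, he⟩ := classInner_isCharacter_nat
      (IsCharacter.comp (pCore p G).subtype hχc) (IsIrrCharacter.isCharacter hτ)
    have he' : classInner (fun n : pCore p G => χ n) τ = e := he
    have he0 : e ≠ 0 := by
      rintro rfl
      apply hne
      rw [he']
      simp
    have hdeg := clifford_degree (pCore_normal p G) hχI hτ he' he0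
    have hd1 : charDegree τ ∣ charDegree χ := by
      rw [hdeg]
      exact Dvd.intro_left _ rfl
    obtain ⟨k, hk⟩ := IsPGroup.iff_card.1 (pCore_isPGroup p G)
    have hd2 : charDegree τ ∣ p ^ k := by
      rw [← hk]
      exact charDegree_dvd_card hτ
    obtain ⟨j, -, hj⟩ := (Nat.dvd_prime_pow hpp).1 hd2
    rcases j with _ | j
    · simpa using hj
    · exfalso
      apply hpn
      refine Dvd.dvd.trans ?_ hd1
      rw [hj, pow_succ]
      exact Dvd.intro_left _ rfl
  -- a `p`-element outside `O_p(G)`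
  have hle := Cfsg.Agent.Lib.Core.pCore_le_sylow (p := p) P
  obtain ⟨x, hxP, hxO⟩ : ∃ x ∈ (P : Subgroup G), x ∉ pCore p G := by
    by_contra hcon
    push Not at hcon
    have h1 : (P : Subgroup G) = pCore p G := le_antisymm (fun y hy => hcon y hy) hle
    rw [h1] at hP
    exact hP (pCore_normal p G)
  obtain ⟨a, ha⟩ := (IsPGroup.iff_orderOf.1 P.isPGroup') ⟨x, hxP⟩
  have hord : orderOf x = p ^ a := by
    rw [← ha]
    exact (Subgroup.orderOf_mk x hxP).symm
  have hxpow : x ^ p ^ a = 1 := by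
    rw [← hord]
    exact pow_orderOf_eq_one x
  -- a prime `r ≠ p` with `O_r(G)` not centralised by `x`
  obtain ⟨r, hrp, hr, u, hu, hxu⟩ : ∃ r : ℕ, r.Prime ∧ r ≠ p ∧ ∃ u ∈ pCore r G, x * u ≠ u * x := by
    by_contra hcon
    push Not at hcon
    have hFle : fittingSubgroup G ≤ Subgroup.centralizer ({x} : Set G) := by
      rw [fittingSubgroup_eq_iSup_pCore]
      refine iSup_le fun s => ?_
      intro y hy
      rw [Subgroup.mem_centralizer_singleton_iff]
      by_cases hs : (s : ℕ) = p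
      · have hy' : y ∈ pCore p G := by
          rw [← hs]
          exact hy
        exact hOp y hy' x
      · exact (hcon s s.2 hs y hy).symm
    have hxF : x ∈ fittingSubgroup G := by
      apply Cfsg.Agent.Lib.Geo.centralizer_fitting_le_of_solvable
      rw [Subgroup.mem_centralizer_iff]
      intro y hy
      have h1 := hFle hy
      rw [Subgroup.mem_centralizer_singleton_iff] at h1
      exact h1
    apply hxO
    refine Cfsg.Agent.Lib.Uniq.mem_pCore_of_mem_fitting (t := p) (x := x) (z := x) ⟨a, hxpow⟩ hxF ⟨0, by simp⟩ ?_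
    intro s _ hs v hv
    exact hcon s Fact.out hs v hv
  haveI hrF : Fact r.Prime := ⟨hrp⟩
  have hcop : (orderOf x).Coprime r := by
    rw [hord]
    exact Nat.Coprime.pow_left _ ((Nat.coprime_primes hpp hrp).2 (Ne.symm hr))
  -- a minimal normal `r`-subgroup not centralised by `x`
  let S : Set (Subgroup G) := {R | R.Normal ∧ IsPGroup r R ∧ ∃ w ∈ R, x * w ≠ w * x}
  have hSne : S.Nonempty := ⟨pCore r G, pCore_normal r G, pCore_isPGroup r G, u, hu, hxu⟩
  obtain ⟨R, ⟨hRn, hRp, w₀, hw₀, hxw₀⟩, hRmin⟩ := (Set.toFinite S).exists_minimal hSne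
  have hmin : ∀ L : Subgroup G, L.Normal → L ≤ R → L ≠ R → ∀ w ∈ L, x * w = w * x := by
    intro L hL hLR hne w hw
    by_contra hcon
    have h1 : L ∈ S := ⟨hL, hRp.to_le hLR, w, hw, hcon⟩
    exact hne (le_antisymm hLR (hRmin h1 hLR))
  haveI := hRn
  have hRnt : Nontrivial R := by
    refine ⟨⟨⟨w₀, hw₀⟩, 1, ?_⟩⟩
    intro h
    have h1 : w₀ = 1 := congrArg Subtype.val h
    rw [h1] at hxw₀
    simp at hxw₀
  -- the derived subgroup
  have hR'n : (⁅R, R⁆ : Subgroup G).Normal := inferInstance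
  have hR'le : (⁅R, R⁆ : Subgroup G) ≤ R := Subgroup.commutator_le_left R R
  have hR'ne : (⁅R, R⁆ : Subgroup G) ≠ R := by
    intro h
    have hlt := IsSolvable.commutator_lt_top_of_nontrivial (G := R)
    apply hlt.ne
    apply Subgroup.map_injective R.subtype_injective
    rw [Subgroup.map_subtype_commutator]
    have h1 : (⊤ : Subgroup R).map R.subtype = R := by
      rw [← MonoidHom.range_eq_map, Subgroup.range_subtype]
    rw [h1, h]
  have hxR' := hmin _ hR'n hR'le hR'ne
  -- `R'` is central in `R`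
  have hD : ∀ w ∈ R, ∀ a ∈ (⁅R, R⁆ : Subgroup G), w * a = a * w := by
    by_contra hcon
    push Not at hcon
    obtain ⟨w₁, hw₁, a₁, ha₁, hne₁⟩ := hcon
    let D : Subgroup G := R ⊓ Subgroup.centralizer ((⁅R, R⁆ : Subgroup G) : Set G)
    have hDn : D.Normal := inferInstance
    have hDle : D ≤ R := inf_le_left
    have hDne : D ≠ R := by
      intro h
      have h1 : w₁ ∈ D := by rw [h]; exact hw₁
      have h2 := (Subgroup.mem_centralizer_iff.1 h1.2) a₁ ha₁
      exact hne₁ h2.symm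
    have hxD := hmin D hDn hDle hDne
    have hall : ∀ w ∈ R, x * w = w * x := by
      intro w hw
      let c := x * w * x⁻¹ * w⁻¹
      have hcR : c ∈ R := by
        have h1 : x * w * x⁻¹ ∈ R := hRn.conj_mem w hw x
        exact R.mul_mem h1 (R.inv_mem hw)
      have hcD : c ∈ D := by
        refine ⟨hcR, Subgroup.mem_centralizer_iff.2 ?_⟩
        intro a' ha'
        have ha'' : a' ∈ (⁅R, R⁆ : Subgroup G) := ha'
        have h1 : w⁻¹ * a' * w ∈ (⁅R, R⁆ : Subgroup G) := by
          have := hR'n.conj_mem a' ha'' w⁻¹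
          simpa using this
        have h2 := hxR' _ h1
        have h3 := hxR' _ ha''
        -- `c` commutes with `a'`
        have e1 : x⁻¹ * (w⁻¹ * a' * w) * x = w⁻¹ * a' * w := by
          calc x⁻¹ * (w⁻¹ * a' * w) * x = x⁻¹ * (x * (w⁻¹ * a' * w)) := by rw [h2]; group
            _ = _ := by group
        have e2 : x * a' * x⁻¹ = a' := by rw [h3]; group
        have e3 : c * a' * c⁻¹ = a' := by
          calc c * a' * c⁻¹ = x * w * (x⁻¹ * (w⁻¹ * a' * w) * x) * w⁻¹ * x⁻¹ := by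
                simp only [c]
                group
            _ = x * (w * (w⁻¹ * a' * w) * w⁻¹) * x⁻¹ := by rw [e1]; group
            _ = x * a' * x⁻¹ := by group
            _ = a' := e2
        calc a' * c = c * a' * c⁻¹ * c := by rw [e3]
          _ = c * a' := by group
      have hxc := hxD c hcD
      have hpow : ∀ k : ℕ, x ^ k * w * (x ^ k)⁻¹ = c ^ k * w := by
        intro k
        induction k with
        | zero => simp
        | succ k ih =>
          have e1 : x ^ (k + 1) * w * (x ^ (k + 1))⁻¹ = x * (x ^ k * w * (x ^ k)⁻¹) * x⁻¹ := by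
            rw [pow_succ']
            group
          rw [e1, ih]
          have e2 : x * c ^ k = c ^ k * x := ((show Commute x c from hxc).pow_right k).eq
          have e3 : x * w * x⁻¹ = c * w := by
            simp only [c]
            group
          calc x * (c ^ k * w) * x⁻¹ = (x * c ^ k) * w * x⁻¹ := by group
            _ = c ^ k * (x * w * x⁻¹) := by rw [e2]; group
            _ = c ^ k * (c * w) := by rw [e3]
            _ = c ^ (k + 1) * w := by rw [pow_succ]; group
      have h5 := hpow (orderOf x)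
      rw [pow_orderOf_eq_one] at h5
      simp only [one_mul, inv_one, mul_one] at h5
      have h6 : c ^ orderOf x = 1 := mul_eq_right.1 h5.symm
      have h7 : c = 1 := eq_one_of_pow_coprime hRp hcR hcop h6
      have h8 : x * w * x⁻¹ * w⁻¹ = 1 := h7
      rw [mul_inv_eq_one, mul_inv_eq_iff_eq_mul] at h8
      exact h8
    exact hxw₀ (hall w₀ hw₀)
  -- the centre
  let Z₀ : Subgroup G := R ⊓ Subgroup.center G
  have hZR : Z₀ ≤ R := inf_le_left
  have hZc : ∀ z ∈ Z₀, ∀ g : G, z * g = g * z := by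
    intro z hz g
    exact (Subgroup.mem_center_iff.1 hz.2 g).symm
  have hcen : ∀ a ∈ R, (∀ b ∈ R, a * b = b * a) → a ∈ Z₀ := by
    intro a ha hab
    refine ⟨ha, ?_⟩
    let A : Subgroup G := R ⊓ Subgroup.centralizer (R : Set G)
    have hAn : A.Normal := inferInstance
    have hAcomm : ∀ c ∈ A, ∀ d ∈ A, c * d = d * c := by
      intro c hc d hd
      exact ((Subgroup.mem_centralizer_iff.1 hd.2) c hc.1)
    have haA : a ∈ A := by
      refine ⟨ha, Subgroup.mem_centralizer_iff.2 ?_⟩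
      intro b hb
      exact (hab b hb).symm
    refine Subgroup.mem_center_iff.2 ?_
    intro g
    exact (habn A hAn hAcomm a haA g).symm
  have hcomm : ∀ a ∈ R, ∀ b ∈ R, a * b * a⁻¹ * b⁻¹ ∈ Z₀ := by
    intro a ha b hb
    have h1 : a * b * a⁻¹ * b⁻¹ ∈ (⁅R, R⁆ : Subgroup G) := Subgroup.commutator_mem_commutator ha hb
    refine hcen _ (hR'le h1) fun w hw => ?_
    exact (hD w hw _ h1).symm
  -- the centraliser of `x` in `R`
  let C : Subgroup G := R ⊓ Subgroup.centralizer ({x} : Set G)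
  have hCR : C ≤ R := inf_le_left
  have hZC : Z₀ ≤ C := by
    intro z hz
    refine ⟨hz.1, ?_⟩
    show z ∈ Subgroup.centralizer ({x} : Set G)
    rw [Subgroup.mem_centralizer_singleton_iff]
    exact hZc z hz x
  have hCne : C ≠ R := by
    intro h
    have h1 : w₀ ∈ C := by rw [h]; exact hw₀
    have h2 : w₀ ∈ Subgroup.centralizer ({x} : Set G) := h1.2
    rw [Subgroup.mem_centralizer_singleton_iff] at h2
    exact hxw₀ h2.symm
  have hcenC : ∀ a ∈ C, (∀ b ∈ C, a * b = b * a) → a ∈ Z₀ := by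
    intro a ha hab
    have hax : a * x = x * a := by
      have h2 : a ∈ Subgroup.centralizer ({x} : Set G) := ha.2
      rwa [Subgroup.mem_centralizer_singleton_iff] at h2
    refine hcen a ha.1 (comm_of_comm_centralizer hRp x ?_ hcop hZR hZc hcomm ha.1 hax ?_)
    · exact Subgroup.mem_normalizer_iff.2 fun n => ⟨fun hn => hRn.conj_mem n hn x, fun hn => by
        have := hRn.conj_mem _ hn x⁻¹
        simpa [mul_assoc] using this⟩
    · intro b hb hbx
      refine hab b ⟨hb, ?_⟩
      show b ∈ Subgroup.centralizer ({x} : Set G)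
      rw [Subgroup.mem_centralizer_singleton_iff]
      exact hbx
  have hcommC : ∀ a ∈ C, ∀ b ∈ C, a * b * a⁻¹ * b⁻¹ ∈ Z₀ := fun a ha b hb => hcomm a ha.1 b hb.1
  -- the scalars
  have hscal : ∀ (A : Subgroup G) (hZA : Z₀ ≤ A) (z : G) (hz : z ∈ Z₀), ∃ c : ℂ, ‖c‖ = 1 ∧ (z ≠ 1 → c ≠ 1) ∧
      ∀ y : A, (fun n : A => χ n) (⟨z, hZA hz⟩ * y) = c * (fun n : A => χ n) y := by
    intro A hZA z hz
    obtain ⟨c, h1, h2, h3⟩ := central_scal ρ hρ hfaith (hZc z hz)
    exact ⟨c, h1, h2, fun y => h3 y⟩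
  have hm0 : χ 1 ≠ 0 := map_one_ne_zero_of_irr hχI
  have hfne : ∀ A : Subgroup G, (fun n : A => χ n) ≠ 0 := by
    intro A h
    have h1 := congrFun h 1
    apply hm0
    simpa using h1
  haveI : Fintype R := Fintype.ofFinite _
  haveI : Fintype C := Fintype.ofFinite _
  have hcR : IsCharacter R (fun n : R => χ n) := IsCharacter.comp R.subtype hχc
  have hcC : IsCharacter C (fun n : C => χ n) := IsCharacter.comp C.subtype hχc
  obtain ⟨θ, hθ, hθne⟩ := exists_constituent hcR (hfne R)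
  obtain ⟨τ, hτ, hτne⟩ := exists_constituent hcC (hfne C)
  have hRdeg := fr_degree hZR hZc hcen hcomm hθ (hscal R hZR) hθne
  have hCdeg := fr_degree hZC hZc hcenC hcommC hτ (hscal C hZC) hτne
  -- everything is a power of `r`
  obtain ⟨k, hk⟩ := IsPGroup.iff_card.1 hRp
  have hpw : ∀ d : ℕ, d ∣ Nat.card R → ∃ j, d = r ^ j := by
    intro d hd
    rw [hk] at hd
    obtain ⟨j, -, hj⟩ := (Nat.dvd_prime_pow hrp).1 hd
    exact ⟨j, hj⟩
  have hCdvd : Nat.card C ∣ Nat.card R := by
    exact Subgroup.card_dvd_of_le hCR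
  have hZdvd : Nat.card Z₀ ∣ Nat.card R := Subgroup.card_dvd_of_le hZR
  obtain ⟨l₁, hl₁⟩ := hpw _ (charDegree_dvd_card hθ)
  obtain ⟨l₂, hl₂⟩ := hpw _ ((charDegree_dvd_card hτ).trans hCdvd)
  obtain ⟨z, hz⟩ := hpw _ hZdvd
  -- congruence
  have hmod := card_modEq_centralizer (p := p) R x (by
      have : IsPGroup p (Subgroup.zpowers x) := by
        refine IsPGroup.of_card (n := a) ?_
        rw [Nat.card_zpowers, hord]
      exact this) (Subgroup.mem_normalizer_iff.2 fun n => ⟨fun hn => hRn.conj_mem n hn x, fun hn => by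
        have := hRn.conj_mem _ hn x⁻¹
        simpa [mul_assoc] using this⟩)
  have hCcard : Nat.card ↥(R ⊓ Subgroup.centralizer ({x} : Set G)) = Nat.card C := rfl
  rw [hCcard, ← hRdeg, ← hCdeg, hl₁, hl₂, hz] at hmod
  have hlt : Nat.card C < Nat.card R := by
    have h1 : Nat.card C ≤ Nat.card R := Nat.le_of_dvd Nat.card_pos hCdvd
    refine lt_of_le_of_ne h1 ?_
    intro h
    exact hCne (Subgroup.eq_of_le_of_card_ge hCR h.ge)
  rw [← hRdeg, ← hCdeg, hl₁, hl₂, hz] at hlt
  have hl : l₂ < l₁ := by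
    by_contra hcon
    push Not at hcon
    have h1 : (r ^ l₁) ^ 2 ≤ (r ^ l₂) ^ 2 := by
      have := Nat.pow_le_pow_right hrp.pos hcon
      exact Nat.pow_le_pow_left this 2
    have h2 : (r ^ l₁) ^ 2 * r ^ z ≤ (r ^ l₂) ^ 2 * r ^ z := Nat.mul_le_mul_right _ h1
    omega
  obtain ⟨i, rfl⟩ : ∃ i, l₁ = l₂ + i := ⟨l₁ - l₂, by omega⟩
  have hi : i ≠ 0 := by omega
  refine ⟨r ^ i, ?_, ?_, ?_⟩
  · exact ⟨r, i, hrp.prime, Nat.pos_of_ne_zero hi, rfl⟩
  · -- the degree of `θ` divides `χ(1)`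
    obtain ⟨e, he⟩ := classInner_isCharacter_nat hcR (IsIrrCharacter.isCharacter hθ)
    have he0 : e ≠ 0 := by
      rintro rfl
      apply hθne
      rw [he]
      simp
    have hdeg := clifford_degree hRn hχI hθ he he0
    have h1 : charDegree θ ∣ charDegree χ := by
      rw [hdeg]
      exact Dvd.intro_left _ rfl
    refine Dvd.dvd.trans ?_ h1
    rw [hl₁, pow_add]
    exact Dvd.intro_left _ rfl
  · -- `q ^ 2 ≡ 1`
    apply congr_of_sq hpp
    have h1 : ((r ^ (l₂ + i)) ^ 2 * r ^ z : ℕ) ≡ (r ^ l₂) ^ 2 * r ^ z [MOD p] := hmod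
    have h2 := (Nat.modEq_iff_dvd.1 h1.symm)
    have h3 : (((r ^ (l₂ + i)) ^ 2 * r ^ z : ℕ) : ℤ) - (((r ^ l₂) ^ 2 * r ^ z : ℕ) : ℤ) =
        (r : ℤ) ^ (2 * l₂ + z) * (((r ^ i : ℕ) : ℤ) ^ 2 - 1) := by
      push_cast
      ring
    rw [h3] at h2
    have hcopr : IsCoprime ((p : ℤ)) ((r : ℤ) ^ (2 * l₂ + z)) := by
      apply IsCoprime.pow_right
      exact Nat.isCoprime_iff_coprime.2 ((Nat.coprime_primes hpp hrp).2 (Ne.symm hr))
    exact hcopr.dvd_of_dvd_mul_left h2

end Primitive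

end Cfsg.Agent.Lib.CharExtra.QPow
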