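import Mathlib
import Cfsg.Agent.Lib.CharExtra.QPowA
import Cfsg.Agent.Lib.Char.MonoNormal
import Cfsg.Agent.Lib.Degree.Inflate

/-!
# Faithful characters of solvable groups with a non-normal Sylow subgroup
-/

set_option autoImplicit false
set_option linter.unusedSectionVars false
set_option linter.unusedSimpArgs false
set_option linter.unusedVariables false
set_option linter.style.haveILetI false
set_option linter.unnecessarySimpa false

open scoped ComplexConjugate Pointwise
open Module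

namespace Cfsg.Agent.Lib.CharExtra.QPow

open Cfsg (classInner IsCharacter IsIrrCharacter IrrCharacter IsClassFunction charDegree indFun
  extendByZero pCore fittingSubgroup)
open Cfsg.Agent.Lib.Char
open Cfsg.Agent.Lib.Degree (kerOf mem_kerOf_iff kerOf_normal)

universe u

section Aux

variable {G : Type u} [Group G] [Finite G]

theorem index_eq_relIndex_inf {H M : Subgroup G} [hM : M.Normal] (h : H ⊔ M = ⊤) :
    H.index = (H ⊓ M).relIndex M := by
  have h1 : M.relIndex H = M.index := by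
    rw [← Subgroup.relIndex_sup_right, h, Subgroup.relIndex_top_right]
  have hK : Nat.card ↥((H ⊓ M).subgroupOf M) = Nat.card ↥(H ⊓ M) :=
    Nat.card_congr (Subgroup.subgroupOfEquivOfLe inf_le_right).toEquiv
  have h2 : (H ⊓ M).relIndex M * Nat.card ↥(H ⊓ M) = Nat.card M := by
    rw [← hK, Subgroup.relIndex, Subgroup.index_mul_card]
  have h3 : M.relIndex H * Nat.card ↥(H ⊓ M) = Nat.card H := by
    have hK2 : Nat.card ↥(M.subgroupOf H) = Nat.card ↥(H ⊓ M) := by
      have e : M.subgroupOf H = (H ⊓ M).subgroupOf H := by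
        rw [inf_comm, Subgroup.inf_subgroupOf_right]
      rw [e]
      exact Nat.card_congr (Subgroup.subgroupOfEquivOfLe inf_le_left).toEquiv
    rw [← hK2, Subgroup.relIndex, Subgroup.index_mul_card]
  have h4 := Subgroup.index_mul_card M
  have h5 := Subgroup.index_mul_card H
  rw [h1] at h3
  have hpos : 0 < Nat.card ↥(H ⊓ M) := Nat.card_pos
  have hMpos : 0 < M.index := Nat.pos_of_ne_zero M.index_ne_zero_of_finite
  have h6 : H.index * (M.index * Nat.card ↥(H ⊓ M)) = M.index * ((H ⊓ M).relIndex M * Nat.card ↥(H ⊓ M)) := by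
    rw [h3, h2, h5, h4]
  have h7 : (H.index) * (M.index * Nat.card ↥(H ⊓ M)) = ((H ⊓ M).relIndex M) * (M.index * Nat.card ↥(H ⊓ M)) := by
    rw [h6]
    ring
  exact Nat.eq_of_mul_eq_mul_right (Nat.mul_pos hMpos hpos) h7

variable {p : ℕ} [hp : Fact p.Prime]

theorem exists_sylow_le (H : Subgroup G) (hnd : ¬ p ∣ H.index) (P : Sylow p G) :
    ∃ P₁ : Sylow p G, (P₁ : Subgroup G) ≤ H ∧
      (¬ (P : Subgroup G).Normal → ¬ (P₁ : Subgroup G).Normal) := by
  classical
  have hPp : IsPGroup p (P : Subgroup G) := P.isPGroup'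
  obtain ⟨q, hq⟩ := hPp.nonempty_fixed_point_of_prime_not_dvd_card (G ⧸ H) hnd
  obtain ⟨g, rfl⟩ := QuotientGroup.mk_surjective q
  have hfix : ∀ y ∈ (P : Subgroup G), g⁻¹ * y * g ∈ H := by
    intro y hy
    have h1 := hq ⟨y, hy⟩
    have h2 : (QuotientGroup.mk (y * g) : G ⧸ H) = QuotientGroup.mk g := h1
    have h3 := QuotientGroup.eq.1 h2
    have h4 : (y * g)⁻¹ * g ∈ H := h3
    have h5 := H.inv_mem h4
    simpa [mul_assoc] using h5
  let P₁ : Sylow p G := g⁻¹ • P
  have hmem : ∀ x, x ∈ (P₁ : Subgroup G) ↔ g * x * g⁻¹ ∈ (P : Subgroup G) := by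
    intro x
    have h1 : (P₁ : Subgroup G) = MulAut.conj g⁻¹ • (P : Subgroup G) := Sylow.coe_subgroup_smul
    rw [h1, Subgroup.mem_smul_pointwise_iff_exists]
    constructor
    · rintro ⟨y, hy, rfl⟩
      have : g * (MulAut.conj g⁻¹ • y) * g⁻¹ = y := by
        simp [MulAut.smul_def, MulAut.conj_apply, mul_assoc]
      rwa [this]
    · intro h
      refine ⟨_, h, ?_⟩
      simp [MulAut.smul_def, MulAut.conj_apply, mul_assoc]
  refine ⟨P₁, ?_, ?_⟩
  · intro x hx
    have h1 := hfix _ ((hmem x).1 hx)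
    simpa [mul_assoc] using h1
  · intro hP hn
    apply hP
    refine ⟨fun y hy h => ?_⟩
    have h1 : g⁻¹ * y * g ∈ (P₁ : Subgroup G) := by
      rw [hmem]
      simpa [mul_assoc] using hy
    have h2 := hn.conj_mem _ h1 (g⁻¹ * h * g)
    have h3 := (hmem _).1 h2
    have h4 : g * (g⁻¹ * h * g * (g⁻¹ * y * g) * (g⁻¹ * h * g)⁻¹) * g⁻¹ = h * y * h⁻¹ := by
      group
    rwa [h4] at h3

end Aux

section Step

variable {G : Type u} [Group G] [Fintype G] {p : ℕ} [hp : Fact p.Prime]

/-- The coatom version of the imprimitivity statement. -/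
theorem exists_coatom_ind {χ : G → ℂ} (hχ : IsIrrCharacter G χ) {T : Subgroup G} (hT : T ≠ ⊤)
    {ψ₀ : T → ℂ} (hψ₀ : IsIrrCharacter T ψ₀) (hind : indFun T ψ₀ = χ) :
    ∃ U : Subgroup G, IsCoatom U ∧ ∃ ψ : U → ℂ, IsIrrCharacter U ψ ∧ indFun U ψ = χ := by
  classical
  obtain ⟨U, hU, hTU⟩ := (eq_top_or_exists_le_coatom T).resolve_left hT
  haveI : Fintype U := Fintype.ofFinite U
  have htrans := indFun_trans T U hTU ψ₀
  set θ : (T.subgroupOf U) → ℂ := fun x => ψ₀ ⟨(x : U), Subgroup.mem_subgroupOf.mp x.2⟩ with hθdef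
  have hθc : IsCharacter (T.subgroupOf U) θ :=
    IsCharacter.comp (Subgroup.subgroupOfEquivOfLe hTU).toMonoidHom (IsIrrCharacter.isCharacter hψ₀)
  haveI : Fintype (T.subgroupOf U) := Fintype.ofFinite _
  have hI : IsCharacter U (indFun (T.subgroupOf U) θ) := indFun_isCharacter _ hθc
  have hne : indFun (T.subgroupOf U) θ ≠ 0 := by
    intro h0
    rw [h0, indFun_zero, hind] at htrans
    have := map_one_ne_zero_of_irr hχ
    rw [← htrans] at this
    exact this rfl
  obtain ⟨ψ, hψ, hc⟩ := exists_constituent hI hne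
  have hsub := isCharacter_sub_of_constituent hI hψ hc
  refine ⟨U, hU, ψ, hψ, ?_⟩
  refine Cfsg.Agent.Lib.CharExtra.eq_of_add_eq_irr (indFun_isCharacter U (IsIrrCharacter.isCharacter hψ))
    (indFun_isCharacter U hsub) hχ ?_ ?_
  · rw [← indFun_add, add_sub_cancel, htrans, hind]
  · intro h0
    have h2 := congrFun h0 1
    rw [indFun_one] at h2
    have h3 := map_one_ne_zero_of_irr hψ
    have h4 : (U.index : ℂ) ≠ 0 := by exact_mod_cast U.index_ne_zero_of_finite
    simp only [Pi.zero_apply] at h2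
    exact (mul_ne_zero h4 h3) h2

/-- The conclusion. -/
def QC (p : ℕ) (n : ℕ) : Prop :=
  ∃ q : ℕ, IsPrimePow q ∧ q ∣ n ∧ ((q : ℤ) ≡ -1 [ZMOD p] ∨ (q : ℤ) ≡ 0 [ZMOD p] ∨ (q : ℤ) ≡ 1 [ZMOD p])

theorem QC.of_dvd {n n' : ℕ} (h : QC p n) (hd : n ∣ n') : QC p n' := by
  obtain ⟨q, h1, h2, h3⟩ := h
  exact ⟨q, h1, h2.trans hd, h3⟩

/-- **The imprimitive step.** -/
theorem imprimitive_step [Group.IsSolvable G] {χ : G → ℂ} (hχ : IsIrrCharacter G χ)
    (hfaith : ∀ g : G, χ g = χ 1 → g = 1) (H : Subgroup G) (hH : IsCoatom H) {ψ : H → ℂ}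
    (hψ : IsIrrCharacter H ψ) (hind : indFun H ψ = χ) (P : Sylow p G) (hP : ¬ (P : Subgroup G).Normal)
    (IH : ∀ (X : Type u) [Group X] [Fintype X], Nat.card X < Nat.card G → Group.IsSolvable X →
      ∀ τ : X → ℂ, IsIrrCharacter X τ → (∀ g, τ g = τ 1 → g = 1) → ∀ S : Sylow p X,
        ¬ (S : Subgroup X).Normal → QC p (charDegree τ)) :
    QC p (charDegree χ) := by
  classical
  have hpp := hp.out
  haveI : Fintype H := Fintype.ofFinite H
  have hψc := IsIrrCharacter.isCharacter hψ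
  have hχc := IsIrrCharacter.isCharacter hχ
  have hdeg : charDegree χ = H.index * charDegree ψ := by
    apply charDegree_natCast
    rw [← hind, indFun_one, map_one_eq_charDegree hψc]
    push_cast
    ring
  set K := H.normalCore with hKdef
  haveI hKn : K.Normal := Subgroup.normalCore_normal H
  have hKH : K ≤ H := Subgroup.normalCore_le H
  -- a chief factor above `K`
  let S : Set (Subgroup G) := {M | M.Normal ∧ K < M}
  have hSne : S.Nonempty := ⟨⊤, inferInstance, lt_top_iff_ne_top.2 (fun h => hH.1 (top_le_iff.1 (h ▸ hKH)))⟩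
  obtain ⟨M, ⟨hMn, hKM⟩, hMmin⟩ := (Set.toFinite S).exists_minimal hSne
  haveI := hMn
  have hchief : ∀ L : Subgroup G, L.Normal → K ≤ L → L ≤ M → L = K ∨ L = M := by
    intro L hL hKL hLM
    by_cases hLK : L = K
    · exact Or.inl hLK
    · right
      exact le_antisymm hLM (hMmin ⟨hL, lt_of_le_of_ne hKL (Ne.symm hLK)⟩ hLM)
  obtain ⟨r, k, hrp, hrk⟩ := chief_index_prime_power M K hKM hchief
  -- the section is abelian
  let π := QuotientGroup.mk' K
  let A : Subgroup (G ⧸ K) := M.map π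
  haveI hAn : A.Normal := Subgroup.Normal.map hMn _ (QuotientGroup.mk'_surjective K)
  have hAcard : Nat.card A = r ^ k := by
    rw [← hrk]
    have h3 := Subgroup.relIndex_ker π (K := M)
    rw [QuotientGroup.ker_mk'] at h3
    exact h3.symm
  have hcomapA : A.comap π = M := by
    apply le_antisymm
    · rintro x ⟨y, hy, hyx⟩
      have h1 : y⁻¹ * x ∈ K := QuotientGroup.eq.mp hyx
      have h2 := M.mul_mem hy (hKM.le h1)
      simpa using h2
    · intro x hx
      exact ⟨x, hx, rfl⟩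
  have hA1 : A ≠ ⊥ := by
    intro h0
    apply not_le_of_gt hKM
    intro x hx
    have h2 : π x ∈ A := ⟨x, hx, rfl⟩
    rw [h0, Subgroup.mem_bot] at h2
    exact (QuotientGroup.eq_one_iff x).mp h2
  have hlt : (⁅A, A⁆ : Subgroup (G ⧸ K)) < A := Group.IsSolvable.commutator_lt_of_ne_bot hA1
  have hMcomm : ∀ a ∈ M, ∀ b ∈ M, a * b * a⁻¹ * b⁻¹ ∈ K := by
    let L : Subgroup G := (⁅A, A⁆ : Subgroup (G ⧸ K)).comap π
    have hLn : L.Normal := Subgroup.Normal.comap inferInstance _
    have hKL : K ≤ L := by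
      intro x hx
      show π x ∈ (⁅A, A⁆ : Subgroup (G ⧸ K))
      rw [show π x = 1 from (QuotientGroup.eq_one_iff x).2 hx]
      exact Subgroup.one_mem _
    have hLM : L ≤ M := by
      rw [← hcomapA]
      exact Subgroup.comap_mono hlt.le
    have hLne : L ≠ M := by
      intro h
      apply hlt.ne
      apply le_antisymm hlt.le
      rintro _ ⟨x, hx, rfl⟩
      rw [← h] at hx
      exact hx
    have hLK : L = K := (hchief L hLn hKL hLM).resolve_right hLne
    intro a ha b hb
    rw [← hLK]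
    show π (a * b * a⁻¹ * b⁻¹) ∈ (⁅A, A⁆ : Subgroup (G ⧸ K))
    have h2 := Subgroup.commutator_mem_commutator (H₁ := A) (H₂ := A) (g₁ := π a) (g₂ := π b)
      ⟨a, ha, rfl⟩ ⟨b, hb, rfl⟩
    rw [commutatorElement_def] at h2
    simpa only [map_mul, map_inv] using h2
  -- `G = HM`, `H ∩ M = K`
  have hMH : ¬ M ≤ H := fun h => not_le_of_gt hKM (Subgroup.normal_le_normalCore.2 h)
  have hsup : H ⊔ M = ⊤ := by
    apply hH.2
    refine lt_of_le_of_ne le_sup_left ?_
    intro h
    apply hMH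
    rw [h]
    exact le_sup_right
  have hdecomp : ∀ g : G, ∃ h ∈ H, ∃ m ∈ M, h * m = g := by
    intro g
    have h1 : g ∈ ((H ⊔ M : Subgroup G) : Set G) := by rw [hsup]; trivial
    rw [Subgroup.mul_normal] at h1
    obtain ⟨h, hh, m, hm, rfl⟩ := Set.mem_mul.1 h1
    exact ⟨h, hh, m, hm, rfl⟩
  have hinf : H ⊓ M = K := by
    apply le_antisymm _ (le_inf hKH hKM.le)
    have hn : (H ⊓ M).Normal := by
      refine ⟨fun y hy g => ?_⟩
      obtain ⟨h, hh, m, hm, rfl⟩ := hdecomp g
      have h1 : m * y * m⁻¹ = (m * y * m⁻¹ * y⁻¹) * y := by group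
      have h2 := hMcomm m hm y hy.2
      have h3 : m * y * m⁻¹ ∈ H ⊓ M := by
        rw [h1]
        exact (H ⊓ M).mul_mem (le_inf hKH hKM.le h2) hy
      have h4 : h * m * y * (h * m)⁻¹ = h * (m * y * m⁻¹) * h⁻¹ := by group
      rw [h4]
      exact ⟨H.mul_mem (H.mul_mem hh h3.1) (H.inv_mem hh), hMn.conj_mem _ h3.2 h⟩
    exact Subgroup.normal_le_normalCore.2 inf_le_left
  have hindex : H.index = r ^ k := by
    rw [index_eq_relIndex_inf hsup, hinf, hrk]
  have hk0 : k ≠ 0 := by
    rintro rfl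
    rw [pow_zero] at hrk
    have := (Subgroup.relIndex_eq_one).1 hrk
    exact not_le_of_gt hKM this
  by_cases hrpe : r = p
  · -- `q = |G : H|` is a power of `p`
    refine ⟨r ^ k, ⟨r, k, hrp.prime, Nat.pos_of_ne_zero hk0, rfl⟩, ?_, Or.inr (Or.inl ?_)⟩
    · rw [hdeg, hindex]
      exact Dvd.intro _ rfl
    · apply Int.modEq_zero_iff_dvd.2
      rw [hrpe]
      push_cast
      exact dvd_pow_self _ hk0
  -- `P` lies in a conjugate of `H`
  have hcoprp : (p : ℕ).Coprime r := (Nat.coprime_primes hpp hrp).2 (Ne.symm hrpe)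
  have hnd : ¬ p ∣ H.index := by
    rw [hindex]
    intro h
    have := hpp.dvd_of_dvd_pow h
    exact hrpe ((Nat.prime_dvd_prime_iff_eq hpp hrp).1 this).symm
  obtain ⟨P₁, hP₁H, hP₁n⟩ := exists_sylow_le H hnd P
  have hP₁ := hP₁n hP
  by_cases hP₁K : (P₁ : Subgroup G) ≤ K
  · -- the induction
    set E := kerOf ψ with hE
    haveI hEn : E.Normal := kerOf_normal (IsCharacter.isClassFunction hψc)
    have hker : Cfsg.Agent.Lib.Degree.KerContains E ψ := fun n hn => (mem_kerOf_iff hψc).1 hn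
    obtain ⟨ψb, hψb⟩ := Cfsg.Agent.Lib.Degree.exists_inflate (χ := ⟨ψ, hψ⟩) E hker
    haveI : Fintype (H ⧸ E) := Fintype.ofFinite _
    have hψbv : ∀ h : H, (ψb : H ⧸ E → ℂ) (h : H ⧸ E) = ψ h := fun h => congrFun (congrArg Subtype.val hψb) h
    have hψb1 : (ψb : H ⧸ E → ℂ) 1 = ψ 1 := by
      have := hψbv 1
      simpa using this
    have hψbdeg : charDegree (ψb : H ⧸ E → ℂ) = charDegree ψ := by
      unfold charDegree
      rw [hψb1]
    have hψbf : ∀ q : H ⧸ E, (ψb : H ⧸ E → ℂ) q = (ψb : H ⧸ E → ℂ) 1 → q = 1 := by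
      intro q hq
      obtain ⟨h, rfl⟩ := QuotientGroup.mk_surjective q
      rw [hψbv, hψb1] at hq
      exact (QuotientGroup.eq_one_iff h).2 ((mem_kerOf_iff hψc).2 hq)
    have hXcard : Nat.card (H ⧸ E) ≤ Nat.card H :=
      Nat.le_of_dvd Nat.card_pos (Subgroup.index_dvd_card E)
    have hHcard : Nat.card H < Nat.card G := by
      obtain ⟨x, hx⟩ := SetLike.exists_not_mem_of_ne_top H hH.1 rfl
      exact Finite.card_subtype_lt hx
    let P₂ : Sylow p H := P₁.subtype hP₁H
    let S₁ : Sylow p (H ⧸ E) := P₂.mapSurjective (QuotientGroup.mk'_surjective E)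
    by_cases hSn : (S₁ : Subgroup (H ⧸ E)).Normal
    · exfalso
      -- `p`-elements of `H` map into `S₁`
      have hpe : ∀ a : H, (∃ j, a ^ p ^ j = 1) → (a : H ⧸ E) ∈ (S₁ : Subgroup (H ⧸ E)) := by
        intro a ⟨j, hj⟩
        have h1 : IsPGroup p (Subgroup.zpowers (a : H ⧸ E)) := by
          have h2 : (a : H ⧸ E) ^ p ^ j = 1 := by
            rw [← QuotientGroup.mk_pow, hj]
            rfl
          obtain ⟨i, -, hi⟩ := (Nat.dvd_prime_pow hpp).1 (orderOf_dvd_of_pow_eq_one h2)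
          refine IsPGroup.of_card (n := i) ?_
          rw [Nat.card_zpowers, hi]
        have h3 : IsPGroup p ↥(Subgroup.zpowers (a : H ⧸ E) ⊔ (S₁ : Subgroup (H ⧸ E))) :=
          IsPGroup.to_sup_of_normal_right h1 S₁.isPGroup'
        have h4 := S₁.is_maximal' h3 le_sup_right
        rw [← h4]
        exact Subgroup.mem_sup_left (Subgroup.mem_zpowers _)
      set c := (Nat.card G).factorization p with hc
      have hpe2 : ∀ s ∈ (S₁ : Subgroup (H ⧸ E)), s ^ p ^ c = 1 := by
        intro s hs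
        obtain ⟨i, hi⟩ := (IsPGroup.iff_orderOf.1 S₁.isPGroup') ⟨s, hs⟩
        have h1 : orderOf s = p ^ i := by
          rw [← hi]
          exact (Subgroup.orderOf_mk s hs).symm
        have h2 : orderOf s ∣ Nat.card G := by
          refine (orderOf_dvd_natCard s).trans ?_
          exact (Subgroup.index_dvd_card E).trans (Subgroup.card_subgroup_dvd_card H)
        rw [h1] at h2
        have h3 : i ≤ c := (Nat.Prime.pow_dvd_iff_le_factorization hpp Nat.card_pos.ne').1 h2
        rw [← pow_mul_pow_sub p h3 , pow_mul, ← h1, pow_orderOf_eq_one, one_pow]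
      -- products of `p`-elements in `K` are `p`-elements
      have hprod : ∀ a ∈ K, ∀ b ∈ K, (∃ j, a ^ p ^ j = 1) → (∃ j, b ^ p ^ j = 1) →
          (a * b) ^ p ^ c = 1 := by
        intro a ha b hb haj hbj
        apply hfaith
        rw [← hind, indFun_apply, indFun_apply]
        congr 1
        refine Finset.sum_congr rfl fun x _ => ?_
        have hKx : ∀ y ∈ K, x⁻¹ * y * x ∈ K := by
          intro y hy
          have := hKn.conj_mem y hy x⁻¹
          simpa using this
        have hpw : ∀ y : G, (∃ j, y ^ p ^ j = 1) → ∃ j, (x⁻¹ * y * x) ^ p ^ j = 1 := by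
          rintro y ⟨j, hj⟩
          refine ⟨j, ?_⟩
          have := conj_pow (a := x⁻¹) (b := y) (i := p ^ j)
          rw [inv_inv] at this
          rw [this, hj]
          simp
        let A' : H := ⟨x⁻¹ * a * x, hKH (hKx a ha)⟩
        let B' : H := ⟨x⁻¹ * b * x, hKH (hKx b hb)⟩
        have hA' : (A' : H ⧸ E) ∈ (S₁ : Subgroup (H ⧸ E)) := by
          apply hpe
          obtain ⟨j, hj⟩ := hpw a haj
          exact ⟨j, Subtype.ext (by simpa [A'] using hj)⟩
        have hB' : (B' : H ⧸ E) ∈ (S₁ : Subgroup (H ⧸ E)) := by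
          apply hpe
          obtain ⟨j, hj⟩ := hpw b hbj
          exact ⟨j, Subtype.ext (by simpa [B'] using hj)⟩
        have hAB : ((A' * B' : H) : H ⧸ E) ∈ (S₁ : Subgroup (H ⧸ E)) := by
          rw [QuotientGroup.mk_mul]
          exact Subgroup.mul_mem _ hA' hB'
        have hE1 := hpe2 _ hAB
        rw [← QuotientGroup.mk_pow] at hE1
        have hE2 : (A' * B') ^ p ^ c ∈ E := (QuotientGroup.eq_one_iff _).1 hE1
        have hE3 := (mem_kerOf_iff hψc).1 hE2
        have hz : x⁻¹ * (a * b) ^ p ^ c * x = (((A' * B') ^ p ^ c : H) : G) := by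
          have h1 := conj_pow (a := x⁻¹) (b := a * b) (i := p ^ c)
          rw [inv_inv] at h1
          rw [← h1]
          simp only [A', B', Subgroup.coe_pow, Subgroup.coe_mul]
          congr 1
          group
        rw [hz, extendByZero_coe, hE3]
        have h1 : x⁻¹ * 1 * x = ((1 : H) : G) := by simp
        rw [h1, extendByZero_coe]
      -- the `p`-elements of `K` form a subgroup
      let T : Subgroup G :=
        { carrier := {a | a ∈ K ∧ ∃ j, a ^ p ^ j = 1}
          mul_mem' := fun {a b} ha hb => ⟨K.mul_mem ha.1 hb.1, c, hprod a ha.1 b hb.1 ha.2 hb.2⟩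
          one_mem' := ⟨K.one_mem, 0, by simp⟩
          inv_mem' := fun {a} ha => ⟨K.inv_mem ha.1, by
            obtain ⟨j, hj⟩ := ha.2
            exact ⟨j, by rw [inv_pow, hj, inv_one]⟩⟩ }
      have hTp : IsPGroup p T := by
        intro y
        obtain ⟨j, hj⟩ := y.2.2
        exact ⟨j, Subtype.ext (by simpa using hj)⟩
      have hpel : ∀ y ∈ (P₁ : Subgroup G), ∃ j, y ^ p ^ j = 1 := by
        intro y hy
        obtain ⟨j, hj⟩ := P₁.isPGroup' ⟨y, hy⟩
        exact ⟨j, by simpa using congrArg Subtype.val hj⟩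
      have hP₁T : (P₁ : Subgroup G) ≤ T := fun y hy => ⟨hP₁K hy, hpel y hy⟩
      have hTeq := P₁.is_maximal' hTp hP₁T
      apply hP₁
      refine ⟨fun y hy g => ?_⟩
      have h1 : g * y * g⁻¹ ∈ T := by
        refine ⟨hKn.conj_mem y (hP₁K hy) g, ?_⟩
        obtain ⟨j, hj⟩ := hpel y hy
        refine ⟨j, ?_⟩
        rw [conj_pow, hj]
        simp
      rw [hTeq] at h1
      exact h1
    · have := IH (H ⧸ E) (lt_of_le_of_lt hXcard hHcard) inferInstance _ ψb.2 hψbf S₁ hSn
      rw [hψbdeg] at this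
      refine this.of_dvd ?_
      rw [hdeg]
      exact Dvd.intro_left _ rfl
  · -- a `p`-element acting nontrivially on the chief factor
    obtain ⟨x, hxP, hxK⟩ := SetLike.not_le_iff_exists.1 hP₁K
    obtain ⟨j, hj⟩ := P₁.isPGroup' ⟨x, hxP⟩
    have hxj : x ^ p ^ j = 1 := by simpa using congrArg Subtype.val hj
    have hxb : π x ^ p ^ j = 1 := by rw [← map_pow, hxj, map_one]
    have hzp : IsPGroup p (Subgroup.zpowers (π x)) := by
      obtain ⟨i, -, hi⟩ := (Nat.dvd_prime_pow hpp).1 (orderOf_dvd_of_pow_eq_one hxb)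
      refine IsPGroup.of_card (n := i) ?_
      rw [Nat.card_zpowers, hi]
    have hmod := card_modEq_centralizer A (π x) hzp (Subgroup.mem_normalizer_iff.2 fun n =>
      ⟨fun hn => hAn.conj_mem n hn (π x), fun hn => by
        have := hAn.conj_mem _ hn (π x)⁻¹
        simpa [mul_assoc] using this⟩)
    set C := A ⊓ Subgroup.centralizer ({π x} : Set (G ⧸ K)) with hC
    have hCA : C ≠ A := by
      intro hCeq
      let T : Subgroup G := (Subgroup.centralizer (A : Set (G ⧸ K))).comap π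
      have hTn : T.Normal := Subgroup.Normal.comap inferInstance _
      have hL : (H ⊓ T).Normal := by
        refine ⟨fun y hy g => ?_⟩
        obtain ⟨h, hh, m, hm, rfl⟩ := hdecomp g
        have hcom : π m * π y = π y * π m := by
          have h1 : π y ∈ Subgroup.centralizer (A : Set (G ⧸ K)) := hy.2
          exact (Subgroup.mem_centralizer_iff.1 h1) (π m) ⟨m, hm, rfl⟩
        have hk : m * y * m⁻¹ * y⁻¹ ∈ K := by
          apply (QuotientGroup.eq_one_iff _).1
          show π (m * y * m⁻¹ * y⁻¹) = 1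
          simp only [map_mul, map_inv]
          rw [hcom]
          group
        have h1 : m * y * m⁻¹ = (m * y * m⁻¹ * y⁻¹) * y := by group
        have h3 : m * y * m⁻¹ ∈ H := by
          rw [h1]
          exact H.mul_mem (hKH hk) hy.1
        have h4 : h * m * y * (h * m)⁻¹ = h * (m * y * m⁻¹) * h⁻¹ := by group
        rw [h4]
        refine ⟨H.mul_mem (H.mul_mem hh h3) (H.inv_mem hh), hTn.conj_mem _ ?_ h⟩
        exact hTn.conj_mem y hy.2 m
      have hLK : H ⊓ T ≤ K := Subgroup.normal_le_normalCore.2 inf_le_left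
      apply hxK
      apply hLK
      refine ⟨hP₁H hxP, ?_⟩
      show π x ∈ Subgroup.centralizer (A : Set (G ⧸ K))
      refine Subgroup.mem_centralizer_iff.2 fun a ha => ?_
      have h1 : a ∈ C := by rw [hCeq]; exact ha
      have h2 : a ∈ Subgroup.centralizer ({π x} : Set (G ⧸ K)) := h1.2
      rw [Subgroup.mem_centralizer_singleton_iff] at h2
      exact h2
    have hCle : C ≤ A := inf_le_left
    have hCdvd : Nat.card C ∣ r ^ k := by
      rw [← hAcard]
      exact Subgroup.card_dvd_of_le hCle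
    obtain ⟨l, hl, hCcard⟩ := (Nat.dvd_prime_pow hrp).1 hCdvd
    have hlk : l ≠ k := by
      rintro rfl
      apply hCA
      refine Subgroup.eq_of_le_of_card_ge hCle ?_
      rw [hAcard, hCcard]
    have hlk' : l < k := lt_of_le_of_ne hl hlk
    obtain ⟨i, rfl⟩ : ∃ i, k = l + i := ⟨k - l, by omega⟩
    have hi : i ≠ 0 := by omega
    refine ⟨r ^ i, ⟨r, i, hrp.prime, Nat.pos_of_ne_zero hi, rfl⟩, ?_, Or.inr (Or.inr ?_)⟩
    · rw [hdeg, hindex, pow_add]
      exact Dvd.dvd.mul_right (Dvd.intro_left _ rfl) _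
    · rw [hAcard, hCcard] at hmod
      have h2 := Nat.modEq_iff_dvd.1 hmod.symm
      have h3 : ((r ^ (l + i) : ℕ) : ℤ) - ((r ^ l : ℕ) : ℤ) = (r : ℤ) ^ l * (((r ^ i : ℕ) : ℤ) - 1) := by
        push_cast
        ring
      rw [h3] at h2
      have hcopr : IsCoprime ((p : ℤ)) ((r : ℤ) ^ l) := by
        apply IsCoprime.pow_right
        exact Nat.isCoprime_iff_coprime.2 hcoprp
      have h4 := hcopr.dvd_of_dvd_mul_left h2
      apply Int.ModEq.symm
      exact Int.modEq_iff_dvd.2 h4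

end Step

section Main

variable {p : ℕ} [hp : Fact p.Prime]

/-- **The theorem.** -/
theorem main : ∀ (N : ℕ) (G : Type u) [Group G] [Fintype G], Nat.card G = N → Group.IsSolvable G →
    ∀ χ : G → ℂ, IsIrrCharacter G χ → (∀ g, χ g = χ 1 → g = 1) → ∀ S : Sylow p G,
      ¬ (S : Subgroup G).Normal → QC p (charDegree χ) := by
  intro N
  induction N using Nat.strong_induction_on with
  | _ N ih =>
    intro G _ _ hN hsol χ hχ hfaith S hS
    have hpp := hp.out
    by_cases himp : ∃ T : Subgroup G, T ≠ ⊤ ∧ ∃ ψ : T → ℂ, IsIrrCharacter T ψ ∧ indFun T ψ = χ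
    · obtain ⟨T, hT, ψ₀, hψ₀, hind⟩ := himp
      obtain ⟨U, hU, ψ, hψ, hindU⟩ := exists_coatom_ind hχ hT hψ₀ hind
      refine imprimitive_step hχ hfaith U hU hψ hindU S hS ?_
      intro X _ _ hX hsX τ hτ hτf Y hY
      exact ih _ (hN ▸ hX) X rfl hsX τ hτ hτf Y hY
    · by_cases hpn : p ∣ charDegree χ
      · refine ⟨p, hpp.isPrimePow, hpn, Or.inr (Or.inl ?_)⟩
        exact Int.modEq_zero_iff_dvd.2 (dvd_refl _)
      · obtain ⟨m, ρ, hρ, rfl⟩ := hχ
        refine primitive_case ρ hρ hfaith ?_ hpn S hS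
        intro T hT ψ hψ h
        exact himp ⟨T, hT, ψ, hψ, h⟩

end Main

end Cfsg.Agent.Lib.CharExtra.QPow
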