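import Mathlib
import Cfsg.Agent.Lib.CharExtra.PGroupField
import Cfsg.Agent.Lib.Char.Ops

/-!
# Minkowski's bound for `p`-rational characters
-/

set_option autoImplicit false
set_option linter.unusedSectionVars false
set_option linter.unusedSimpArgs false
set_option linter.unusedVariables false
set_option linter.style.haveILetI false
set_option linter.unnecessarySimpa false

open scoped ComplexConjugate
open Module

namespace Cfsg.Agent.Lib.CharExtra

open Cfsg (classInner IsCharacter IsIrrCharacter IrrCharacter IsClassFunction charDegree indFun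
  extendByZero)
open Cfsg.Agent.Lib.Char
open Cfsg.Agent.Lib.Degree (kerOf mem_kerOf_iff kerOf_normal galois_isIrr classInner_galois)

universe u

/-- The Minkowski function. -/
def minkF (p n : ℕ) : ℕ := ∑ i ∈ Finset.range (n + 1), n / ((p - 1) * p ^ i)

theorem minkF_eq {p n N : ℕ} (hp : p.Prime) (h : n + 1 ≤ N) :
    minkF p n = ∑ i ∈ Finset.range N, n / ((p - 1) * p ^ i) := by
  unfold minkF
  refine Finset.sum_subset (Finset.range_subset_range.2 h) (fun i _ hi => ?_)
  apply Nat.div_eq_of_lt
  have h1 : n + 1 ≤ i := by simpa using hi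
  have h2 : i < p ^ i := Nat.lt_pow_self hp.one_lt
  have h3 : 1 ≤ p - 1 := by have := hp.two_le; omega
  nlinarith

theorem minkF_add {p : ℕ} (hp : p.Prime) (a b : ℕ) : minkF p a + minkF p b ≤ minkF p (a + b) := by
  rw [minkF_eq hp (show a + 1 ≤ a + b + 1 by omega), minkF_eq hp (show b + 1 ≤ a + b + 1 by omega),
    minkF_eq hp (le_refl (a + b + 1)), ← Finset.sum_add_distrib]
  exact Finset.sum_le_sum fun i _ => Nat.add_div_le_add_div _ _ _

theorem geom_aux {p : ℕ} (hp : p.Prime) (e : ℕ) :
    (p - 1) * ∑ k ∈ Finset.range e, p ^ k + 1 = p ^ e := by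
  obtain ⟨q, rfl⟩ : ∃ q, p = q + 1 := ⟨p - 1, by have := hp.two_le; omega⟩
  simp only [Nat.add_sub_cancel]
  induction e with
  | zero => simp
  | succ e ih =>
    rw [Finset.sum_range_succ, mul_add, pow_succ (q + 1)]
    nlinarith

theorem minkF_ge {p : ℕ} (hp : p.Prime) (t e : ℕ) :
    (p ^ e - 1) + (p - 1) * (t + 1) * p ^ e ≤ (p - 1) * minkF p ((p - 1) * p ^ t * p ^ e) := by
  have hq : 1 ≤ p - 1 := by have := hp.two_le; omega
  set D := (p - 1) * p ^ t * p ^ e with hD
  have hle : t + 1 + e ≤ D + 1 := by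
    have h1 : t + e < p ^ (t + e) := Nat.lt_pow_self hp.one_lt
    have h2 : D = (p - 1) * p ^ (t + e) := by
      rw [hD, pow_add]
      ring
    rw [h2]
    nlinarith
  have hsub : ∑ i ∈ Finset.range (t + 1 + e), D / ((p - 1) * p ^ i) ≤ minkF p D := by
    unfold minkF
    exact Finset.sum_le_sum_of_subset (Finset.range_subset_range.2 hle)
  have hsplit : ∑ i ∈ Finset.range (t + 1 + e), D / ((p - 1) * p ^ i) =
      ∑ i ∈ Finset.range (t + 1), D / ((p - 1) * p ^ i) +
        ∑ j ∈ Finset.range e, D / ((p - 1) * p ^ (t + 1 + j)) := Finset.sum_range_add _ _ _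
  have hA : (t + 1) * p ^ e ≤ ∑ i ∈ Finset.range (t + 1), D / ((p - 1) * p ^ i) := by
    have : ∀ i ∈ Finset.range (t + 1), p ^ e ≤ D / ((p - 1) * p ^ i) := by
      intro i hi
      have hi' : i ≤ t := by simpa [Nat.lt_succ_iff] using hi
      have h1 : D = ((p - 1) * p ^ i) * (p ^ (t - i) * p ^ e) := by
        rw [hD]
        have : p ^ t = p ^ i * p ^ (t - i) := by
          rw [← pow_add]
          congr 1
          omega
        rw [this]
        ring
      rw [h1, Nat.mul_div_cancel_left _ (by positivity [hp.pos])]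
      exact Nat.le_mul_of_pos_left _ (pow_pos hp.pos _)
    calc (t + 1) * p ^ e = ∑ _i ∈ Finset.range (t + 1), p ^ e := by simp
      _ ≤ _ := Finset.sum_le_sum this
  have hB : ∑ k ∈ Finset.range e, p ^ k ≤ ∑ j ∈ Finset.range e, D / ((p - 1) * p ^ (t + 1 + j)) := by
    rw [← Finset.sum_range_reflect]
    refine Finset.sum_le_sum fun j hj => ?_
    have hj' : j < e := by simpa using hj
    have h1 : D = ((p - 1) * p ^ (t + 1 + j)) * p ^ (e - 1 - j) := by
      rw [hD]
      have : p ^ (t + 1 + j) * p ^ (e - 1 - j) = p ^ t * p ^ e := by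
        rw [← pow_add, ← pow_add]
        congr 1
        omega
      rw [mul_assoc (p - 1) (p ^ (t + 1 + j)), this]
      ring
    rw [h1, Nat.mul_div_cancel_left _ (by positivity [hp.pos])]
  have hgeom := geom_aux hp e
  have hgeom' : p ^ e - 1 = (p - 1) * ∑ k ∈ Finset.range e, p ^ k := by omega
  rw [hgeom']
  calc (p - 1) * ∑ k ∈ Finset.range e, p ^ k + (p - 1) * (t + 1) * p ^ e
      = (p - 1) * ((t + 1) * p ^ e + ∑ k ∈ Finset.range e, p ^ k) := by ring
    _ ≤ (p - 1) * minkF p D := by
        apply Nat.mul_le_mul_left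
        calc (t + 1) * p ^ e + ∑ k ∈ Finset.range e, p ^ k
            ≤ ∑ i ∈ Finset.range (t + 1), D / ((p - 1) * p ^ i) +
                ∑ j ∈ Finset.range e, D / ((p - 1) * p ^ (t + 1 + j)) := Nat.add_le_add hA hB
          _ = _ := hsplit.symm
          _ ≤ _ := hsub

section Sub

variable {G : Type u} [Group G] [Fintype G]

theorem isCharacter_zero_fun : IsCharacter G (0 : G → ℂ) := by
  refine ⟨0, 1, ?_⟩
  funext g
  simp [Representation.character]

theorem isCharacter_sum_finset (O : Finset (G → ℂ)) (hO : ∀ τ ∈ O, IsCharacter G τ) :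
    IsCharacter G (∑ τ ∈ O, τ) := by
  classical
  induction O using Finset.induction_on with
  | empty => simpa using isCharacter_zero_fun
  | insert a s ha ih =>
    rw [Finset.sum_insert ha]
    exact IsCharacter.add (hO a (Finset.mem_insert_self _ _))
      (ih fun τ hτ => hO τ (Finset.mem_insert_of_mem hτ))

theorem isCharacter_sub_sum {ξ : G → ℂ} (hξ : IsCharacter G ξ) (O : Finset (G → ℂ))
    (hO : ∀ τ ∈ O, IsIrrCharacter G τ) (hc : ∀ τ ∈ O, classInner ξ τ ≠ 0) :
    IsCharacter G (ξ - ∑ τ ∈ O, τ) := by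
  classical
  induction O using Finset.induction_on with
  | empty => simpa using hξ
  | insert a s ha ih =>
    have hs := ih (fun τ hτ => hO τ (Finset.mem_insert_of_mem hτ))
      (fun τ hτ => hc τ (Finset.mem_insert_of_mem hτ))
    rw [Finset.sum_insert ha]
    have h1 : ξ - (a + ∑ τ ∈ s, τ) = (ξ - ∑ τ ∈ s, τ) - a := by abel
    rw [h1]
    refine isCharacter_sub_of_constituent hs (hO a (Finset.mem_insert_self _ _)) ?_
    rw [classInner_sub_left, classInner_sum_left]
    have h2 : ∑ τ ∈ s, classInner τ a = 0 := by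
      refine Finset.sum_eq_zero fun τ hτ => ?_
      refine classInner_irr_of_ne (hO τ (Finset.mem_insert_of_mem hτ))
        (hO a (Finset.mem_insert_self _ _)) ?_
      rintro rfl
      exact ha hτ
    rw [h2, sub_zero]
    exact hc a (Finset.mem_insert_self _ _)

end Sub

section Rat

variable {P : Type u} [Group P] [Fintype P] {p : ℕ} [hp : Fact p.Prime]

/-- **Minkowski's bound for `p`-groups with a character fixed by the Galois group.** -/
theorem rat_bound (hP : IsPGroup p P) : ∀ (m : ℕ) (ξ : P → ℂ), IsCharacter P ξ → charDegree ξ = m →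
    (∀ u : ℕ, u.Coprime (Nat.card P) → ∀ g, ξ (g ^ u) = ξ g) →
    ∀ v : ℕ, (kerOf ξ).index = p ^ v → v ≤ minkF p m := by
  classical
  have hpp := hp.out
  intro m
  induction m using Nat.strong_induction_on with
  | _ m ih =>
    intro ξ hξ hdeg hrat v hv
    by_cases h : ∃ τ : P → ℂ, IsIrrCharacter P τ ∧ τ ≠ (fun _ => 1) ∧ classInner ξ τ ≠ 0
    · obtain ⟨τ, hτ, hne, hc⟩ := h
      haveI : NeZero (Nat.card P) := ⟨Nat.card_pos.ne'⟩
      have hg : ∀ g : P, g ^ Nat.card P = 1 := fun g => pow_card_eq_one'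
      set n := Nat.card P with hn
      have hτc := IsIrrCharacter.isCharacter hτ
      have h1 := finrank_fld_eq_ncard n hτc hg
      have hpos := finrank_fld_pos n hτc hg
      have hfin : (galOrbit n τ).Finite := Set.finite_of_ncard_pos (by omega)
      set O := hfin.toFinset with hO
      have hOc : finrank ℚ (fld τ) = O.card := by
        rw [h1, Set.ncard_eq_toFinset_card _ hfin]
      have hOmem : ∀ τ' ∈ O, ∃ u, u.Coprime n ∧ τ' = fun g => τ (g ^ u) := by
        intro τ' hτ'
        rw [hO, Set.Finite.mem_toFinset] at hτ'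
        exact hτ'
      have hOirr : ∀ τ' ∈ O, IsIrrCharacter P τ' := by
        intro τ' hτ'
        obtain ⟨u, hu, rfl⟩ := hOmem τ' hτ'
        exact galois_isIrr hτ hu
      have hOc2 : ∀ τ' ∈ O, classInner ξ τ' ≠ 0 := by
        intro τ' hτ'
        obtain ⟨u, hu, rfl⟩ := hOmem τ' hτ'
        have h2 := classInner_galois ξ τ hu
        have h3 : (fun g => ξ (g ^ u)) = ξ := funext (hrat u hu)
        rw [h3] at h2
        rw [h2]
        exact hc
      have hsub := isCharacter_sub_sum hξ O hOirr hOc2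
      set S := ∑ τ' ∈ O, τ' with hS
      have hSc : IsCharacter P S :=
        isCharacter_sum_finset O fun τ' hτ' => IsIrrCharacter.isCharacter (hOirr τ' hτ')
      set ξ₁ := ξ - S with hξ₁
      have hadd : ξ₁ + S = ξ := by rw [hξ₁]; abel
      have hdeg2 := charDegree_add hsub hSc
      rw [hadd, hdeg] at hdeg2
      -- the degree of `S`
      have hS1 : ∀ g, S g = ∑ τ' ∈ O, τ' g := fun g => by
        rw [hS, Finset.sum_apply]
      obtain ⟨t, ht⟩ := finrank_fld_form hP hτ hne
      obtain ⟨e, -, he⟩ := (Nat.dvd_prime_pow hpp).1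
        (show charDegree τ ∣ p ^ (IsPGroup.iff_card.1 hP).choose by
          rw [← (IsPGroup.iff_card.1 hP).choose_spec]
          exact charDegree_dvd_card hτ)
      have hSdeg : charDegree S = (p - 1) * p ^ t * p ^ e := by
        apply charDegree_natCast
        rw [hS1]
        have h2 : ∀ τ' ∈ O, τ' 1 = τ 1 := by
          intro τ' hτ'
          obtain ⟨u, hu, rfl⟩ := hOmem τ' hτ'
          simp
        rw [Finset.sum_congr rfl h2, Finset.sum_const, nsmul_eq_mul, map_one_eq_charDegree hτc, he,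
          ← hOc, ht]
        push_cast
        ring
      have hSpos : 0 < charDegree S := by
        rw [hSdeg]
        have : 1 ≤ p - 1 := by have := hpp.two_le; omega
        positivity [hpp.pos]
      -- rationality of `ξ₁`
      have hrat1 : ∀ u : ℕ, u.Coprime n → ∀ g, ξ₁ (g ^ u) = ξ₁ g := by
        intro u hu g
        have hSu : S (g ^ u) = S g := by
          rw [hS1, hS1]
          -- the power map permutes `O`
          let pw : (P → ℂ) → (P → ℂ) := fun f g => f (g ^ u)
          have hinj : Set.InjOn pw O := by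
            intro f _ f' _ hff
            funext x
            have hcop : (Nat.card P).Coprime u := hu.symm
            have h3 := congrFun hff ((powCoprime hcop).symm x)
            have h4 : ((powCoprime hcop).symm x) ^ u = x := (powCoprime hcop).apply_symm_apply x
            simp only [pw, h4] at h3
            exact h3
          have hmaps : O.image pw ⊆ O := by
            intro f hf
            obtain ⟨τ', hτ', rfl⟩ := Finset.mem_image.1 hf
            obtain ⟨w, hw, rfl⟩ := hOmem τ' hτ'
            rw [hO, Set.Finite.mem_toFinset]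
            refine ⟨w * u, Nat.Coprime.mul_left hw hu, ?_⟩
            funext x
            simp only [pw]
            rw [mul_comm, pow_mul]
          have himg : O.image pw = O :=
            Finset.eq_of_subset_of_card_le hmaps (by rw [Finset.card_image_of_injOn hinj])
          conv_rhs => rw [← himg]
          rw [Finset.sum_image hinj]
        simp only [hξ₁, Pi.sub_apply, hrat u hu g, hSu]
      -- the kernels
      obtain ⟨k, hk⟩ := IsPGroup.iff_card.1 hP
      have hpw : ∀ H : Subgroup P, ∃ a, H.index = p ^ a := by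
        intro H
        have h2 : H.index ∣ p ^ k := by
          rw [← hk]
          exact Subgroup.index_dvd_card _
        obtain ⟨a, -, h3⟩ := (Nat.dvd_prime_pow hpp).1 h2
        exact ⟨a, h3⟩
      obtain ⟨a, ha⟩ := hpw (kerOf τ)
      obtain ⟨v₁, hv₁⟩ := hpw (kerOf ξ₁)
      have hle : kerOf τ ⊓ kerOf ξ₁ ≤ kerOf ξ := by
        rintro g ⟨hg1, hg2⟩
        rw [mem_kerOf_iff hξ, ← hadd]
        simp only [Pi.add_apply]
        rw [(mem_kerOf_iff hsub).1 hg2, hS1, hS1]
        congr 1
        refine Finset.sum_congr rfl fun τ' hτ' => ?_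
        obtain ⟨u, hu, rfl⟩ := hOmem τ' hτ'
        simp only [one_pow]
        exact (mem_kerOf_iff hτc).1 ((kerOf τ).pow_mem hg1 u)
      have hind : (kerOf ξ).index ≤ (kerOf τ).index * (kerOf ξ₁).index :=
        (Subgroup.index_antitone hle).trans Subgroup.index_inf_le
      rw [hv, ha, hv₁, ← pow_add] at hind
      have hva := (Nat.pow_le_pow_iff_right hpp.one_lt).1 hind
      -- apply the bounds
      have hv1b := ih (charDegree ξ₁) (by omega) ξ₁ hsub rfl hrat1 v₁ hv₁
      have hm := main_bound _ P rfl hP τ hτ hne t a ht ha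
      have hge := minkF_ge hpp t e
      rw [he] at hm
      have hab : a ≤ minkF p ((p - 1) * p ^ t * p ^ e) := by
        have hq : 0 < p - 1 := by have := hpp.two_le; omega
        exact Nat.le_of_mul_le_mul_left (hm.trans hge) hq
      rw [hSdeg] at hdeg2
      have hsup := minkF_add hpp (charDegree ξ₁) ((p - 1) * p ^ t * p ^ e)
      rw [← hdeg2] at hsup
      omega
    · push Not at h
      have hc : ξ - (classInner ξ (fun _ => 1)) • (fun _ => (1 : ℂ)) = 0 := by
        apply classFunction_eq_zero_of_orthogonal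
        · intro g x
          simp only [Pi.sub_apply, Pi.smul_apply, (IsCharacter.isClassFunction hξ) g x]
        · intro τ hτ
          rw [classInner_sub_left, classInner_smul_left]
          by_cases hτ1 : τ = fun _ => 1
          · subst hτ1
            rw [classInner_irr_self isIrrCharacter_one]
            ring
          · rw [h τ hτ hτ1, classInner_irr_of_ne isIrrCharacter_one hτ (Ne.symm hτ1)]
            ring
      have htop : kerOf ξ = ⊤ := by
        rw [eq_top_iff]
        intro g _ x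
        have h1 := fun y => congrFun hc y
        simp only [Pi.sub_apply, Pi.smul_apply, Pi.zero_apply, smul_eq_mul, mul_one,
          sub_eq_zero] at h1
        rw [h1, h1 x]
      rw [htop, Subgroup.index_top] at hv
      have hv0 : v = 0 := by
        by_contra h0
        have : 1 < p ^ v := Nat.one_lt_pow h0 hpp.one_lt
        omega
      omega

end Rat

section Cyc

variable (N : ℕ) [NeZero N] {K : Type} [Field K] [Algebra ℚ K] [IsCyclotomicExtension {N} ℚ K]

theorem fix_of_adjoin (ι : K →ₐ[ℚ] ℂ) (σ : Gal(K/ℚ)) {ζ : ℂ} {r : ℕ} (hrN : r ∣ N) (hr : 0 < r) (hζ : ζ ^ r = 1) (u' : ℕ)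
    (hσ : ∀ x : K, x ^ N = 1 → σ x = x ^ u') (hu' : u' % r = 1 % r) {z : ℂ}
    (hz : z ∈ IntermediateField.adjoin ℚ ({ζ} : Set ℂ)) : ∃ β : K, ι β = z ∧ σ β = β := by
  induction hz using IntermediateField.adjoin_induction with
  | mem x hx =>
    rw [Set.mem_singleton_iff] at hx
    subst hx
    have h1 : x ^ N = 1 := by
      obtain ⟨c, hc⟩ := hrN
      rw [hc, pow_mul, hζ, one_pow]
    obtain ⟨y, hy, hyx⟩ := exists_root_preimage N ι h1
    refine ⟨y, hyx, ?_⟩
    rw [hσ y hy]
    have hyr : y ^ r = 1 := by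
      apply ι.toRingHom.injective
      change ι (y ^ r) = ι 1
      rw [map_pow, hyx, hζ, map_one]
    rw [← Nat.div_add_mod u' r, pow_add, pow_mul, hyr, one_pow, one_mul, hu']
    by_cases h1r : r = 1
    · subst h1r
      simpa using hyr.symm
    · rw [Nat.mod_eq_of_lt (by omega), pow_one]
  | algebraMap x =>
    refine ⟨algebraMap ℚ K x, ι.commutes x, ?_⟩
    exact AlgEquiv.commutes σ x
  | add x y _ _ hx hy =>
    obtain ⟨a, ha, ha'⟩ := hx
    obtain ⟨b, hb, hb'⟩ := hy
    exact ⟨a + b, by rw [map_add, ha, hb], by rw [map_add, ha', hb']⟩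
  | inv x _ hx =>
    obtain ⟨a, ha, ha'⟩ := hx
    exact ⟨a⁻¹, by rw [map_inv₀, ha], by rw [map_inv₀, ha']⟩
  | mul x y _ _ hx hy =>
    obtain ⟨a, ha, ha'⟩ := hx
    obtain ⟨b, hb, hb'⟩ := hy
    exact ⟨a * b, by rw [map_mul, ha, hb], by rw [map_mul, ha', hb']⟩

theorem char_pow_eq_of_adjoin_aux (ι : K →ₐ[ℚ] ℂ) {G : Type u} [Group G] {χ : G → ℂ} (hχ : IsCharacter G χ)
    {ζ : ℂ} {r : ℕ} (hrN : r ∣ N) (hr : 0 < r) (hζ : ζ ^ r = 1) (g : G) (hg : g ^ N = 1)
    (hmem : χ g ∈ IntermediateField.adjoin ℚ ({ζ} : Set ℂ)) (u' : ℕ) (hcop : u'.Coprime N)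
    (hu' : u' % r = 1 % r) : χ (g ^ u') = χ g := by
  obtain ⟨m, ρ, rfl⟩ := hχ
  obtain ⟨σ, hσ⟩ := exists_aut_pow N K u' hcop
  obtain ⟨α, hα, hgal⟩ := char_preimage N ι ρ g hg
  obtain ⟨β, hβ, hfix⟩ := fix_of_adjoin N ι σ hrN hr hζ u' hσ hu' hmem
  have h1 : α = β := ι.toRingHom.injective (hα.trans hβ.symm)
  rw [← hgal σ u' hσ, h1, hfix, hβ]

end Cyc

/-- A `p`-rational character is fixed by the coprime powers of a `p`-element. -/
theorem char_pow_eq_of_adjoin {G : Type u} [Group G] {χ : G → ℂ} (hχ : IsCharacter G χ) {p : ℕ}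
    (hp : p.Prime) {r : ℕ} (hr : 0 < r) (hpr : ¬ p ∣ r)
    (hrat : ∀ g : G, χ g ∈ IntermediateField.adjoin ℚ
      ({Complex.exp (2 * Real.pi * Complex.I / r)} : Set ℂ))
    (g : G) (b : ℕ) (hg : g ^ p ^ b = 1) (u : ℕ) (hu : u.Coprime (p ^ b)) : χ (g ^ u) = χ g := by
  classical
  have hcop : r.Coprime (p ^ b) := Nat.Coprime.pow_right b ((Nat.Prime.coprime_iff_not_dvd hp).2 hpr).symm
  -- a common lift
  obtain ⟨u', hu1, hu2⟩ : ∃ u' : ℕ, u' % r = 1 % r ∧ u' % p ^ b = u % p ^ b := by
    let c := Nat.chineseRemainder hcop 1 u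
    exact ⟨c, c.2.1, c.2.2⟩
  have hu1' : u'.Coprime r := by
    have h1 : u' ≡ 1 [MOD r] := hu1
    rw [Nat.Coprime, h1.gcd_eq]
    exact Nat.gcd_one_left r
  have hu2' : u'.Coprime (p ^ b) := by
    have h1 : u' ≡ u [MOD p ^ b] := hu2
    rw [Nat.Coprime, h1.gcd_eq]
    exact hu
  set N := r * p ^ b with hN
  haveI : NeZero N := ⟨by
    have := pow_pos hp.pos b
    positivity⟩
  have hgN : g ^ N = 1 := by
    rw [hN, mul_comm, pow_mul, hg, one_pow]
  have hcopN : u'.Coprime N := Nat.Coprime.mul_right hu1' hu2'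
  have hζ : Complex.exp (2 * Real.pi * Complex.I / r) ^ r = 1 := by
    have := (Complex.isPrimitiveRoot_exp r hr.ne').pow_eq_one
    exact this
  letI : Algebra ℚ (CyclotomicField N ℚ) := CyclotomicField.algebra N ℚ
  let ι : CyclotomicField N ℚ →ₐ[ℚ] ℂ := IsAlgClosed.lift
  have h := char_pow_eq_of_adjoin_aux N ι hχ (Dvd.intro _ rfl) hr hζ g hgN (hrat g) u' hcopN hu1
  rw [← h]
  congr 1
  have hm : u' ≡ u [MOD p ^ b] := hu2
  rw [← Nat.div_add_mod u' (p ^ b), ← Nat.div_add_mod u (p ^ b), pow_add, pow_add, pow_mul, pow_mul, hg,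
    one_pow, one_pow, one_mul, one_mul, hu2]

end Cfsg.Agent.Lib.CharExtra
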