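import Cfsg.Agent.Lib.Char.DetExt
import Cfsg.Agent.Lib.Char.Iso
import Cfsg.Agent.Lib.Char.Complete
import Cfsg.Agent.Lib.Char.Constituent
import Cfsg.Agent.Lib.Char.Ops
import Cfsg.Agent.Lib.Char.Burnside

/-!
# Groups with a self-centralizing subgroup of prime order and an irreducible character of degree
`p - 1`.
-/

set_option autoImplicit false
set_option linter.unusedSectionVars false
set_option linter.unusedSimpArgs false
set_option linter.unusedVariables false

open scoped ComplexConjugate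
open Cfsg Module
open Cfsg.Agent.Lib.Char

namespace Cfsg.Agent.Lib.CharExtra

section Reg

variable {C : Type*} [Group C] [Fintype C] [DecidableEq C] (k : ℕ)

/-- Left multiplication on `C × Fin k`. -/
def regPerm (c : C) : Equiv.Perm (C × Fin k) := Equiv.prodCongrLeft (fun _ => Equiv.mulLeft c)

theorem regPerm_apply (c : C) (a : C × Fin k) : regPerm k c a = (c * a.1, a.2) := rfl

/-- The regular representation, `k` times. -/
noncomputable def regRep : Representation ℂ C (C × Fin k → ℂ) where
  toFun c := Matrix.toLin' ((regPerm k c⁻¹).permMatrix ℂ)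
  map_one' := by
    refine LinearMap.ext fun f => funext fun i => ?_
    rw [Matrix.toLin'_apply, Matrix.permMatrix_mulVec]
    simp [regPerm_apply]
  map_mul' c d := by
    refine LinearMap.ext fun f => funext fun i => ?_
    rw [Module.End.mul_apply, Matrix.toLin'_apply, Matrix.toLin'_apply, Matrix.toLin'_apply,
      Matrix.permMatrix_mulVec, Matrix.permMatrix_mulVec, Matrix.permMatrix_mulVec]
    simp [regPerm_apply, mul_assoc]

theorem regRep_character_ne (c : C) (hc : c ≠ 1) : (regRep (C := C) k).character c = 0 := by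
  change LinearMap.trace ℂ _ (Matrix.toLin' ((regPerm k c⁻¹).permMatrix ℂ)) = 0
  rw [Matrix.trace_toLin'_eq, Matrix.trace_permutation]
  have h1 : Function.fixedPoints (regPerm k c⁻¹) = ∅ := by
    ext a
    simp only [Function.mem_fixedPoints, Function.IsFixedPt, regPerm_apply, Set.mem_empty_iff_false, iff_false]
    intro h
    have h2 : c⁻¹ * a.1 = a.1 := congrArg Prod.fst h
    apply hc
    have h3 : c⁻¹ = 1 := by simpa using h2
    simpa using h3
  rw [h1]
  simp

theorem regRep_character_one : (regRep (C := C) k).character 1 = ((Fintype.card C * k : ℕ) : ℂ) := by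
  rw [Representation.char_one]
  simp [Module.finrank_fintype_fun_eq_card]

theorem sign_mulLeft_of_gen (s : C) (hs : ∀ y, y ∈ Subgroup.zpowers s) (heven : Even (Fintype.card C))
    (h1 : s ≠ 1) : Equiv.Perm.sign (Equiv.mulLeft s) = -1 := by
  have hcyc : (Equiv.mulLeft s).IsCycle := by
    refine ⟨1, by simpa using h1, fun y _ => ?_⟩
    obtain ⟨i, hi⟩ := Subgroup.mem_zpowers_iff.1 (hs y)
    refine ⟨i, ?_⟩
    rw [Equiv.zpow_mulLeft]
    simp [hi]
  rw [hcyc.sign]
  have h2 : (Equiv.mulLeft s).support = Finset.univ := by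
    ext y
    simp only [Equiv.Perm.mem_support, Finset.mem_univ, iff_true]
    intro h
    apply h1
    simpa using h
  rw [h2, Finset.card_univ, heven.neg_one_pow]

theorem regRep_det (s : C) (hs : ∀ y, y ∈ Subgroup.zpowers s) (heven : Even (Fintype.card C))
    (h1 : s ≠ 1) (hk : Odd k) : LinearMap.det (regRep (C := C) k s) = -1 := by
  change LinearMap.det (Matrix.toLin' ((regPerm k s⁻¹).permMatrix ℂ)) = -1
  rw [LinearMap.det_toLin', Matrix.det_permutation]
  have h2 : Equiv.Perm.sign (regPerm k s⁻¹) = -1 := by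
    unfold regPerm
    rw [Equiv.Perm.sign_prodCongrLeft]
    have hs' : ∀ y, y ∈ Subgroup.zpowers s⁻¹ := by
      intro y
      rw [Subgroup.zpowers_inv]
      exact hs y
    have h3 := sign_mulLeft_of_gen s⁻¹ hs' heven (by simpa using h1)
    simp only [h3, Finset.prod_const, Finset.card_univ, Fintype.card_fin]
    exact hk.neg_one_pow
  rw [h2]
  simp

end Reg

section Det

variable {G : Type*} [Group G] [Finite G] {V : Type*} [AddCommGroup V] [Module ℂ V] [FiniteDimensional ℂ V]

/-- The determinant when the character vanishes on a cyclic subgroup off `1`. -/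
theorem det_eq_neg_one_of_vanish (ρ : Representation ℂ G V) (s : G) {k : ℕ}
    (heven : Even (orderOf s)) (hk : Odd k) (hdim : finrank ℂ V = orderOf s * k)
    (h0 : ∀ c ∈ Subgroup.zpowers s, c ≠ 1 → ρ.character c = 0) : LinearMap.det (ρ s) = -1 := by
  classical
  let C := Subgroup.zpowers s
  haveI : Fintype C := Fintype.ofFinite _
  let ρC : Representation ℂ C V := ρ.comp C.subtype
  let σ := regRep (C := C) k
  have hcardC : Fintype.card C = orderOf s := by
    rw [← Nat.card_eq_fintype_card, Nat.card_zpowers]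
  have hchar : ρC.character = σ.character := by
    funext c
    by_cases hc : c = 1
    · subst hc
      rw [regRep_character_one, Representation.char_one, hdim, hcardC]
    · rw [regRep_character_ne k c hc]
      change ρ.character (c : G) = 0
      exact h0 c c.2 (fun h => hc (Subtype.ext h))
  obtain ⟨φ⟩ := nonempty_equiv_of_character_eq _ V _ ρC σ rfl hchar
  let s' : C := ⟨s, Subgroup.mem_zpowers s⟩
  have h1 : σ s' = φ.toLinearEquiv.conj (ρC s') := by
    refine LinearMap.ext fun w => ?_
    simp only [LinearEquiv.conj_apply, LinearMap.comp_apply, LinearEquiv.coe_coe]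
    have h2 := Equiv_apply_rep φ s' (φ.toLinearEquiv.symm w)
    simp only [LinearEquiv.apply_symm_apply] at h2
    exact h2.symm
  have h3 : LinearMap.det (ρC s') = LinearMap.det (σ s') := by
    rw [h1, LinearEquiv.conj_apply]
    exact (LinearMap.det_conj (ρC s') φ.toLinearEquiv).symm
  have hs1 : s ≠ 1 := by
    intro h
    rw [h, orderOf_one] at heven
    exact (by decide : ¬ Even 1) heven
  have h4 := regRep_det (C := C) k s' (fun y => by
      obtain ⟨i, hi⟩ := Subgroup.mem_zpowers_iff.1 y.2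
      refine Subgroup.mem_zpowers_iff.2 ⟨i, ?_⟩
      apply Subtype.ext
      simpa [s'] using hi)
    (by rw [hcardC]; exact heven) (fun h => hs1 (congrArg Subtype.val h)) hk
  change LinearMap.det (ρC s') = -1
  rw [h3]
  exact h4

/-- A determinant `-1` gives a subgroup of index two. -/
theorem even_index_of_det (ρ : Representation ℂ G V) (s : G) (h : LinearMap.det (ρ s) = -1) :
    Even (commutator G).index := by
  classical
  let f := Cfsg.Agent.Lib.Char.detHom ρ
  have h1 : s ^ (commutator G).index ∈ commutator G := Subgroup.pow_index_mem _ s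
  have h2 : commutator G ≤ f.ker := Abelianization.commutator_subset_ker f
  have h3 := h2 h1
  rw [MonoidHom.mem_ker, map_pow] at h3
  have h4 : (f s : ℂ) = -1 := by
    rw [Cfsg.Agent.Lib.Char.detHom_apply, h]
  have h5 := congrArg (fun u : ℂˣ => (u : ℂ)) h3
  simp only [Units.val_pow_eq_pow_val, h4, Units.val_one] at h5
  exact (neg_one_pow_eq_one_iff_even (by norm_num)).1 h5

/-- If the character sums to zero on a subgroup, then all coset sums vanish. -/
theorem coset_sum_eq_zero (ρ : Representation ℂ G V) (P : Subgroup G) [Fintype P]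
    (h : ∑ u : P, ρ.character (u : G) = 0) (g : G) : ∑ u : P, ρ.character (g * u) = 0 := by
  classical
  let T : V →ₗ[ℂ] V := ∑ u : P, ρ u
  have hcard : (Fintype.card P : ℂ) ≠ 0 := by
    exact_mod_cast Fintype.card_ne_zero
  have hTT : T * T = (Fintype.card P : ℂ) • T := by
    have h1 : ∀ u : P, ρ u * T = T := by
      intro u
      change ρ u * ∑ v : P, ρ v = ∑ v : P, ρ v
      rw [Finset.mul_sum]
      refine Fintype.sum_bijective (fun v => u * v) (Group.mulLeft_bijective u) _ _ ?_
      intro v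
      rw [Subgroup.coe_mul, map_mul]
    change (∑ u : P, ρ u) * T = _
    rw [Finset.sum_mul]
    simp only [h1, Finset.sum_const, Finset.card_univ]
    rw [Nat.cast_smul_eq_nsmul]
  let E : V →ₗ[ℂ] V := (Fintype.card P : ℂ)⁻¹ • T
  have hE : IsIdempotentElem E := by
    change E * E = E
    simp only [E]
    rw [smul_mul_smul_comm, hTT, smul_smul]
    congr 1
    field_simp
  have htr : LinearMap.trace ℂ V T = 0 := by
    rw [← h]
    change LinearMap.trace ℂ V (∑ u : P, ρ u) = _
    rw [map_sum]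
    rfl
  have hE0 : E = 0 := by
    have h1 := LinearMap.IsIdempotentElem.isProj_range _ hE
    have h2 := h1.trace
    have h3 : LinearMap.trace ℂ V E = 0 := by
      simp only [E, map_smul, htr, smul_zero]
    rw [h3] at h2
    have h4 : finrank ℂ (LinearMap.range E) = 0 := by exact_mod_cast h2.symm
    have h5 : LinearMap.range E = ⊥ := Submodule.finrank_eq_zero.1 h4
    exact LinearMap.range_eq_bot.1 h5
  have hT0 : T = 0 := by
    have h1 : (Fintype.card P : ℂ) • E = T := by
      simp only [E]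
      rw [smul_smul, mul_inv_cancel₀ hcard, one_smul]
    rw [← h1, hE0, smul_zero]
  have h6 : ∑ u : P, ρ.character (g * u) = LinearMap.trace ℂ V (ρ g * T) := by
    change _ = LinearMap.trace ℂ V (ρ g * ∑ u : P, ρ u)
    rw [Finset.mul_sum, map_sum]
    refine Finset.sum_congr rfl fun u _ => ?_
    rw [← map_mul]
    rfl
  rw [h6, hT0, mul_zero, map_zero]

end Det

section Grp

variable {G : Type*} [Group G] [Fintype G] {p : ℕ} [hp : Fact p.Prime] {x : G}

local notation "P₀" => Subgroup.zpowers x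

theorem gen_of_ne (hx : orderOf x = p) {u : G} (hu : u ∈ Subgroup.zpowers x) (h1 : u ≠ 1) :
    x ∈ Subgroup.zpowers u := by
  classical
  haveI : Fintype (Subgroup.zpowers x) := Fintype.ofFinite _
  have hcard : Nat.card (Subgroup.zpowers x) = p := by rw [Nat.card_zpowers, hx]
  have h2 : (⟨x, Subgroup.mem_zpowers x⟩ : Subgroup.zpowers x) ∈
      Subgroup.zpowers (⟨u, hu⟩ : Subgroup.zpowers x) :=
    mem_zpowers_of_prime_card hcard (fun h => h1 (congrArg Subtype.val h))
  obtain ⟨k, hk⟩ := Subgroup.mem_zpowers_iff.1 h2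
  exact Subgroup.mem_zpowers_iff.2 ⟨k, by simpa using congrArg Subtype.val hk⟩

theorem comm_P {a b : G} (ha : a ∈ Subgroup.zpowers x) (hb : b ∈ Subgroup.zpowers x) : a * b = b * a := by
  obtain ⟨k, rfl⟩ := Subgroup.mem_zpowers_iff.1 ha
  obtain ⟨l, rfl⟩ := Subgroup.mem_zpowers_iff.1 hb
  exact (Commute.refl x).zpow_zpow k l

theorem comm_imp_mem (hx : orderOf x = p) (hC : Subgroup.centralizer ({x} : Set G) = Subgroup.zpowers x)
    {u y : G} (hu : u ∈ Subgroup.zpowers x) (h1 : u ≠ 1) (hy : y * u = u * y) : y ∈ Subgroup.zpowers x := by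
  rw [← hC]
  apply Subgroup.mem_centralizer_iff.2
  intro z hz
  have hz' : z = x := hz
  rw [hz']
  obtain ⟨k, hk⟩ := Subgroup.mem_zpowers_iff.1 (gen_of_ne hx hu h1)
  rw [← hk]
  have h2 : Commute y u := hy
  exact (h2.zpow_right k).symm.eq

theorem mem_norm_of_conj (hx : orderOf x = p) {u g : G} (hu : u ∈ Subgroup.zpowers x) (h1 : u ≠ 1)
    (hv : g * u * g⁻¹ ∈ Subgroup.zpowers x) :
    g ∈ Subgroup.normalizer ((Subgroup.zpowers x : Subgroup G) : Set G) := by
  rw [Subgroup.mem_normalizer_iff]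
  intro w
  have hPu : Subgroup.zpowers x ≤ Subgroup.zpowers u := by
    rw [Subgroup.zpowers_le]
    exact gen_of_ne hx hu h1
  have hv1 : g * u * g⁻¹ ≠ 1 := by
    intro h
    apply h1
    have : g * u = g := by
      have h2 : g * u * g⁻¹ * g = 1 * g := by rw [h]
      simpa using h2
    simpa using this
  have hPv : Subgroup.zpowers x ≤ Subgroup.zpowers (g * u * g⁻¹) := by
    rw [Subgroup.zpowers_le]
    exact gen_of_ne hx hv hv1
  constructor
  · intro hw
    obtain ⟨k, rfl⟩ := Subgroup.mem_zpowers_iff.1 (hPu hw)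
    rw [← conj_zpow]
    exact Subgroup.zpow_mem _ hv k
  · intro hw
    obtain ⟨k, hk⟩ := Subgroup.mem_zpowers_iff.1 (hPv hw)
    rw [conj_zpow] at hk
    have h3 : u ^ k = w := by
      have h4 := mul_right_cancel hk
      exact mul_left_cancel h4
    rw [← h3]
    exact Subgroup.zpow_mem _ hu k

theorem conj_coset (hx : orderOf x = p) (hC : Subgroup.centralizer ({x} : Set G) = Subgroup.zpowers x)
    {g v : G} (hg : g ∈ Subgroup.normalizer ((Subgroup.zpowers x : Subgroup G) : Set G))
    (hgP : g ∉ Subgroup.zpowers x) (hv : v ∈ Subgroup.zpowers x) :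
    ∃ w ∈ Subgroup.zpowers x, w * g * w⁻¹ = g * v := by
  classical
  have hconj : ∀ w ∈ Subgroup.zpowers x, g⁻¹ * w * g ∈ Subgroup.zpowers x := by
    intro w hw
    have h1 := (Subgroup.mem_normalizer_iff.1 (Subgroup.inv_mem _ hg) w).1 hw
    simpa using h1
  let f : Subgroup.zpowers x → Subgroup.zpowers x := fun w =>
    ⟨(g⁻¹ * w * g) * (w : G)⁻¹, Subgroup.mul_mem _ (hconj _ w.2) (Subgroup.inv_mem _ w.2)⟩
  have hinj : Function.Injective f := by
    intro a b hab
    have h1 : (g⁻¹ * a * g) * (a : G)⁻¹ = (g⁻¹ * b * g) * (b : G)⁻¹ := congrArg Subtype.val hab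
    have hab' : (a : G) * (b : G)⁻¹ ∈ Subgroup.zpowers x := Subgroup.mul_mem _ a.2 (Subgroup.inv_mem _ b.2)
    have h2 : g⁻¹ * ((a : G) * (b : G)⁻¹) * g = (a : G) * (b : G)⁻¹ := by
      have e1 : g⁻¹ * ((a : G) * (b : G)⁻¹) * g = (g⁻¹ * a * g) * (g⁻¹ * b * g)⁻¹ := by group
      rw [e1]
      have h3 : (g⁻¹ * a * g) = (g⁻¹ * b * g) * (b : G)⁻¹ * a := by
        rw [← h1]
        group
      rw [h3]
      have h4 := comm_P (x := x) (hconj _ b.2) (Subgroup.mul_mem _ (Subgroup.inv_mem _ b.2) a.2)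
      calc g⁻¹ * (b : G) * g * (b : G)⁻¹ * a * (g⁻¹ * b * g)⁻¹
          = (g⁻¹ * (b : G) * g) * ((b : G)⁻¹ * a) * (g⁻¹ * b * g)⁻¹ := by group
        _ = ((b : G)⁻¹ * a) * (g⁻¹ * (b : G) * g) * (g⁻¹ * b * g)⁻¹ := by rw [h4]
        _ = _ := by
          rw [mul_assoc, mul_inv_cancel, mul_one]
          exact comm_P (x := x) (Subgroup.inv_mem _ b.2) a.2
    by_contra hne
    have hd : (a : G) * (b : G)⁻¹ ≠ 1 := by
      intro h
      apply hne
      apply Subtype.ext
      exact mul_inv_eq_one.1 h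
    apply hgP
    have h5 : g * ((a : G) * (b : G)⁻¹) = ((a : G) * (b : G)⁻¹) * g := by
      nth_rw 1 [← h2]
      group
    exact comm_imp_mem hx hC hab' hd h5
  obtain ⟨w, hw⟩ := (Finite.injective_iff_surjective.1 hinj) ⟨v, hv⟩
  refine ⟨w, w.2, ?_⟩
  have h1 : (g⁻¹ * w * g) * (w : G)⁻¹ = v := congrArg Subtype.val hw
  rw [← h1]
  group

/-- The Sylow property. -/
theorem sylow_of_selfCent (hx : orderOf x = p) (hC : Subgroup.centralizer ({x} : Set G) = Subgroup.zpowers x) :
    ¬ p ∣ (Subgroup.zpowers x).index := by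
  classical
  have hcard : Nat.card (Subgroup.zpowers x) = p := by rw [Nat.card_zpowers, hx]
  have hpg : IsPGroup p (Subgroup.zpowers x) := IsPGroup.of_card (n := 1) (by rw [hcard, pow_one])
  obtain ⟨Q, hQ⟩ := hpg.exists_le_sylow
  have hx1 : x ≠ 1 := by
    intro h
    rw [h, orderOf_one] at hx
    exact hp.out.one_lt.ne hx
  have hle : (Q : Subgroup G) ≤ Subgroup.zpowers x := by
    haveI : Nontrivial (Q : Subgroup G) :=
      ⟨⟨x, hQ (Subgroup.mem_zpowers x)⟩, 1, fun h => hx1 (congrArg Subtype.val h)⟩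
    haveI := IsPGroup.center_nontrivial (G := (Q : Subgroup G)) (p := p) Q.isPGroup'
    obtain ⟨⟨z, hzc⟩, hz1⟩ := exists_ne (1 : Subgroup.center (Q : Subgroup G))
    have hzP : (z : G) ∈ Subgroup.zpowers x := by
      rw [← hC]
      apply Subgroup.mem_centralizer_iff.2
      intro w hw
      have hw' : w = x := hw
      rw [hw']
      have h2 := (Subgroup.mem_center_iff.1 hzc) ⟨x, hQ (Subgroup.mem_zpowers x)⟩
      exact congrArg Subtype.val h2
    have hz1' : (z : G) ≠ 1 := by
      intro h
      apply hz1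
      apply Subtype.ext
      exact Subtype.ext h
    intro y hy
    have h3 := (Subgroup.mem_center_iff.1 hzc) ⟨y, hy⟩
    exact comm_imp_mem hx hC hzP hz1' (congrArg Subtype.val h3)
  have heq : (Q : Subgroup G) = Subgroup.zpowers x := le_antisymm hle hQ
  rw [← heq]
  exact Q.not_dvd_index

theorem orderOf_of_mem (hx : orderOf x = p) {u : G} (hu : u ∈ Subgroup.zpowers x) (h1 : u ≠ 1) :
    orderOf u = p := by
  haveI := hp
  apply orderOf_eq_prime _ h1
  obtain ⟨k, rfl⟩ := Subgroup.mem_zpowers_iff.1 hu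
  rw [← zpow_natCast, ← zpow_mul, mul_comm, zpow_mul, zpow_natCast, ← hx, pow_orderOf_eq_one, one_zpow]

open Classical in
/-- The conjugates of `u` in `P`. -/
noncomputable def conjIn (x u : G) : Finset G :=
  Finset.univ.filter fun v => v ∈ Subgroup.zpowers x ∧ IsConj v u

theorem mem_conjIn {u v : G} : v ∈ conjIn x u ↔ v ∈ Subgroup.zpowers x ∧ IsConj v u := by
  simp [conjIn]

/-- Orbit counting. -/
theorem card_conjIn_mul (hx : orderOf x = p) (hC : Subgroup.centralizer ({x} : Set G) = Subgroup.zpowers x)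
    {u : G} (hu : u ∈ Subgroup.zpowers x) (h1 : u ≠ 1) :
    (conjIn x u).card * p = Nat.card (Subgroup.normalizer ((Subgroup.zpowers x : Subgroup G) : Set G)) := by
  classical
  set N := Subgroup.normalizer ((Subgroup.zpowers x : Subgroup G) : Set G) with hN
  haveI : Fintype N := Fintype.ofFinite _
  haveI : Fintype (Subgroup.zpowers x) := Fintype.ofFinite _
  have hcardP : Fintype.card (Subgroup.zpowers x) = p := by
    rw [← Nat.card_eq_fintype_card, Nat.card_zpowers, hx]
  let f : N → G := fun g => (g : G) * u * (g : G)⁻¹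
  have hmaps : Set.MapsTo f (Finset.univ : Finset N) (conjIn x u : Finset G) := by
    intro g _
    simp only [Finset.mem_coe]
    rw [mem_conjIn]
    refine ⟨(Subgroup.mem_normalizer_iff.1 g.2 u).1 hu, ?_⟩
    exact (isConj_iff.2 ⟨(g : G), rfl⟩).symm
  have h2 := Finset.card_eq_sum_card_fiberwise hmaps
  rw [Finset.card_univ, ← Nat.card_eq_fintype_card] at h2
  rw [h2]
  rw [Finset.sum_const_nat (m := p)]
  intro v hv
  rw [mem_conjIn] at hv
  obtain ⟨hvP, hvc⟩ := hv
  obtain ⟨g₀, hg₀⟩ := isConj_iff.1 hvc.symm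
  have hg₀N : g₀ ∈ N := mem_norm_of_conj hx hu h1 (by rw [hg₀]; exact hvP)
  rw [← hcardP, ← Finset.card_univ]
  symm
  refine Finset.card_bij (fun w _ => (⟨g₀ * w, Subgroup.mul_mem _ hg₀N (Subgroup.le_normalizer w.2)⟩ : N)) ?_ ?_ ?_
  · intro w _
    simp only [Finset.mem_filter, Finset.mem_univ, true_and, f]
    rw [← hg₀]
    have h3 := comm_P (x := x) w.2 hu
    calc g₀ * w * u * (g₀ * w)⁻¹ = g₀ * (w * u) * (w : G)⁻¹ * g₀⁻¹ := by group
      _ = g₀ * (u * w) * (w : G)⁻¹ * g₀⁻¹ := by rw [h3]
      _ = g₀ * u * g₀⁻¹ := by group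
  · intro a _ b _ hab
    apply Subtype.ext
    have h3 : g₀ * (a : G) = g₀ * b := congrArg Subtype.val hab
    exact mul_left_cancel h3
  · rintro ⟨g, hg⟩ hgf
    simp only [Finset.mem_filter, Finset.mem_univ, true_and, f] at hgf
    have h3 : g * u * g⁻¹ = g₀ * u * g₀⁻¹ := by rw [hgf, hg₀]
    have h4 : (g₀⁻¹ * g) * u = u * (g₀⁻¹ * g) := by
      have h5 : g * u = g₀ * u * g₀⁻¹ * g := by
        rw [← h3]
        group
      calc (g₀⁻¹ * g) * u = g₀⁻¹ * (g * u) := by group
        _ = g₀⁻¹ * (g₀ * u * g₀⁻¹ * g) := by rw [h5]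
        _ = _ := by group
    refine ⟨⟨g₀⁻¹ * g, comm_imp_mem hx hC hu h1 h4⟩, Finset.mem_univ _, ?_⟩
    apply Subtype.ext
    simp

open Classical in
/-- `P` minus the identity. -/
noncomputable def punct (x : G) : Finset G := (Finset.univ.filter fun v => v ∈ Subgroup.zpowers x).erase 1

theorem mem_punct {u : G} : u ∈ punct x ↔ u ∈ Subgroup.zpowers x ∧ u ≠ 1 := by
  simp [punct, and_comm]

theorem card_punct (hx : orderOf x = p) : (punct x).card = p - 1 := by
  classical
  unfold punct
  rw [Finset.card_erase_of_mem (by simp [Subgroup.one_mem])]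
  congr 1
  rw [← hx, ← Nat.card_zpowers, Nat.card_eq_fintype_card, Fintype.card_subtype]

/-- Every element of order `p` is conjugate into `P`. -/
theorem exists_conj_mem (hx : orderOf x = p) (hC : Subgroup.centralizer ({x} : Set G) = Subgroup.zpowers x)
    {g : G} (hg : orderOf g = p) : ∃ u ∈ Subgroup.zpowers x, IsConj u g := by
  classical
  have hcard : Nat.card (Subgroup.zpowers x) = p := by rw [Nat.card_zpowers, hx]
  have hpg : IsPGroup p (Subgroup.zpowers x) := IsPGroup.of_card (n := 1) (by rw [hcard, pow_one])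
  let PS : Sylow p G := hpg.toSylow (sylow_of_selfCent hx hC)
  have hcardg : Nat.card (Subgroup.zpowers g) = p := by rw [Nat.card_zpowers, hg]
  have hpg2 : IsPGroup p (Subgroup.zpowers g) := IsPGroup.of_card (n := 1) (by rw [hcardg, pow_one])
  obtain ⟨Q, hQ⟩ := hpg2.exists_le_sylow
  obtain ⟨h, hh⟩ := MulAction.exists_smul_eq G Q PS
  have h1 : h * g * h⁻¹ ∈ (PS : Subgroup G) := by
    rw [← hh, Sylow.smul_def, Sylow.pointwise_smul_def]
    exact Subgroup.smul_mem_pointwise_smul _ (MulAut.conj h) _ (hQ (Subgroup.mem_zpowers g))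
  exact ⟨h * g * h⁻¹, h1, (isConj_iff.2 ⟨h, rfl⟩).symm⟩

/-- `t * e = p - 1`. -/
theorem card_classes_mul (hx : orderOf x = p) (hC : Subgroup.centralizer ({x} : Set G) = Subgroup.zpowers x)
    {e : ℕ} (he : ∀ u ∈ Subgroup.zpowers x, u ≠ 1 → (conjIn x u).card = e) :
    Nat.card {C : ConjClasses G // ∃ g ∈ C.carrier, orderOf g = p} * e = p - 1 := by
  classical
  haveI : Fintype (ConjClasses G) := Fintype.ofFinite _
  let T : Finset (ConjClasses G) := Finset.univ.filter fun C => ∃ g ∈ C.carrier, orderOf g = p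
  have hT : Nat.card {C : ConjClasses G // ∃ g ∈ C.carrier, orderOf g = p} = T.card := by
    rw [Nat.card_eq_fintype_card, Fintype.card_subtype]
  have hmaps : Set.MapsTo (ConjClasses.mk : G → ConjClasses G) (punct x : Finset G) (T : Finset _) := by
    intro u hu
    simp only [Finset.mem_coe, mem_punct] at hu
    simp only [Finset.coe_filter, Finset.mem_univ, true_and, T, Set.mem_setOf_eq]
    refine ⟨u, ConjClasses.mem_carrier_mk, orderOf_of_mem hx hu.1 hu.2⟩
  have h1 := Finset.card_eq_sum_card_fiberwise hmaps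
  rw [card_punct hx] at h1
  rw [h1, hT, Finset.sum_const_nat (m := e)]
  intro C hC'
  simp only [Finset.mem_filter, Finset.mem_univ, true_and, T] at hC'
  obtain ⟨g, hgC, hg⟩ := hC'
  obtain ⟨u₀, hu₀, hc⟩ := exists_conj_mem hx hC hg
  have hg1 : g ≠ 1 := by
    intro h
    rw [h, orderOf_one] at hg
    exact hp.out.one_lt.ne hg
  have hu₀1 : u₀ ≠ 1 := by
    intro h
    rw [h] at hc
    exact hg1 (isConj_one_left.1 hc.symm)
  have hCu : C = ConjClasses.mk u₀ := by
    rw [ConjClasses.mem_carrier_iff_mk_eq] at hgC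
    rw [← hgC]
    exact (ConjClasses.mk_eq_mk_iff_isConj.2 hc).symm
  rw [← he u₀ hu₀ hu₀1]
  congr 1
  ext v
  simp only [Finset.mem_filter, mem_punct, mem_conjIn, hCu, ConjClasses.mk_eq_mk_iff_isConj]
  constructor
  · rintro ⟨⟨h2, -⟩, h3⟩
    exact ⟨h2, h3⟩
  · rintro ⟨h2, h3⟩
    refine ⟨⟨h2, ?_⟩, h3⟩
    rintro rfl
    exact hu₀1 (isConj_one_left.1 h3.symm)

end Grp

section Chars

variable {G : Type*} [Group G] [Fintype G] {p : ℕ} [hp : Fact p.Prime] {x : G}

/-- The second orthogonality count. -/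
theorem sum_normSq_punct (hx : orderOf x = p) (hC : Subgroup.centralizer ({x} : Set G) = Subgroup.zpowers x)
    {e : ℕ} (he : ∀ u ∈ Subgroup.zpowers x, u ≠ 1 → (conjIn x u).card = e) :
    ∑ ψ : IrrCharacter G, Complex.normSq (∑ u ∈ punct x, (ψ : G → ℂ) u) = (((p - 1) * (p * e) : ℕ) : ℝ) := by
  classical
  have hcardC : ∀ v ∈ punct x, Nat.card (Subgroup.centralizer ({v} : Set G)) = p := by
    intro v hv
    rw [mem_punct] at hv
    have h1 : Subgroup.centralizer ({v} : Set G) = Subgroup.zpowers x := by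
      apply le_antisymm
      · intro y hy
        have h2 := Subgroup.mem_centralizer_iff.1 hy v rfl
        exact comm_imp_mem hx hC hv.1 hv.2 h2.symm
      · intro y hy
        apply Subgroup.mem_centralizer_iff.2
        intro w hw
        have hw' : w = v := hw
        rw [hw']
        exact comm_P hv.1 hy
    rw [h1, Nat.card_zpowers, hx]
  have h1 : ∑ ψ : IrrCharacter G, ((Complex.normSq (∑ u ∈ punct x, (ψ : G → ℂ) u) : ℝ) : ℂ) =
      (((p - 1) * (p * e) : ℕ) : ℂ) := by
    have h2 : ∀ ψ : IrrCharacter G, ((Complex.normSq (∑ u ∈ punct x, (ψ : G → ℂ) u) : ℝ) : ℂ) =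
        ∑ v ∈ punct x, ∑ u ∈ punct x, (ψ : G → ℂ) u * conj ((ψ : G → ℂ) v) := by
      intro ψ
      rw [← Complex.mul_conj, map_sum, Finset.sum_mul_sum, Finset.sum_comm]
    simp only [h2]
    rw [Finset.sum_comm]
    have h3 : ∀ v ∈ punct x, ∑ ψ : IrrCharacter G, ∑ u ∈ punct x, (ψ : G → ℂ) u * conj ((ψ : G → ℂ) v) =
        ((p * e : ℕ) : ℂ) := by
      intro v hv
      rw [Finset.sum_comm]
      simp only [second_orthogonality', hcardC v hv]
      have hv' := mem_punct.1 hv
      rw [← he v hv'.1 hv'.2]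
      rw [Finset.sum_ite, Finset.sum_const_zero, add_zero, Finset.sum_const, nsmul_eq_mul]
      have h4 : (punct x).filter (fun u => IsConj u v) = conjIn x v := by
        ext u
        simp only [Finset.mem_filter, mem_punct, mem_conjIn]
        constructor
        · rintro ⟨⟨h5, -⟩, h6⟩
          exact ⟨h5, h6⟩
        · rintro ⟨h5, h6⟩
          refine ⟨⟨h5, ?_⟩, h6⟩
          rintro rfl
          exact hv'.2 (isConj_one_left.1 h6.symm)
      rw [h4]
      push_cast
      ring
    rw [Finset.sum_congr rfl h3, Finset.sum_const, nsmul_eq_mul, card_punct hx]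
    push_cast
    ring
  exact_mod_cast h1

/-- The bijection of a complement with `N`. -/
theorem inner_dvd (hx : orderOf x = p) (hC : Subgroup.centralizer ({x} : Set G) = Subgroup.zpowers x)
    {χ : G → ℂ} (hχ : IsCharacter G χ) {m e : ℕ} [Fintype (Subgroup.zpowers x)]
    (hm : ∑ u : Subgroup.zpowers x, χ u = ((p * m : ℕ) : ℂ))
    (hN : Nat.card (Subgroup.normalizer ((Subgroup.zpowers x : Subgroup G) : Set G)) = e * p)
    {s : G} (hsN : s ∈ Subgroup.normalizer ((Subgroup.zpowers x : Subgroup G) : Set G))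
    (hs : orderOf s = e) (hcop : Nat.Coprime e p) (hd : charDegree χ = charDegree χ) :
    ∃ z : ℤ, (charDegree χ : ℤ) - m = e * z := by
  classical
  set N := Subgroup.normalizer ((Subgroup.zpowers x : Subgroup G) : Set G) with hNdef
  haveI : Fintype N := Fintype.ofFinite _
  let C := Subgroup.zpowers s
  haveI : Fintype C := Fintype.ofFinite _
  have hCN : C ≤ N := by
    rw [Subgroup.zpowers_le]
    exact hsN
  have hcardC : Fintype.card C = e := by
    rw [← Nat.card_eq_fintype_card, Nat.card_zpowers, hs]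
  have hcardP : Fintype.card (Subgroup.zpowers x) = p := by
    rw [← Nat.card_eq_fintype_card, Nat.card_zpowers, hx]
  have hep : 0 < e := by
    rw [← hs]
    exact orderOf_pos s
  have hCP : ∀ c ∈ C, c ∈ Subgroup.zpowers x → c = 1 := by
    intro c hc hc'
    by_contra h1
    have h2 := orderOf_of_mem hx hc' h1
    have h3 : orderOf c ∣ e := by
      rw [← hs]
      exact orderOf_dvd_of_mem_zpowers hc
    rw [h2] at h3
    have h4 := Nat.Coprime.eq_one_of_dvd hcop.symm h3
    exact hp.out.one_lt.ne' h4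
  -- the bijection
  let φ : C × Subgroup.zpowers x → N := fun a =>
    ⟨(a.1 : G) * a.2, Subgroup.mul_mem _ (hCN a.1.2) (Subgroup.le_normalizer a.2.2)⟩
  have hinj : Function.Injective φ := by
    rintro ⟨c, u⟩ ⟨d, v⟩ h
    have h1 : (c : G) * u = d * v := congrArg Subtype.val h
    have h2 : (d : G)⁻¹ * c = v * (u : G)⁻¹ := by
      calc (d : G)⁻¹ * c = (d : G)⁻¹ * (c * u) * (u : G)⁻¹ := by group
        _ = (d : G)⁻¹ * (d * v) * (u : G)⁻¹ := by rw [h1]
        _ = _ := by group
    have h3 : (d : G)⁻¹ * c = 1 := by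
      apply hCP
      · exact Subgroup.mul_mem _ (Subgroup.inv_mem _ d.2) c.2
      · rw [h2]
        exact Subgroup.mul_mem _ v.2 (Subgroup.inv_mem _ u.2)
    have h4 : (c : G) = d := by
      have := mul_eq_one_iff_eq_inv.1 h3
      simpa using this.symm
    have h5 : (v : G) = u := by
      rw [h3] at h2
      exact (mul_inv_eq_one.1 h2.symm)
    ext
    · exact h4
    · exact h5.symm
  have hbij : Function.Bijective φ := by
    rw [Fintype.bijective_iff_injective_and_card]
    refine ⟨hinj, ?_⟩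
    rw [Fintype.card_prod, hcardC, hcardP, ← Nat.card_eq_fintype_card (α := N), hN]
  have hval : ∀ c : C, c ≠ 1 → ∀ u : Subgroup.zpowers x, χ ((c : G) * u) = χ c := by
    intro c hc u
    have hcP : (c : G) ∉ Subgroup.zpowers x := by
      intro h
      exact hc (Subtype.ext (hCP c c.2 h))
    obtain ⟨w, hw, hww⟩ := conj_coset hx hC (hCN c.2) hcP u.2
    rw [← hww]
    exact (IsCharacter.isClassFunction hχ) _ w
  have hsum1 : ∑ g : N, χ g = ∑ c : C, ∑ u : Subgroup.zpowers x, χ ((c : G) * u) := by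
    rw [← Fintype.sum_prod_type']
    exact (Fintype.sum_bijective φ hbij _ _ (fun a => rfl)).symm
  have hsum2 : ∀ c : C, ∑ u : Subgroup.zpowers x, χ ((c : G) * u) =
      if c = 1 then ((p * m : ℕ) : ℂ) else (p : ℂ) * χ c := by
    intro c
    split_ifs with h
    · subst h
      simpa using hm
    · rw [Finset.sum_congr rfl fun u _ => hval c h u, Finset.sum_const, Finset.card_univ, hcardP]
      simp
  obtain ⟨A, hA⟩ := classInner_isCharacter_nat (IsCharacter.restrict N hχ) (IsCharacter.one (G := N))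
  obtain ⟨B, hB⟩ := classInner_isCharacter_nat (IsCharacter.restrict C hχ) (IsCharacter.one (G := C))
  have hA' : ∑ g : N, χ g = ((e * p : ℕ) : ℂ) * A := by
    rw [← hA, classInner_def, hN]
    simp only [map_one, mul_one]
    have : ((e * p : ℕ) : ℂ) ≠ 0 := by
      have := hp.out.pos
      exact_mod_cast (Nat.mul_pos hep this).ne'
    field_simp
  have hB' : ∑ c : C, χ c = (e : ℂ) * B := by
    rw [← hB, classInner_def, Nat.card_eq_fintype_card, hcardC]
    simp only [map_one, mul_one]
    have : (e : ℂ) ≠ 0 := by exact_mod_cast hep.ne'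
    field_simp
  simp only [hsum2] at hsum1
  rw [hA'] at hsum1
  rw [← Finset.add_sum_erase _ _ (Finset.mem_univ (1 : C))] at hsum1 hB'
  simp only [if_true] at hsum1
  have hS : ∑ c ∈ Finset.univ.erase (1 : C), (if c = 1 then ((p * m : ℕ) : ℂ) else (p : ℂ) * χ c) =
      (p : ℂ) * ∑ c ∈ Finset.univ.erase (1 : C), χ c := by
    rw [Finset.mul_sum]
    refine Finset.sum_congr rfl fun c hc => ?_
    rw [if_neg (Finset.ne_of_mem_erase hc)]
  rw [hS] at hsum1
  set S := ∑ c ∈ Finset.univ.erase (1 : C), χ c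
  have hp0 : (p : ℂ) ≠ 0 := by exact_mod_cast hp.out.pos.ne'
  have h6 : (e : ℂ) * A = m + S := by
    apply mul_left_cancel₀ hp0
    push_cast at hsum1
    linear_combination hsum1
  have h7 : χ (1 : G) = (charDegree χ : ℂ) := map_one_eq_charDegree hχ
  have h8 : ((1 : C) : G) = 1 := rfl
  rw [h8, h7] at hB'
  refine ⟨(B : ℤ) - A, ?_⟩
  have h9 : (((charDegree χ : ℤ) - m : ℤ) : ℂ) = ((e * ((B : ℤ) - A) : ℤ) : ℂ) := by
    push_cast
    linear_combination hB' + h6
  exact_mod_cast h9

end Chars

section Final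

variable {G : Type*} [Group G] [Fintype G] {p : ℕ} [hp : Fact p.Prime] {x : G}

/-- A suitable element of order `e` in the normalizer. -/
theorem exists_elt_of_order (hx : orderOf x = p) (hC : Subgroup.centralizer ({x} : Set G) = Subgroup.zpowers x)
    {e : ℕ} (hN : Nat.card (Subgroup.normalizer ((Subgroup.zpowers x : Subgroup G) : Set G)) = e * p)
    (hcop : Nat.Coprime e p) :
    ∃ s ∈ Subgroup.normalizer ((Subgroup.zpowers x : Subgroup G) : Set G), orderOf s = e := by
  classical
  set P : Subgroup G := Subgroup.zpowers x with hP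
  set N := Subgroup.normalizer ((P : Subgroup G) : Set G) with hNdef
  let φ : N →* MulAut P := P.normalizerMonoidHom
  have hcard : Nat.card P = p := by rw [hP, Nat.card_zpowers, hx]
  have hcent : Subgroup.centralizer ((P : Subgroup G) : Set G) = P := by
    apply le_antisymm
    · intro y hy
      rw [← hC]
      apply Subgroup.mem_centralizer_iff.2
      intro w hw
      have hw' : w = x := hw
      rw [hw']
      exact Subgroup.mem_centralizer_iff.1 hy x (Subgroup.mem_zpowers x)
    · intro y hy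
      apply Subgroup.mem_centralizer_iff.2
      intro w hw
      exact comm_P hw hy
  have hker : φ.ker = P.subgroupOf N := by
    have h1 := P.normalizerMonoidHom_ker
    rw [hcent] at h1
    exact h1
  have hkercard : Nat.card φ.ker = p := by
    rw [hker, ← hcard]
    exact Nat.card_congr (Subgroup.subgroupOfEquivOfLe (Subgroup.le_normalizer)).toEquiv
  have hrange : Nat.card φ.range = e := by
    have h1 := Subgroup.card_mul_index φ.ker
    rw [hkercard, Subgroup.index_ker, hN] at h1
    have h2 : p * Nat.card φ.range = p * e := by rw [h1]; ring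
    exact Nat.eq_of_mul_eq_mul_left hp.out.pos h2
  haveI hPc : IsCyclic P := isCyclic_of_prime_card (p := p) hcard
  haveI : IsCyclic (ZMod (Nat.card P))ˣ := by
    rw [hcard]
    infer_instance
  haveI : IsCyclic (MulAut P) :=
    isCyclic_of_injective (IsCyclic.mulAutMulEquiv P).toMonoidHom (IsCyclic.mulAutMulEquiv P).injective
  obtain ⟨⟨γ, hγ⟩, hgen⟩ := IsCyclic.exists_generator (α := φ.range)
  have hordγ : orderOf γ = e := by
    have h1 := orderOf_eq_card_of_forall_mem_zpowers hgen
    rw [hrange, Subgroup.orderOf_mk] at h1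
    exact h1
  obtain ⟨g, rfl⟩ := hγ
  refine ⟨((g ^ p : N) : G), (g ^ p).2, ?_⟩
  have hexp : ∀ u ∈ P, u ^ p = 1 := by
    intro u hu
    by_cases h1 : u = 1
    · rw [h1, one_pow]
    · rw [← orderOf_of_mem hx hu h1]
      exact pow_orderOf_eq_one u
  have h3 : ((g ^ p : N) : G) ^ e = 1 := by
    have h4 : g ^ e ∈ φ.ker := by
      rw [MonoidHom.mem_ker, map_pow, ← hordγ, pow_orderOf_eq_one]
    rw [hker] at h4
    have h5 : ((g ^ e : N) : G) ∈ P := h4
    have h6 := hexp _ h5
    have h7 : ((g ^ p : N) : G) ^ e = ((g ^ e : N) : G) ^ p := by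
      push_cast
      rw [← pow_mul, ← pow_mul, mul_comm]
    rw [h7, h6]
  have h4 : e ∣ orderOf ((g ^ p : N) : G) := by
    rw [Subgroup.orderOf_coe]
    have h5 : orderOf (φ (g ^ p)) = e := by
      rw [map_pow, Nat.Coprime.orderOf_pow (by rw [hordγ]; exact hcop), hordγ]
    rw [← h5]
    exact orderOf_map_dvd φ _
  exact Nat.dvd_antisymm (orderOf_dvd_of_pow_eq_one h3) h4

theorem punct_sum (hx : orderOf x = p) [Fintype (Subgroup.zpowers x)] {χ : G → ℂ} {m : ℕ}
    (hm : ∑ u : Subgroup.zpowers x, χ u = ((p * m : ℕ) : ℂ)) :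
    ∑ u ∈ punct x, χ u = ((p * m : ℕ) : ℂ) - χ 1 := by
  classical
  unfold punct
  rw [Finset.sum_erase_eq_sub (by simp [Subgroup.one_mem])]
  have h1 : ∑ u ∈ Finset.univ.filter fun v => v ∈ Subgroup.zpowers x, χ u = ∑ u : Subgroup.zpowers x, χ u :=
    Finset.sum_subtype _ (by simp) _
  rw [h1, hm]

/-- The vanishing of the principal multiplicity. -/
theorem mult_eq_zero_of_dvd (hx : orderOf x = p) (hC : Subgroup.centralizer ({x} : Set G) = Subgroup.zpowers x)
    {e m : ℕ} (he : ∀ u ∈ Subgroup.zpowers x, u ≠ 1 → (conjIn x u).card = e) (he2 : 2 ≤ e) (hp3 : 3 ≤ p)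
    (χ : IrrCharacter G) (hχ : charDegree (χ : G → ℂ) + 1 = p) [Fintype (Subgroup.zpowers x)]
    (hm : ∑ u : Subgroup.zpowers x, (χ : G → ℂ) u = ((p * m : ℕ) : ℂ)) (hme : m = 0 ∨ e ≤ m) : m = 0 := by
  classical
  rcases hme with h0 | hme
  · exact h0
  exfalso
  have hsum := sum_normSq_punct hx hC he
  let I₁ : IrrCharacter G := ⟨fun _ => 1, isIrrCharacter_one⟩
  have hne : χ ≠ I₁ := by
    intro h
    have h1 : (χ : G → ℂ) 1 = 1 := by rw [h]
    have h2 := map_one_eq_charDegree (IsIrrCharacter.isCharacter χ.2)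
    rw [h1] at h2
    have h3 : charDegree (χ : G → ℂ) = 1 := by exact_mod_cast h2.symm
    omega
  have hle : Complex.normSq (∑ u ∈ punct x, (χ : G → ℂ) u) + Complex.normSq (∑ u ∈ punct x, (I₁ : G → ℂ) u) ≤
      ∑ ψ : IrrCharacter G, Complex.normSq (∑ u ∈ punct x, (ψ : G → ℂ) u) := by
    rw [← Finset.sum_pair (f := fun ψ : IrrCharacter G => Complex.normSq (∑ u ∈ punct x, (ψ : G → ℂ) u)) hne]
    exact Finset.sum_le_sum_of_subset_of_nonneg (Finset.subset_univ _) (fun _ _ _ => Complex.normSq_nonneg _)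
  rw [hsum] at hle
  have h1 : ∑ u ∈ punct x, (I₁ : G → ℂ) u = ((p - 1 : ℕ) : ℂ) := by
    change ∑ u ∈ punct x, (1 : ℂ) = _
    rw [Finset.sum_const, nsmul_eq_mul, card_punct hx, mul_one]
  have h2 : ∑ u ∈ punct x, (χ : G → ℂ) u = (((p * m : ℕ) : ℝ) - ((p - 1 : ℕ) : ℝ) : ℝ) := by
    rw [punct_sum hx hm, map_one_eq_charDegree (IsIrrCharacter.isCharacter χ.2)]
    have h3 : charDegree (χ : G → ℂ) = p - 1 := by omega
    rw [h3]
    push_cast
    rfl
  rw [h1, h2, Complex.normSq_ofReal] at hle
  have h3 : Complex.normSq ((p - 1 : ℕ) : ℂ) = ((p - 1 : ℕ) : ℝ) * ((p - 1 : ℕ) : ℝ) := by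
    rw [← Complex.ofReal_natCast, Complex.normSq_ofReal]
  rw [h3] at hle
  obtain ⟨q, hq⟩ : ∃ q : ℕ, p = q + 1 := ⟨p - 1, by omega⟩
  subst hq
  simp only [Nat.add_sub_cancel] at hle
  push_cast at hle
  have hq2 : (2 : ℝ) ≤ q := by exact_mod_cast (by omega : 2 ≤ q)
  have he2' : (2 : ℝ) ≤ e := by exact_mod_cast he2
  have hme' : (e : ℝ) ≤ m := by exact_mod_cast hme
  set B : ℝ := ((q : ℝ) + 1) * e - q with hB
  set A : ℝ := ((q : ℝ) + 1) * m - q with hA
  have hBpos : (q : ℝ) + 2 ≤ B := by
    rw [hB]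
    nlinarith
  have hAB : B ≤ A := by
    rw [hA, hB]
    nlinarith
  have hsq : B * B ≤ A * A := by nlinarith
  have hle2 : B * B + (q : ℝ) * q ≤ (q : ℝ) * (((q : ℝ) + 1) * e) := by
    have : A * A + (q : ℝ) * q ≤ (q : ℝ) * (((q : ℝ) + 1) * e) := hle
    linarith
  have hle3 : B * B ≤ (q : ℝ) * B := by
    rw [hB] at hle2 ⊢
    nlinarith
  nlinarith

/-- **The theorem**. -/
theorem selfCent_main (hx : orderOf x = p) (hC : Subgroup.centralizer ({x} : Set G) = Subgroup.zpowers x)
    (χ : IrrCharacter G) (hχ : charDegree (χ : G → ℂ) + 1 = p) :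
    Even (Nat.card {C : ConjClasses G // ∃ g ∈ C.carrier, orderOf g = p}) ∨ Even (commutator G).index := by
  classical
  haveI : Fintype (Subgroup.zpowers x) := Fintype.ofFinite _
  have hcardP : Nat.card (Subgroup.zpowers x) = p := by rw [Nat.card_zpowers, hx]
  have hnd := sylow_of_selfCent hx hC
  by_cases hp2 : p = 2
  · right
    subst hp2
    have hk : Odd (Subgroup.zpowers x).index := Nat.odd_iff.2 (by omega)
    have hcard : Fintype.card G = 2 * (Subgroup.zpowers x).index := by
      rw [← Nat.card_eq_fintype_card, ← Subgroup.card_mul_index (Subgroup.zpowers x), hcardP]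
    have h1 := det_eq_neg_one_of_vanish (regRep (C := G) 1) x (k := (Subgroup.zpowers x).index)
      (by rw [hx]; exact even_two) hk
      (by
        rw [Module.finrank_fintype_fun_eq_card, hx, Fintype.card_prod, hcard]
        simp)
      (fun c _ hc => regRep_character_ne 1 c hc)
    exact even_index_of_det _ _ h1
  by_cases ht : Even (Nat.card {C : ConjClasses G // ∃ g ∈ C.carrier, orderOf g = p})
  · exact Or.inl ht
  right
  set t := Nat.card {C : ConjClasses G // ∃ g ∈ C.carrier, orderOf g = p} with htdef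
  have hp3 : 3 ≤ p := by
    have h1 := hp.out.two_le
    omega
  have hpodd : p % 2 = 1 := (hp.out.eq_two_or_odd).resolve_left hp2
  have hx1 : x ≠ 1 := by
    intro h
    rw [h, orderOf_one] at hx
    omega
  set e := (conjIn x x).card with hedef
  have hN : Nat.card (Subgroup.normalizer ((Subgroup.zpowers x : Subgroup G) : Set G)) = e * p :=
    (card_conjIn_mul hx hC (Subgroup.mem_zpowers x) hx1).symm
  have he : ∀ u ∈ Subgroup.zpowers x, u ≠ 1 → (conjIn x u).card = e := by
    intro u hu h1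
    have h2 := card_conjIn_mul hx hC hu h1
    rw [hN] at h2
    exact Nat.eq_of_mul_eq_mul_right hp.out.pos h2
  have hte : t * e = p - 1 := card_classes_mul hx hC he
  have htodd : t % 2 = 1 := by
    have := Nat.even_iff.not.1 ht
    omega
  have heven : 2 ∣ e := by
    have h1 : 2 ∣ t * e := by
      rw [hte]
      omega
    exact (Nat.Prime.dvd_mul Nat.prime_two).1 h1 |>.resolve_left (by omega)
  have hepos : 0 < e := by
    rcases Nat.eq_zero_or_pos e with h | h
    · rw [h] at hte
      omega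
    · exact h
  have he2 : 2 ≤ e := Nat.le_of_dvd hepos heven
  have hedvd : e ∣ p - 1 := ⟨t, by rw [← hte]; ring⟩
  have hcop : Nat.Coprime e p := by
    apply Nat.Coprime.symm
    apply (Nat.Prime.coprime_iff_not_dvd hp.out).2
    intro h
    have h1 := Nat.le_of_dvd (by omega) (h.trans hedvd)
    omega
  obtain ⟨s, hsN, hs⟩ := exists_elt_of_order hx hC hN hcop
  obtain ⟨m, hm⟩ := classInner_isCharacter_nat (IsCharacter.restrict (Subgroup.zpowers x) (IsIrrCharacter.isCharacter χ.2))
    (IsCharacter.one (G := Subgroup.zpowers x))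
  have hm' : ∑ u : Subgroup.zpowers x, (χ : G → ℂ) u = ((p * m : ℕ) : ℂ) := by
    rw [classInner_def, Nat.card_eq_fintype_card] at hm
    simp only [map_one, mul_one] at hm
    have hcard : Fintype.card (Subgroup.zpowers x) = p := by rw [← Nat.card_eq_fintype_card, hcardP]
    rw [hcard] at hm
    have hp0 : (p : ℂ) ≠ 0 := by exact_mod_cast hp.out.pos.ne'
    push_cast
    rw [← hm]
    field_simp
  obtain ⟨z, hz⟩ := inner_dvd hx hC (IsIrrCharacter.isCharacter χ.2) hm' hN hsN hs hcop rfl
  have hd : charDegree (χ : G → ℂ) = t * e := by omega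
  have hme : m = 0 ∨ e ≤ m := by
    by_cases h0 : m = 0
    · exact Or.inl h0
    right
    have h1 : (e : ℤ) ∣ (m : ℤ) := by
      rw [hd] at hz
      push_cast at hz
      exact ⟨t * 1 - z, by linear_combination -hz⟩
    have h2 : e ∣ m := by exact_mod_cast h1
    exact Nat.le_of_dvd (Nat.pos_of_ne_zero h0) h2
  have hm0 := mult_eq_zero_of_dvd hx hC he he2 hp3 χ hχ hm' hme
  rw [hm0] at hm'
  simp only [mul_zero, Nat.cast_zero] at hm'
  obtain ⟨χ₀, n, ρ, hρ, rfl⟩ := χ
  have hvan : ∀ c ∈ Subgroup.zpowers s, c ≠ 1 → ρ.character c = 0 := by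
    intro c hc h1
    have hcN : c ∈ Subgroup.normalizer ((Subgroup.zpowers x : Subgroup G) : Set G) :=
      (Subgroup.zpowers_le.2 hsN) hc
    have hcP : c ∉ Subgroup.zpowers x := by
      intro h
      have h2 := orderOf_of_mem hx h h1
      have h3 : orderOf c ∣ e := by
        rw [← hs]
        exact orderOf_dvd_of_mem_zpowers hc
      rw [h2] at h3
      have h4 := Nat.Coprime.eq_one_of_dvd hcop.symm h3
      exact hp.out.one_lt.ne' h4
    have h2 := coset_sum_eq_zero ρ (Subgroup.zpowers x) hm' c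
    have h3 : ∀ u : Subgroup.zpowers x, ρ.character (c * u) = ρ.character c := by
      intro u
      obtain ⟨w, hw, hww⟩ := conj_coset hx hC hcN hcP u.2
      rw [← hww]
      exact (Cfsg.Agent.Lib.Char.IsCharacter.isClassFunction (isCharacter_character ρ)) _ w
    rw [Finset.sum_congr rfl fun u _ => h3 u, Finset.sum_const, nsmul_eq_mul] at h2
    have hp0 : ((Finset.univ : Finset (Subgroup.zpowers x)).card : ℂ) ≠ 0 := by
      have : 0 < (Finset.univ : Finset (Subgroup.zpowers x)).card := Finset.card_pos.2 ⟨1, Finset.mem_univ _⟩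
      exact_mod_cast this.ne'
    exact (mul_eq_zero.1 h2).resolve_left hp0
  have hdim : finrank ℂ (Fin n → ℂ) = orderOf s * t := by
    have h1 : charDegree ρ.character = n := charDegree_natCast (by
      rw [Representation.char_one]
      simp)
    rw [hs]
    have h2 : n = t * e := h1 ▸ hd
    simp [h2, mul_comm]
  have h1 := det_eq_neg_one_of_vanish ρ s (k := t) (by rw [hs]; exact (even_iff_two_dvd).2 heven)
    (Nat.odd_iff.2 htodd) hdim hvan
  exact even_index_of_det _ _ h1

end Final

end Cfsg.Agent.Lib.CharExtra
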