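import Cfsg.Agent.Lib.CharExtra.SmallDeg
import Cfsg.Agent.Lib.CharExtra.Central
import Cfsg.Agent.Lib.CharExtra.Fong
import Cfsg.Agent.Lib.Degree.Linear
import Cfsg.Agent.Lib.Degree.Cod
import Cfsg.Agent.Lib.Degree.Inflate
import Cfsg.Agent.Lib.Char.QuasiPrim
import Cfsg.Agent.Lib.Core.Subnormal
import Cfsg.Agent.Lib.FStar.Hyperplane

/-!
# Faithful characters of degree `≤ p - 1` of `p`-solvable groups.
-/

set_option autoImplicit false
set_option linter.unusedSectionVars false
set_option linter.unusedSimpArgs false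
set_option linter.unusedVariables false

open scoped ComplexConjugate
open Cfsg
open Cfsg.Agent.Lib.Block Cfsg.Agent.Lib.Char

namespace Cfsg.Agent.Lib.CharExtra

section Abs

variable {A : Type*} [Group A] [Fintype A] {q p a : ℕ} [hq' : Fact q.Prime] [hp' : Fact p.Prime]
  (α : MulAut A) (hq : IsPGroup q A) (hpa : α ^ (p ^ a) = 1) (hpq : p ≠ q)
  (hne : ∃ g, α g ≠ g)
  (hmin : ∀ R : Subgroup A, (∀ r ∈ R, α r ∈ R) → R ≠ ⊤ → ∀ r ∈ R, α r = r)

/-- The fixed subgroup. -/
def fixS : Subgroup A where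
  carrier := {g | α g = g}
  mul_mem' := by
    intro a b ha hb
    simp only [Set.mem_setOf_eq] at ha hb ⊢
    rw [map_mul, ha, hb]
  one_mem' := map_one _
  inv_mem' := by
    intro a ha
    simp only [Set.mem_setOf_eq] at ha ⊢
    rw [map_inv, ha]

theorem mem_fixS {g : A} : g ∈ fixS α ↔ α g = g := Iff.rfl

include hq hpa hpq in
theorem fix_of_quad (g : A) (hd : α (g⁻¹ * α g) = g⁻¹ * α g) : α g = g := by
  set d := g⁻¹ * α g with hd'
  have h1 : α g = g * d := by rw [hd']; group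
  have h2 : ∀ k : ℕ, (α ^ k) g = g * d ^ k := by
    intro k
    induction k with
    | zero => simp
    | succ k ih =>
      rw [pow_succ', MulAut.mul_apply, ih, map_mul, h1, map_pow, hd, pow_succ']
      group
  have h3 := h2 (p ^ a)
  rw [hpa] at h3
  have h4 : d ^ p ^ a = 1 := by
    have : g = g * d ^ p ^ a := by simpa using h3
    exact mul_eq_left.1 this.symm
  obtain ⟨s, hs⟩ := hq d
  have h5 : orderOf d ∣ p ^ a := orderOf_dvd_of_pow_eq_one h4
  have h6 : orderOf d ∣ q ^ s := orderOf_dvd_of_pow_eq_one hs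
  have h7 : Nat.Coprime (p ^ a) (q ^ s) := Nat.Coprime.pow _ _ ((Nat.coprime_primes hp'.out hq'.out).2 hpq)
  have h8 : orderOf d = 1 := Nat.eq_one_of_dvd_coprimes h7 h5 h6
  have h9 : d = 1 := orderOf_eq_one_iff.1 h8
  rw [h1, h9, mul_one]

include hq hpa hpq hne hmin in
theorem eq_top_of_quot (K : Subgroup A) (hinv : ∀ r ∈ K, α r ∈ K) (hK : ∀ g, g⁻¹ * α g ∈ K) : K = ⊤ := by
  by_contra hK'
  have h1 := hmin K hinv hK'
  obtain ⟨g, hg⟩ := hne
  exact hg (fix_of_quad α hq hpa hpq g (h1 _ (hK g)))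

include hq hne hmin in
theorem fixS_normal : (fixS α).Normal := by
  haveI : Group.IsNilpotent A := hq.isNilpotent
  have hlt : fixS α < ⊤ := by
    rw [lt_top_iff_ne_top]
    intro h0
    obtain ⟨g, hg⟩ := hne
    have : g ∈ fixS α := by rw [h0]; trivial
    exact hg this
  have h1 := normalizerCondition_of_isNilpotent (G := A) (fixS α) hlt
  have hN : Subgroup.normalizer ((fixS α : Subgroup A) : Set A) = ⊤ := by
    by_contra hN'
    have h2 := hmin _ ?_ hN'
    · obtain ⟨x, hx, hx'⟩ := SetLike.exists_of_lt h1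
      exact hx' (h2 x hx)
    · intro r hr
      rw [Subgroup.mem_normalizer_iff] at hr ⊢
      intro h₀
      have hfix : ∀ c, c ∈ fixS α → α c = c := fun c hc => hc
      constructor
      · intro hh
        have h3 := (hr h₀).1 hh
        have h4 : α r * h₀ * (α r)⁻¹ = α (r * h₀ * r⁻¹) := by
          rw [map_mul, map_mul, map_inv, hfix h₀ hh]
        rw [h4, hfix _ h3]
        exact h3
      · intro hh
        have h3 : α (r * (α⁻¹ h₀) * r⁻¹) = α r * h₀ * (α r)⁻¹ := by
          rw [map_mul, map_mul, map_inv]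
          simp
        have h4 : r * (α⁻¹ h₀) * r⁻¹ = α⁻¹ (α r * h₀ * (α r)⁻¹) := by
          rw [← h3]
          simp
        have h5 : α⁻¹ (α r * h₀ * (α r)⁻¹) = α r * h₀ * (α r)⁻¹ := by
          have := hfix _ hh
          conv_lhs => rw [← this]
          simp
        have h6 : r * (α⁻¹ h₀) * r⁻¹ ∈ fixS α := by
          rw [h4, h5]
          exact hh
        have h7 : α⁻¹ h₀ ∈ fixS α := (hr _).2 h6
        have h8 : α (α⁻¹ h₀) = α⁻¹ h₀ := h7
        have h9 : α (α⁻¹ h₀) = h₀ := by simp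
        have h10 : α⁻¹ h₀ = h₀ := by rw [← h8, h9]
        rw [h10] at h7
        exact h7
  exact Subgroup.normalizer_eq_top_iff.1 hN

include hq hpa hpq hne hmin in
theorem fixS_central {c : A} (hc : c ∈ fixS α) (g : A) : g * c = c * g := by
  classical
  haveI hn := fixS_normal α hq hne hmin
  have hK := eq_top_of_quot α hq hpa hpq hne hmin (Subgroup.centralizer ((fixS α : Subgroup A) : Set A)) ?_ ?_
  · have : g ∈ Subgroup.centralizer ((fixS α : Subgroup A) : Set A) := by rw [hK]; trivial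
    exact ((Subgroup.mem_centralizer_iff.1 this) c hc).symm
  · intro r hr
    rw [Subgroup.mem_centralizer_iff] at hr ⊢
    intro h₀ hh
    have h1 := hr h₀ hh
    have h2 : α h₀ = h₀ := hh
    calc h₀ * α r = α h₀ * α r := by rw [h2]
      _ = α (h₀ * r) := by rw [map_mul]
      _ = α (r * h₀) := by rw [h1]
      _ = α r * α h₀ := by rw [map_mul]
      _ = α r * h₀ := by rw [h2]
  · intro g₀
    rw [Subgroup.mem_centralizer_iff]
    intro h₀ hh
    have h1 : α h₀ = h₀ := hh
    have h2 : g₀ * h₀ * g₀⁻¹ ∈ fixS α := hn.conj_mem _ hh _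
    have h3 : α (g₀ * h₀ * g₀⁻¹) = g₀ * h₀ * g₀⁻¹ := h2
    rw [map_mul, map_mul, map_inv, h1] at h3
    -- `α g₀ h₀ (α g₀)⁻¹ = g₀ h₀ g₀⁻¹`
    have h4 : (g₀⁻¹ * α g₀) * h₀ = h₀ * (g₀⁻¹ * α g₀) := by
      have h5 : α g₀ * h₀ = g₀ * h₀ * g₀⁻¹ * α g₀ := by
        rw [← h3]; group
      calc (g₀⁻¹ * α g₀) * h₀ = g₀⁻¹ * (α g₀ * h₀) := by group
        _ = g₀⁻¹ * (g₀ * h₀ * g₀⁻¹ * α g₀) := by rw [h5]
        _ = _ := by group
    exact h4.symm

include hq hpa hpq hne hmin in
theorem comm_mem_fixS (g h : A) : g * h * g⁻¹ * h⁻¹ ∈ fixS α := by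
  classical
  haveI : Nontrivial A := by
    obtain ⟨g, hg⟩ := hne
    refine ⟨g, 1, ?_⟩
    rintro rfl
    exact hg (map_one _)
  haveI : Group.IsSolvable A := by
    haveI : Group.IsNilpotent A := hq.isNilpotent
    infer_instance
  have hlt : commutator A < ⊤ := Group.IsSolvable.commutator_lt_top_of_nontrivial A
  have h1 := hmin (commutator A) ?_ hlt.ne
  · exact h1 _ (Subgroup.commutator_mem_commutator (Subgroup.mem_top g) (Subgroup.mem_top h))
  · intro r hr
    have h2 : (commutator A).map α.toMonoidHom ≤ commutator A := by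
      rw [commutator_def, Subgroup.map_commutator]
      exact Subgroup.commutator_mono le_top le_top
    exact h2 ⟨r, hr, rfl⟩

include hq hpa hpq hne hmin in
/-- An invariant linear character is trivial. -/
theorem lin_inv_trivial (θ : IrrCharacter A) (h1 : (θ : A → ℂ) 1 = 1)
    (hinv : ∀ g, (θ : A → ℂ) (α g) = (θ : A → ℂ) g) (g : A) : (θ : A → ℂ) g = 1 := by
  let f : A →* ℂˣ := (Cfsg.Agent.Lib.Degree.linearHom θ h1).toHomUnits
  have hf : ∀ g, ((f g : ℂˣ) : ℂ) = (θ : A → ℂ) g := fun g => rfl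
  have hK := eq_top_of_quot α hq hpa hpq hne hmin f.ker ?_ ?_
  · have h2 : g ∈ f.ker := by rw [hK]; trivial
    have h3 := MonoidHom.mem_ker.1 h2
    rw [← hf, h3]; rfl
  · intro r hr
    rw [MonoidHom.mem_ker] at hr ⊢
    apply Units.ext
    have h3 : (θ : A → ℂ) r = 1 := by rw [← hf, hr]; rfl
    change (θ : A → ℂ) (α r) = 1
    rw [hinv, h3]
  · intro g
    rw [MonoidHom.mem_ker, map_mul, map_inv]
    have h3 : f (α g) = f g := Units.ext (hinv g)
    rw [h3, inv_mul_cancel]

include hq hpa hpq hne hmin in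
/-- The degree of a nonlinear irreducible character. -/
theorem nonlin_sq (θ : IrrCharacter A) (h1 : (θ : A → ℂ) 1 ≠ 1) :
    charDegree (θ : A → ℂ) ^ 2 * Nat.card (fixS α) = Nat.card A := by
  classical
  have hC : fixS α ≤ Subgroup.center A := by
    intro c hc
    rw [Subgroup.mem_center_iff]
    intro g
    exact fixS_central α hq hpa hpq hne hmin hc g
  have hθ := IsIrrCharacter.isCharacter θ.2
  have h0 : (θ : A → ℂ) 1 ≠ 0 := map_one_ne_zero_of_irr θ.2
  haveI hKn : (Cfsg.Agent.Lib.Degree.kerOf (θ : A → ℂ)).Normal :=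
    Cfsg.Agent.Lib.Degree.kerOf_normal (IsCharacter.isClassFunction hθ)
  set K := Cfsg.Agent.Lib.Degree.kerOf (θ : A → ℂ) with hK
  let D : Subgroup A := (Subgroup.center (A ⧸ K)).comap (QuotientGroup.mk' K)
  have hD : ∀ g, g ∈ D ↔ ∀ h, g * h * g⁻¹ * h⁻¹ ∈ K := by
    intro g
    constructor
    · intro hg h
      have h2 : (QuotientGroup.mk' K g) ∈ Subgroup.center (A ⧸ K) := hg
      rw [Subgroup.mem_center_iff] at h2
      have h3 := h2 (QuotientGroup.mk' K h)
      rw [← map_mul, ← map_mul] at h3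
      have h4 := (QuotientGroup.eq_iff_div_mem (N := K)).1 h3
      -- `h * g * (g * h)⁻¹ ∈ K`
      have h5 : (g * h * g⁻¹ * h⁻¹) = (h * g * (g * h)⁻¹)⁻¹ := by group
      rw [h5]
      exact K.inv_mem (by simpa [div_eq_mul_inv] using h4)
    · intro h
      change QuotientGroup.mk' K g ∈ Subgroup.center (A ⧸ K)
      rw [Subgroup.mem_center_iff]
      intro y
      obtain ⟨y, rfl⟩ := QuotientGroup.mk'_surjective K y
      rw [← map_mul, ← map_mul]
      have h5 : (y * g * (g * y)⁻¹) = (g * y * g⁻¹ * y⁻¹)⁻¹ := by group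
      refine (QuotientGroup.eq_iff_div_mem (N := K)).2 ?_
      rw [div_eq_mul_inv, h5]
      exact K.inv_mem (h y)
  have hαfix : ∀ g h, α (g * h * g⁻¹ * h⁻¹) = g * h * g⁻¹ * h⁻¹ :=
    fun g h => comm_mem_fixS α hq hpa hpq hne hmin g h
  have hDinv : ∀ r ∈ D, α r ∈ D := by
    intro r hr
    rw [hD] at hr ⊢
    intro h
    have h2 := hr (α⁻¹ h)
    have h3 := hαfix r (α⁻¹ h)
    have h4 : α (r * (α⁻¹ h) * r⁻¹ * (α⁻¹ h)⁻¹) = α r * h * (α r)⁻¹ * h⁻¹ := by
      simp [map_mul, map_inv]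
    rw [← h4, h3]
    exact h2
  have hDne : D ≠ ⊤ := by
    intro hDt
    apply h1
    have hcomm : ∀ a b : A ⧸ K, a * b = b * a := by
      intro a b
      obtain ⟨a, rfl⟩ := QuotientGroup.mk'_surjective K a
      have : a ∈ D := by rw [hDt]; trivial
      exact ((Subgroup.mem_center_iff.1 this) b).symm
    have hkc : Cfsg.Agent.Lib.Degree.KerContains K (θ : A → ℂ) := by
      intro n hn
      exact (Cfsg.Agent.Lib.Degree.mem_kerOf_iff hθ).1 hn
    obtain ⟨ψ, hψ⟩ := Cfsg.Agent.Lib.Degree.exists_inflate K hkc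
    have h3 : (ψ : A ⧸ K → ℂ) 1 = 1 := charDegree_eq_one_of_comm hcomm ψ.2
    rw [← hψ, Cfsg.Agent.Lib.Degree.inflate_apply]
    exact h3
  have hDfix := hmin D hDinv hDne
  -- vanishing off `C`
  have hvan : ∀ g, g ∉ fixS α → (θ : A → ℂ) g = 0 := by
    intro g hg
    have hgD : g ∉ D := fun hh => hg (hDfix g hh)
    rw [hD] at hgD
    push Not at hgD
    obtain ⟨h, hh⟩ := hgD
    set c := g * h * g⁻¹ * h⁻¹ with hc
    have hcC : c ∈ fixS α := hαfix g h
    have h2 : g = (h * g * h⁻¹) * c := by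
      have h3 := fixS_central α hq hpa hpq hne hmin hcC (h * g * h⁻¹)
      rw [h3, hc]
      group
    have h3 := Cfsg.Agent.Lib.CharExtra.irr_mul_central θ (hC hcC) (h * g * h⁻¹)
    rw [← h2] at h3
    have h4 : (θ : A → ℂ) (h * g * h⁻¹) = (θ : A → ℂ) g :=
      (IsCharacter.isClassFunction hθ) g h
    rw [h4] at h3
    have h5 : (θ : A → ℂ) c ≠ (θ : A → ℂ) 1 := by
      intro h6
      exact hh ((Cfsg.Agent.Lib.Degree.mem_kerOf_iff hθ).2 h6)
    by_contra h6
    apply h5
    have h7 : (θ : A → ℂ) g * (θ : A → ℂ) 1 = (θ : A → ℂ) g * (θ : A → ℂ) c := by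
      have h8 : (θ : A → ℂ) g * (θ : A → ℂ) 1 = ((θ : A → ℂ) g * (θ : A → ℂ) c / (θ : A → ℂ) 1) * (θ : A → ℂ) 1 := by
        rw [← h3]
      rw [h8]
      field_simp
    exact (mul_left_cancel₀ h6 h7).symm
  -- values on `C`
  have hval : ∀ c ∈ fixS α, (θ : A → ℂ) c * conj ((θ : A → ℂ) c) = (θ : A → ℂ) 1 * (θ : A → ℂ) 1 := by
    intro c hc
    rw [← IsCharacter.map_inv' hθ c]
    have h2 := Cfsg.Agent.Lib.CharExtra.irr_mul_central θ (hC hc) c⁻¹
    rw [inv_mul_cancel] at h2
    have h3 : (θ : A → ℂ) 1 * (θ : A → ℂ) 1 = ((θ : A → ℂ) c⁻¹ * (θ : A → ℂ) c / (θ : A → ℂ) 1) * (θ : A → ℂ) 1 := by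
      rw [← h2]
    rw [h3]
    field_simp
  have hnorm := classInner_irr_self θ.2
  rw [classInner_def] at hnorm
  have hsum : ∑ g : A, (θ : A → ℂ) g * conj ((θ : A → ℂ) g) =
      ∑ g ∈ Finset.univ.filter (· ∈ fixS α), (θ : A → ℂ) 1 * (θ : A → ℂ) 1 := by
    rw [← Finset.sum_filter_add_sum_filter_not Finset.univ (· ∈ fixS α)]
    have h2 : ∑ g ∈ Finset.univ.filter (fun g => ¬ g ∈ fixS α), (θ : A → ℂ) g * conj ((θ : A → ℂ) g) = 0 := by
      refine Finset.sum_eq_zero fun g hg => ?_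
      rw [hvan g (Finset.mem_filter.1 hg).2, zero_mul]
    rw [h2, add_zero]
    exact Finset.sum_congr rfl fun g hg => hval g (Finset.mem_filter.1 hg).2
  rw [hsum, Finset.sum_const, nsmul_eq_mul] at hnorm
  have hcardC : (Finset.univ.filter (· ∈ fixS α)).card = Nat.card (fixS α) := by
    rw [Nat.card_eq_fintype_card, Fintype.card_subtype]
  rw [hcardC, map_one_eq_charDegree hθ] at hnorm
  have hA : (Nat.card A : ℂ) ≠ 0 := by exact_mod_cast Nat.card_pos.ne'
  have h3 : ((charDegree (θ : A → ℂ) ^ 2 * Nat.card (fixS α) : ℕ) : ℂ) = (Nat.card A : ℂ) := by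
    push_cast
    field_simp at hnorm
    linear_combination hnorm
  exact_mod_cast h3

include hpa in
theorem card_modEq_fixS : Nat.card A ≡ Nat.card (fixS α) [MOD p] := by
  classical
  let E := Subgroup.zpowers α
  have hE : IsPGroup p E := by
    rintro ⟨β, hβ⟩
    obtain ⟨k, rfl⟩ := Subgroup.mem_zpowers_iff.1 hβ
    refine ⟨a, ?_⟩
    apply Subtype.ext
    simp only [SubmonoidClass.coe_pow, OneMemClass.coe_one]
    rw [← zpow_natCast, ← zpow_mul, mul_comm, zpow_mul, zpow_natCast, hpa, one_zpow]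
  have h1 := hE.card_modEq_card_fixedPoints A
  have e : Nat.card (MulAction.fixedPoints E A) = Nat.card (fixS α) := by
    apply Nat.card_congr
    refine Equiv.subtypeEquivRight (fun x => ?_)
    rw [MulAction.mem_fixedPoints]
    constructor
    · intro h
      exact h ⟨α, Subgroup.mem_zpowers α⟩
    · rintro (h : α x = x) ⟨β, hβ⟩
      obtain ⟨k, rfl⟩ := Subgroup.mem_zpowers_iff.1 hβ
      change (α ^ k) x = x
      have h2 : x ∈ MulAction.fixedBy A α := h
      have h3 : x ∈ MulAction.fixedBy A (α ^ k) := by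
        have : (Subgroup.zpowers α) ≤ MulAction.stabilizer (MulAut A) x := by
          rw [Subgroup.zpowers_le]
          exact h
        exact this (Subgroup.zpow_mem_zpowers α k)
      exact h3
  rw [e] at h1
  exact h1

include hq hpa hpq hne hmin in
/-- The degree of a nonlinear irreducible character of degree `< p` is `p - 1`. -/
theorem nonlin_degree (θ : IrrCharacter A) (h1 : (θ : A → ℂ) 1 ≠ 1)
    (hd : charDegree (θ : A → ℂ) + 1 ≤ p) : charDegree (θ : A → ℂ) + 1 = p := by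
  classical
  have hsq := nonlin_sq α hq hpa hpq hne hmin θ h1
  have hmod := card_modEq_fixS (A := A) α hpa (p := p)
  rw [← hsq] at hmod
  set d := charDegree (θ : A → ℂ) with hd'
  set c := Nat.card (fixS α) with hc'
  have hcop : Nat.Coprime c p := by
    have hq2 : IsPGroup q (fixS α) := IsPGroup.to_subgroup hq (fixS α)
    obtain ⟨k, hk⟩ := IsPGroup.iff_card.1 hq2
    rw [hc', hk]
    exact Nat.Coprime.pow_left _ ((Nat.coprime_primes hq'.out hp'.out).2 hpq.symm)
  have h2 : d ^ 2 ≡ 1 [MOD p] := by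
    have h3 : d ^ 2 * c ≡ 1 * c [MOD p] := by simpa using hmod
    exact Nat.ModEq.cancel_right_of_coprime (by rwa [Nat.coprime_comm, Nat.coprime_iff_gcd_eq_one] at hcop) h3
  have hdpos : 0 < d := charDegree_pos_of_irr θ.2
  have hd1 : d ≠ 1 := by
    intro h3
    apply h1
    rw [map_one_eq_charDegree (IsIrrCharacter.isCharacter θ.2), ← hd', h3]
    simp
  have h3 : p ∣ (d - 1) * (d + 1) := by
    have h4 : (1 : ℕ) ≤ d ^ 2 := Nat.one_le_pow _ _ hdpos
    have h5 := (Nat.modEq_iff_dvd' h4).1 h2.symm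
    have h6 : d ^ 2 - 1 = (d - 1) * (d + 1) := by
      obtain ⟨e, he⟩ : ∃ e, d = e + 1 := ⟨d - 1, by omega⟩
      rw [he]
      simp only [Nat.add_sub_cancel]
      have : (e + 1) ^ 2 = e * (e + 1 + 1) + 1 := by ring
      omega
    rwa [h6] at h5
  rcases (Nat.Prime.dvd_mul hp'.out).1 h3 with h4 | h4
  · have h5 := Nat.le_of_dvd (by omega) h4
    omega
  · have h5 := Nat.le_of_dvd (by omega) h4
    omega

end Abs

section GenericOrbit

variable {E X : Type*} [Group E] [MulAction E X] [Fintype X]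

open Classical in
theorem orbit_mul_le_sum (f : X → ℕ) (hinv : ∀ (g : E) x, f (g • x) = f x) (x₀ : X) :
    Nat.card (MulAction.orbit E x₀) * f x₀ ≤ ∑ x, f x := by
  have h1 : ∀ x ∈ Finset.univ.filter (· ∈ MulAction.orbit E x₀), f x = f x₀ := by
    intro x hx
    obtain ⟨g, rfl⟩ := (Finset.mem_filter.1 hx).2
    exact hinv g x₀
  have h2 : ∑ x ∈ Finset.univ.filter (· ∈ MulAction.orbit E x₀), f x =
      Nat.card (MulAction.orbit E x₀) * f x₀ := by
    rw [Finset.sum_congr rfl h1, Finset.sum_const, smul_eq_mul]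
    congr 1
    rw [Nat.card_eq_fintype_card, Fintype.card_subtype]
  rw [← h2]
  exact Finset.sum_le_sum_of_subset (Finset.filter_subset _ _)

end GenericOrbit

section Main

variable {G : Type*} [Group G] [Fintype G] {p : ℕ} [hp : Fact p.Prime]

/-- A faithful character of degree `< p` of a `p`-group forces commutativity. -/
theorem comm_of_small_faithful {H : Type*} [Group H] [Fintype H] (hH : IsPGroup p H) {ψ : H → ℂ}
    (hψ : IsCharacter H ψ) (hf : ∀ g, ψ g = ψ 1 → g = 1) (hd : charDegree ψ < p) (a b : H) :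
    a * b = b * a := by
  classical
  choose c hc using fun θ : IrrCharacter H => classInner_isCharacter_nat hψ
    (IsIrrCharacter.isCharacter θ.2)
  have hexp : ∀ g, ψ g = ∑ θ : IrrCharacter H, (c θ : ℂ) * (θ : H → ℂ) g := by
    intro g
    conv_lhs => rw [classFunction_eq_sum ψ (IsCharacter.isClassFunction hψ)]
    simp only [Finset.sum_apply, Pi.smul_apply, smul_eq_mul]
    exact Finset.sum_congr rfl fun θ _ => by rw [hc θ]
  have hlin : ∀ θ : IrrCharacter H, c θ ≠ 0 → (θ : H → ℂ) 1 = 1 := by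
    intro θ h0
    have h1 : classInner ψ (θ : H → ℂ) ≠ 0 := by rw [hc θ]; exact_mod_cast h0
    have h2 := charDegree_le_of_constituent hψ θ.2 h1
    have h3 := charDegree_dvd_card θ.2
    obtain ⟨k, hk⟩ := IsPGroup.iff_card.1 hH
    rw [hk] at h3
    obtain ⟨m, -, hm⟩ := (Nat.dvd_prime_pow hp.out).1 h3
    have h4 : m = 0 := by
      by_contra h5
      have h6 : p ≤ p ^ m := Nat.le_self_pow h5 p
      omega
    rw [map_one_eq_charDegree (IsIrrCharacter.isCharacter θ.2), hm, h4]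
    simp
  have hk : ψ (a * b * a⁻¹ * b⁻¹) = ψ 1 := by
    rw [hexp, hexp]
    refine Finset.sum_congr rfl fun θ _ => ?_
    by_cases h : c θ = 0
    · simp [h]
    · have h1 := hlin θ h
      have hmem : a * b * a⁻¹ * b⁻¹ ∈ commutator H :=
        Subgroup.commutator_mem_commutator (Subgroup.mem_top a) (Subgroup.mem_top b)
      rw [Cfsg.Agent.Lib.Degree.irr_linear_commutator θ h1 hmem, h1]
  have h2 := hf _ hk
  have h3 : a * b * a⁻¹ * b⁻¹ * (b * a) = b * a := by rw [h2, one_mul]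
  have h4 : a * b * a⁻¹ * b⁻¹ * (b * a) = a * b := by group
  rw [← h4, h3]

/-- Conjugation on an invariant subgroup as an automorphism. -/
noncomputable def conjOnInv (N₀ : Subgroup G) (x : G) (h : ∀ r ∈ N₀, x * r * x⁻¹ ∈ N₀) : MulAut N₀ :=
  MulEquiv.ofBijective
    ({ toFun := fun a => ⟨x * a * x⁻¹, h a a.2⟩
       map_one' := by apply Subtype.ext; simp
       map_mul' := fun a b => by apply Subtype.ext; simp [mul_assoc] } : N₀ →* N₀)
    (Finite.injective_iff_bijective.1 (by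
      intro a b hab
      apply Subtype.ext
      have h1 : x * (a : G) * x⁻¹ = x * b * x⁻¹ := congrArg Subtype.val hab
      simpa using h1))

theorem conjOnInv_coe (N₀ : Subgroup G) (x : G) (h : ∀ r ∈ N₀, x * r * x⁻¹ ∈ N₀) (a : N₀) :
    ((conjOnInv N₀ x h a : N₀) : G) = x * a * x⁻¹ := rfl

theorem conjOnInv_pow_coe (N₀ : Subgroup G) (x : G) (h : ∀ r ∈ N₀, x * r * x⁻¹ ∈ N₀) (k : ℕ) (a : N₀) :
    (((conjOnInv N₀ x h) ^ k) a : N₀).1 = x ^ k * a * (x ^ k)⁻¹ := by
  induction k with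
  | zero => simp
  | succ k ih =>
    rw [pow_succ', MulAut.mul_apply, conjOnInv_coe, ih]
    group

/-- Precomposition with an automorphism as a permutation of the irreducible characters. -/
noncomputable def precompIrr {A : Type*} [Group A] (α : MulAut A) : Equiv.Perm (IrrCharacter A) where
  toFun θ := ⟨(θ : A → ℂ) ∘ α, Cfsg.Agent.Lib.Char.isIrr_comp_equiv α θ.2⟩
  invFun θ := ⟨(θ : A → ℂ) ∘ α.symm, Cfsg.Agent.Lib.Char.isIrr_comp_equiv α.symm θ.2⟩
  left_inv θ := by
    apply Subtype.ext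
    funext g
    simp
  right_inv θ := by
    apply Subtype.ext
    funext g
    simp

theorem precompIrr_pow {A : Type*} [Group A] (α : MulAut A) (k : ℕ) (θ : IrrCharacter A) (g : A) :
    (((precompIrr α) ^ k) θ : A → ℂ) g = (θ : A → ℂ) ((α ^ k) g) := by
  induction k generalizing g with
  | zero => simp
  | succ k ih =>
    rw [pow_succ', Equiv.Perm.mul_apply, pow_succ, MulAut.mul_apply]
    change (((precompIrr α) ^ k) θ : A → ℂ) (α g) = _
    rw [ih]

/-- A `p`-power automorphism fixes the constituents of degree one of an invariant character of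
degree `< p`. -/
theorem constituent_fixed {A : Type*} [Group A] [Fintype A] {a : ℕ} (α : MulAut A)
    (hpa : α ^ (p ^ a) = 1) {ψ : A → ℂ} (hψ : IsCharacter A ψ) (hinv : ∀ g, ψ (α g) = ψ g)
    (hd : charDegree ψ < p) (θ : IrrCharacter A) (hc : classInner ψ (θ : A → ℂ) ≠ 0) (g : A) :
    (θ : A → ℂ) (α g) = (θ : A → ℂ) g := by
  classical
  let σ := precompIrr α
  have hσ : σ ^ (p ^ a) = 1 := by
    ext θ g
    change ((σ ^ (p ^ a)) θ : A → ℂ) g = (θ : A → ℂ) g
    rw [precompIrr_pow, hpa]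
    rfl
  let E := Subgroup.zpowers σ
  have hE : IsPGroup p E := by
    rintro ⟨β, hβ⟩
    obtain ⟨k, rfl⟩ := Subgroup.mem_zpowers_iff.1 hβ
    refine ⟨a, ?_⟩
    apply Subtype.ext
    simp only [SubmonoidClass.coe_pow, OneMemClass.coe_one]
    rw [← zpow_natCast, ← zpow_mul, mul_comm, zpow_mul, zpow_natCast, hσ, one_zpow]
  choose b hb using fun θ : IrrCharacter A => classInner_isCharacter_nat hψ
    (IsIrrCharacter.isCharacter θ.2)
  let f : IrrCharacter A → ℕ := fun θ => b θ * charDegree (θ : A → ℂ)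
  have hdeg : ∀ θ : IrrCharacter A, charDegree ((σ θ : IrrCharacter A) : A → ℂ) = charDegree (θ : A → ℂ) := by
    intro θ
    unfold charDegree
    have : ((σ θ : IrrCharacter A) : A → ℂ) 1 = (θ : A → ℂ) 1 := by
      change (θ : A → ℂ) (α 1) = _
      rw [map_one]
    rw [this]
  have hbσ : ∀ θ, b (σ θ) = b θ := by
    intro θ
    have h1 : classInner ψ ((σ θ : IrrCharacter A) : A → ℂ) = classInner ψ (θ : A → ℂ) := by
      have h2 : ψ = ψ ∘ α := by
        funext g
        exact (hinv g).symm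
      conv_lhs => rw [h2]
      exact Cfsg.Agent.Lib.Char.classInner_comp_equiv α ψ θ
    rw [hb, hb] at h1
    exact_mod_cast h1
  have hfσ : ∀ θ, f (σ θ) = f θ := by
    intro θ
    simp only [f]
    rw [hbσ, hdeg]
  have hfE : ∀ (g : E) θ, f (g • θ) = f θ := by
    rintro ⟨β, hβ⟩ θ
    obtain ⟨k, rfl⟩ := Subgroup.mem_zpowers_iff.1 hβ
    change f ((σ ^ k) θ) = f θ
    induction k using Int.induction_on generalizing θ with
    | zero => simp
    | succ k ih =>
      rw [zpow_add_one, Equiv.Perm.mul_apply, ih, hfσ]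
      exact Subgroup.zpow_mem_zpowers σ _
    | pred k ih =>
      have h1 : f θ = f (σ (σ⁻¹ θ)) := by simp
      rw [zpow_sub_one, Equiv.Perm.mul_apply, ih, h1, hfσ]
      exact Subgroup.zpow_mem_zpowers σ _
  have hle := orbit_mul_le_sum f hfE θ
  have hsum : ∑ θ', f θ' = charDegree ψ := by
    have h1 : ψ 1 = ∑ θ : IrrCharacter A, (b θ : ℂ) * (θ : A → ℂ) 1 := by
      conv_lhs => rw [classFunction_eq_sum ψ (IsCharacter.isClassFunction hψ)]
      simp only [Finset.sum_apply, Pi.smul_apply, smul_eq_mul]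
      exact Finset.sum_congr rfl fun θ _ => by rw [hb θ]
    have h2 : (charDegree ψ : ℂ) = ((∑ θ', f θ' : ℕ) : ℂ) := by
      rw [← map_one_eq_charDegree hψ, h1]
      push_cast
      refine Finset.sum_congr rfl fun θ _ => ?_
      simp only [f]
      push_cast
      rw [map_one_eq_charDegree (IsIrrCharacter.isCharacter θ.2)]
    exact_mod_cast h2.symm
  rw [hsum] at hle
  have hfpos : 1 ≤ f θ := by
    have h1 : b θ ≠ 0 := by
      intro h2
      apply hc
      rw [hb, h2]
      simp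
    have h2 := charDegree_pos_of_irr θ.2
    exact Nat.mul_pos (Nat.pos_of_ne_zero h1) h2
  obtain ⟨n, hn⟩ := IsPGroup.card_orbit hE θ
  have hn0 : n = 0 := by
    by_contra h1
    have h2 : p ≤ p ^ n := Nat.le_self_pow h1 p
    rw [hn] at hle
    have h3 : p ^ n * 1 ≤ p ^ n * f θ := Nat.mul_le_mul_left _ hfpos
    omega
  have hone : Nat.card (MulAction.orbit E θ) = 1 := by simpa [hn0] using hn
  have hfix : σ θ = θ := by
    have h1 := (Nat.card_eq_one_iff_unique.1 hone).1
    have h2 : (⟨(⟨σ, Subgroup.mem_zpowers σ⟩ : E) • θ, MulAction.mem_orbit _ _⟩ : MulAction.orbit E θ) =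
        ⟨θ, MulAction.mem_orbit_self _⟩ := h1.elim _ _
    exact congrArg Subtype.val h2
  have h3 : ((σ θ : IrrCharacter A) : A → ℂ) g = (θ : A → ℂ) g := by rw [hfix]
  exact h3

/-- A character all of whose irreducible constituents are trivial has its group in the kernel. -/
theorem eq_map_one_of_constituents {A : Type*} [Group A] [Fintype A] {ψ : A → ℂ} (hψ : IsCharacter A ψ)
    (g : A) (h : ∀ θ : IrrCharacter A, classInner ψ (θ : A → ℂ) ≠ 0 → (θ : A → ℂ) g = (θ : A → ℂ) 1) :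
    ψ g = ψ 1 := by
  classical
  rw [classFunction_eq_sum ψ (IsCharacter.isClassFunction hψ)]
  simp only [Finset.sum_apply, Pi.smul_apply, smul_eq_mul]
  refine Finset.sum_congr rfl fun θ _ => ?_
  by_cases h0 : classInner ψ (θ : A → ℂ) = 0
  · simp [h0]
  · rw [h θ h0]

/-- **Main theorem**. -/
theorem small_faith_main {χ : G → ℂ} (hχ : IsCharacter G χ) (hfaith : ∀ g, χ g = χ 1 → g = 1)
    (hsolv : IsPSolvable p G) (hnp : charDegree χ + 1 ≤ p) (P : Sylow p G)
    (hP : ¬ (P : Subgroup G).Normal) :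
    charDegree χ + 1 = p ∧ (∃ k : ℕ, charDegree χ = 2 ^ k) ∧ IsIrrCharacter G χ := by
  classical
  haveI : Fintype (P : Subgroup G) := Fintype.ofFinite _
  have hdegres : ∀ H : Subgroup G, charDegree (fun u : H => χ u) = charDegree χ := by
    intro H
    unfold charDegree
    rfl
  have hcomm : ∀ u ∈ (P : Subgroup G), ∀ v ∈ (P : Subgroup G), u * v = v * u := by
    intro u hu v hv
    have h1 := comm_of_small_faithful (H := (P : Subgroup G)) (p := p) P.isPGroup' (ψ := fun u => χ u)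
      (IsCharacter.restrict _ hχ)
      (fun g hg => Subtype.ext (hfaith _ (by simpa using hg)))
      (by rw [hdegres]; omega) ⟨u, hu⟩ ⟨v, hv⟩
    exact congrArg Subtype.val h1
  haveI hFn : (pPrimePCore p G).Normal := Cfsg.Agent.Lib.Techniques.pPrimePCore_normal p
  haveI hNn : (pPrimeCore p G).Normal := inferInstance
  have hPF : (P : Subgroup G) ≤ pPrimePCore p G := by
    have hQF : (P : Subgroup G) ⊓ pPrimePCore p G ≤ pPrimePCore p G := inf_le_right
    have hQp : IsPGroup p ((P : Subgroup G) ⊓ pPrimePCore p G : Subgroup G) :=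
      P.isPGroup'.to_le inf_le_left
    have hQi : ¬ p ∣ ((P : Subgroup G) ⊓ pPrimePCore p G).relIndex (pPrimePCore p G) := by
      rw [Subgroup.inf_relIndex_right]
      exact Cfsg.Agent.Lib.Core.not_dvd_relIndex_of_subnormal (P : Subgroup G) _ hFn.isSubnormal P.not_dvd_index
    have h1 := centralizer_le_pPrimePCore_of_psolvable hsolv hQF hQp hQi
    intro u hu
    apply h1
    rw [Subgroup.mem_centralizer_iff]
    intro v hv
    exact hcomm v hv.1 u hu
  have hex : ∃ x ∈ (P : Subgroup G), ∃ g ∈ pPrimeCore p G, x * g * x⁻¹ ≠ g := by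
    by_contra hcon
    push Not at hcon
    apply hP
    have hcom : ∀ y ∈ (P : Subgroup G), ∀ m ∈ pPrimeCore p G, m * y = y * m := by
      intro y hy m hm
      have h1 := hcon y hy m hm
      have h2 : y * m * y⁻¹ * y = m * y := by rw [h1]
      rw [← h2]
      group
    have hFN : pPrimePCore p G ≤ Subgroup.normalizer ((P : Subgroup G) : Set G) := by
      intro f hf
      let PN : Sylow p (G ⧸ pPrimeCore p G) :=
        Sylow.mapSurjective (QuotientGroup.mk'_surjective (pPrimeCore p G)) P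
      have h1 : QuotientGroup.mk' (pPrimeCore p G) f ∈ pCore p (G ⧸ pPrimeCore p G) := hf
      have h2 := Cfsg.Agent.Lib.Core.pCore_le_sylow PN h1
      rw [Sylow.coe_mapSurjective] at h2
      obtain ⟨u, hu, hum⟩ := h2
      have h3 : u⁻¹ * f ∈ pPrimeCore p G := by
        rw [← QuotientGroup.eq]
        exact hum
      have hmN : (u⁻¹ * f) ∈ Subgroup.normalizer ((P : Subgroup G) : Set G) := by
        rw [Subgroup.mem_normalizer_iff]
        intro v
        constructor
        · intro hv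
          have h4 := hcom v hv _ h3
          have h5 : (u⁻¹ * f) * v * (u⁻¹ * f)⁻¹ = v := by rw [h4]; group
          rwa [h5]
        · intro hv
          have h4 := hcom _ hv _ h3
          generalize hw : (u⁻¹ * f) * v * (u⁻¹ * f)⁻¹ = w at h4 hv
          generalize hm : u⁻¹ * f = m at h4 hw
          have h5 : v = w := by
            have h6 : m * v = m * w := by
              rw [h4, ← hw]
              group
            exact mul_left_cancel h6
          rw [h5]
          exact hv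
      have h5 : f = u * (u⁻¹ * f) := by group
      rw [h5]
      exact Subgroup.mul_mem _ (Subgroup.le_normalizer hu) hmN
    have h6 := Sylow.normalizer_sup_eq_top' (N := pPrimePCore p G) P hPF
    have h7 : Subgroup.normalizer ((P : Subgroup G) : Set G) = ⊤ := by
      rw [← h6]
      exact (sup_eq_left.2 hFN).symm
    exact Subgroup.normalizer_eq_top_iff.1 h7
  obtain ⟨x, hxP, g₀, hg₀N, hg₀⟩ := hex
  let S : Set (Subgroup G) := {R | R ≤ pPrimeCore p G ∧ (∀ r ∈ R, x * r * x⁻¹ ∈ R) ∧ ∃ r ∈ R, x * r * x⁻¹ ≠ r}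
  have hSne : S.Nonempty := ⟨pPrimeCore p G, le_rfl, fun r hr => hNn.conj_mem r hr x, g₀, hg₀N, hg₀⟩
  obtain ⟨N₀, ⟨hN₀N, hinv, r₀, hr₀, hr₀'⟩, hmin₀⟩ := Set.Finite.exists_minimal (Set.toFinite S) hSne
  obtain ⟨a, ha⟩ := P.isPGroup' ⟨x, hxP⟩
  have hxa : x ^ p ^ a = 1 := by simpa using congrArg Subtype.val ha
  have hN₀cop : (Nat.card N₀).Coprime p :=
    Nat.Coprime.coprime_dvd_left (Subgroup.card_dvd_of_le hN₀N) (Cfsg.Agent.Lib.Core.pPrimeCore_coprime p G)
  have hcop : (Nat.card (Subgroup.zpowers x)).Coprime (Nat.card N₀) := by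
    rw [Nat.card_zpowers]
    have h1 : orderOf x ∣ p ^ a := orderOf_dvd_of_pow_eq_one hxa
    exact Nat.Coprime.coprime_dvd_left h1 (Nat.Coprime.pow_left _ hN₀cop.symm)
  have hpow : ∀ R : Subgroup G, (∀ r ∈ R, x * r * x⁻¹ ∈ R) → ∀ c ∈ Subgroup.zpowers x, ∀ r ∈ R, c * r * c⁻¹ ∈ R := by
    intro R hR c hc r hr
    obtain ⟨n, rfl⟩ := (mem_powers_iff_mem_zpowers).2 hc
    induction n with
    | zero => simpa using hr
    | succ n ih =>
      have h1 := hR _ (ih (by exact Subgroup.npow_mem_zpowers x n))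
      have h2 : x ^ (n + 1) * r * (x ^ (n + 1))⁻¹ = x * (x ^ n * r * (x ^ n)⁻¹) * x⁻¹ := by
        rw [pow_succ']
        group
      simpa [h2] using h1
  have hsol : Group.IsSolvable (Subgroup.zpowers x) := by
    apply isSolvable_of_comm
    rintro ⟨c, hc⟩ ⟨d, hd⟩
    obtain ⟨k, rfl⟩ := Subgroup.mem_zpowers_iff.1 hc
    obtain ⟨l, rfl⟩ := Subgroup.mem_zpowers_iff.1 hd
    apply Subtype.ext
    exact (Commute.refl x).zpow_zpow k l
  have hqg : ∃ q : ℕ, q.Prime ∧ IsPGroup q N₀ := by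
    by_contra hno
    push Not at hno
    let C : Subgroup G := N₀ ⊓ Subgroup.centralizer ({x} : Set G)
    have hidx : C.relIndex N₀ = 1 := by
      by_contra h1
      obtain ⟨q, hqp, hqd⟩ := Nat.exists_prime_and_dvd h1
      haveI := Fact.mk hqp
      obtain ⟨S₀, hS₀, hS₀inv⟩ := Cfsg.Agent.Lib.FStar.exists_invariant_sylow (A := Subgroup.zpowers x) (X := N₀)
        (hpow N₀ hinv) hcop (Or.inl hsol) q
      have hS₀C : ∀ s ∈ S₀, x * s * x⁻¹ = s := by
        by_contra hne'
        push Not at hne'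
        obtain ⟨s, hs, hs'⟩ := hne'
        have hS₀S : S₀ ∈ S := ⟨hS₀.le.trans hN₀N, fun r hr => hS₀inv x (Subgroup.mem_zpowers x) r hr, s, hs, hs'⟩
        have hle := hmin₀ hS₀S hS₀.le
        exact hno q hqp (hS₀.isPGroup.to_le hle)
      have hS₀le : S₀ ≤ C := by
        intro s hs
        refine ⟨hS₀.le hs, ?_⟩
        apply Subgroup.mem_centralizer_iff.2
        intro y hy
        have hy' : y = x := hy
        rw [hy']
        have h2 := hS₀C s hs
        have h3 : x * s * x⁻¹ * x = s * x := by rw [h2]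
        rw [← h3]
        group
      have h5 := Subgroup.relIndex_mul_relIndex S₀ C N₀ hS₀le inf_le_left
      exact hS₀.not_dvd (h5 ▸ Dvd.dvd.mul_left hqd _)
    have hle : N₀ ≤ C := Subgroup.relIndex_eq_one.1 hidx
    have h6 : r₀ ∈ Subgroup.centralizer ({x} : Set G) := (hle hr₀).2
    rw [Subgroup.mem_centralizer_iff] at h6
    have h7 := h6 x rfl
    apply hr₀'
    rw [h7]
    group
  obtain ⟨q, hqp, hqN₀⟩ := hqg
  haveI hqf : Fact q.Prime := Fact.mk hqp
  have hpq : p ≠ q := by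
    rintro rfl
    obtain ⟨k, hk⟩ := IsPGroup.iff_card.1 hqN₀
    rw [hk] at hN₀cop
    have hk0 : k = 0 := by
      by_contra h1
      have h2 := Nat.Coprime.eq_one_of_dvd hN₀cop.symm (dvd_pow_self p h1)
      exact hp.out.one_lt.ne' h2
    rw [hk0, pow_zero] at hk
    have h3 : (⟨r₀, hr₀⟩ : N₀) = 1 := by
      haveI := (Nat.card_eq_one_iff_unique.1 hk).1
      exact Subsingleton.elim _ _
    have h4 : r₀ = 1 := congrArg Subtype.val h3
    apply hr₀'
    rw [h4]
    group
  haveI : Fintype N₀ := Fintype.ofFinite _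
  let α : MulAut N₀ := conjOnInv N₀ x hinv
  have hpa : α ^ (p ^ a) = 1 := by
    ext t
    rw [conjOnInv_pow_coe, hxa]
    simp
  have hne : ∃ g, α g ≠ g := by
    refine ⟨⟨r₀, hr₀⟩, ?_⟩
    intro h
    exact hr₀' (congrArg Subtype.val h)
  have hminA : ∀ R : Subgroup N₀, (∀ r ∈ R, α r ∈ R) → R ≠ ⊤ → ∀ r ∈ R, α r = r := by
    intro R hRinv hRne r hr
    by_contra hrne
    have hR'S : R.map N₀.subtype ∈ S := by
      refine ⟨(Subgroup.map_subtype_le R).trans hN₀N, ?_, r, ⟨r, hr, rfl⟩, ?_⟩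
      · rintro _ ⟨t, ht, rfl⟩
        exact ⟨α t, hRinv t ht, rfl⟩
      · intro h
        apply hrne
        apply Subtype.ext
        exact h
    have hle := hmin₀ hR'S (Subgroup.map_subtype_le R)
    apply hRne
    rw [eq_top_iff]
    rintro ⟨y, hy⟩ -
    obtain ⟨z, hz, hzy⟩ := hle hy
    have h3 : z = ⟨y, hy⟩ := Subtype.ext hzy
    rwa [← h3]
  let ψ : N₀ → ℂ := fun t => χ t
  have hψ : IsCharacter N₀ ψ := IsCharacter.restrict _ hχ
  have hψinv : ∀ g, ψ (α g) = ψ g := fun g => (IsCharacter.isClassFunction hχ) g x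
  have hdψ : charDegree ψ = charDegree χ := hdegres N₀
  have hnl : ∃ θ : IrrCharacter N₀, classInner ψ (θ : N₀ → ℂ) ≠ 0 ∧ (θ : N₀ → ℂ) 1 ≠ 1 := by
    by_contra hcon
    push Not at hcon
    have htriv : ∀ θ : IrrCharacter N₀, classInner ψ (θ : N₀ → ℂ) ≠ 0 → ∀ g, (θ : N₀ → ℂ) g = (θ : N₀ → ℂ) 1 := by
      intro θ hθ g
      have h1 := hcon θ hθ
      rw [h1]
      exact lin_inv_trivial α hqN₀ hpa hpq hne hminA θ h1
        (constituent_fixed α hpa hψ hψinv (by omega) θ hθ) g
    have h2 := eq_map_one_of_constituents hψ ⟨r₀, hr₀⟩ (fun θ hθ => htriv θ hθ _)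
    have h3 : r₀ = 1 := hfaith r₀ h2
    apply hr₀'
    rw [h3]
    group
  obtain ⟨θ, hθc, hθ1⟩ := hnl
  have hle := charDegree_le_of_constituent hψ θ.2 hθc
  have hdθ : charDegree (θ : N₀ → ℂ) + 1 = p :=
    nonlin_degree α hqN₀ hpa hpq hne hminA θ hθ1 (by omega)
  have hχeq : charDegree χ = charDegree (θ : N₀ → ℂ) := by omega
  have hψθ : ψ = (θ : N₀ → ℂ) := eq_of_constituent_of_degree_eq hψ θ.2 hθc (by omega)
  have hirr : IsIrrCharacter G χ := by
    refine isIrr_of_restrict_isIrr N₀ hχ ?_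
    change IsIrrCharacter _ ψ
    rw [hψθ]
    exact θ.2
  refine ⟨by omega, ?_, hirr⟩
  have hdvd := charDegree_dvd_card θ.2
  obtain ⟨k, hk⟩ := IsPGroup.iff_card.1 hqN₀
  rw [hk] at hdvd
  obtain ⟨m, -, hm⟩ := (Nat.dvd_prime_pow hqp).1 hdvd
  have hd2 : 2 ≤ charDegree (θ : N₀ → ℂ) := by
    have h1 := charDegree_pos_of_irr θ.2
    have h2 : charDegree (θ : N₀ → ℂ) ≠ 1 := by
      intro h3
      apply hθ1
      rw [map_one_eq_charDegree (IsIrrCharacter.isCharacter θ.2), h3]
      simp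
    omega
  have hodd : p % 2 = 1 := by
    rcases hp.out.eq_two_or_odd with h | h
    · omega
    · exact h
  have heven : 2 ∣ charDegree (θ : N₀ → ℂ) := by omega
  rw [hm] at heven
  have h2q : 2 ∣ q := Nat.Prime.dvd_of_dvd_pow Nat.prime_two heven
  have hq2 : q = 2 := ((Nat.prime_dvd_prime_iff_eq Nat.prime_two hqp).1 h2q).symm
  exact ⟨m, by rw [hχeq, hm, hq2]⟩

end Main


end Cfsg.Agent.Lib.CharExtra
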