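import Cfsg.Agent.Lib.CharExtra.FS
import Cfsg.Agent.Lib.BPair.RealOdd

/-!
# `2`-groups whose number of involutions is `1` modulo `4`.
-/

set_option autoImplicit false
set_option linter.unusedSectionVars false
set_option linter.unusedSimpArgs false
set_option linter.unusedVariables false

open scoped ComplexConjugate
open Cfsg
open Cfsg.Agent.Lib.Block Cfsg.Agent.Lib.Char Cfsg.Agent.Lib.BPair

namespace Cfsg.Agent.Lib.CharExtra

/-- Fixed points of a `p`-group on a stable finite set. -/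
theorem card_fixed_modEq_of_stable {E Ω : Type*} [Group E] [Finite E] [MulAction E Ω] {p : ℕ} [Fact p.Prime]
    (hE : IsPGroup p E) [DecidableEq Ω] (S : Finset Ω) (hS : ∀ (e : E), ∀ x ∈ S, e • x ∈ S)
    [DecidablePred fun x : Ω => ∀ e : E, e • x = x] :
    S.card ≡ (S.filter (fun x => ∀ e : E, e • x = x)).card [MOD p] := by
  let T : SubMulAction E Ω :=
    { carrier := (S : Set Ω)
      smul_mem' := fun e x hx => hS e x hx }
  haveI : Finite T := Set.Finite.to_subtype (S.finite_toSet)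
  have h1 := hE.card_modEq_card_fixedPoints T
  have h2 : Nat.card T = S.card := by
    change Nat.card (S : Set Ω) = _
    simp
  have h3 : Nat.card (MulAction.fixedPoints E T) = (S.filter (fun x => ∀ e : E, e • x = x)).card := by
    have h4 : Nat.card ((S.filter (fun x => ∀ e : E, e • x = x) : Finset Ω) : Set Ω) =
        (S.filter (fun x => ∀ e : E, e • x = x)).card := by simp
    rw [← h4]
    refine Nat.card_congr ?_
    refine
      { toFun := fun x => ⟨x.1.1, by
          have hx := x.2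
          simp only [Finset.coe_filter, Set.mem_setOf_eq]
          refine ⟨x.1.2, fun e => ?_⟩
          have := hx e
          exact congrArg Subtype.val this⟩
        invFun := fun x => ⟨⟨x.1, by
          have hx := x.2
          simp only [Finset.coe_filter, Set.mem_setOf_eq] at hx
          exact hx.1⟩, by
          intro e
          have hx := x.2
          simp only [Finset.coe_filter, Set.mem_setOf_eq] at hx
          exact Subtype.ext (hx.2 e)⟩
        left_inv := fun x => rfl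
        right_inv := fun x => rfl }
  rw [h2, h3] at h1
  exact h1

section Main

variable {G : Type*} [Group G] [Fintype G]

theorem finite_lin : Finite (G →* ℂˣ) := Finite.of_equiv _ (linearEquivHom G)

/-- The twisting action. -/
@[reducible] noncomputable def twistAct : MulAction (G →* ℂˣ) (IrrCharacter G) where
  smul μ χ := twistI μ χ
  one_smul χ := Subtype.ext (funext fun g => by
    change (twistI 1 χ : G → ℂ) g = _
    rw [twistI_apply]
    simp)
  mul_smul μ ν χ := Subtype.ext (funext fun g => by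
    change (twistI (μ * ν) χ : G → ℂ) g = (twistI μ (twistI ν χ) : G → ℂ) g
    rw [twistI_apply, twistI_apply, twistI_apply]
    simp only [MonoidHom.mul_apply, Units.val_mul]
    ring)

attribute [local instance] twistAct finite_lin

theorem twist_apply (μ : G →* ℂˣ) (χ : IrrCharacter G) (g : G) :
    ((μ • χ : IrrCharacter G) : G → ℂ) g = (χ : G → ℂ) g * (μ g : ℂ) := rfl

/-- The `2`-torsion. -/
def tors (n : ℕ) : Subgroup (G →* ℂˣ) := (powMonoidHom n : (G →* ℂˣ) →* (G →* ℂˣ)).ker

theorem mem_tors {n : ℕ} {μ : G →* ℂˣ} : μ ∈ tors (G := G) n ↔ μ ^ n = 1 := Iff.rfl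

theorem tors_isPGroup (k : ℕ) : IsPGroup 2 (tors (G := G) (2 ^ k)) := by
  rintro ⟨μ, hμ⟩
  refine ⟨k, ?_⟩
  apply Subtype.ext
  exact hμ

/-- real characters -/
def IsRealI (χ : IrrCharacter G) : Prop := ∀ g : G, ((χ : G → ℂ) g).im = 0

theorem conj_of_real {χ : IrrCharacter G} (h : IsRealI χ) (g : G) : conj ((χ : G → ℂ) g) = (χ : G → ℂ) g :=
  Complex.conj_eq_iff_im.2 (h g)

theorem hom_sq_val {μ : G →* ℂˣ} (h : μ ^ 2 = 1) (g : G) : (μ g : ℂ) * (μ g : ℂ) = 1 := by
  have h1 : (μ ^ 2) g = 1 := by rw [h]; rfl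
  have h2 : μ g * μ g = 1 := by
    rw [← pow_two]
    simpa using h1
  have h3 := congrArg (fun u : ℂˣ => (u : ℂ)) h2
  simpa using h3

theorem hom_sq_real {μ : G →* ℂˣ} (h : μ ^ 2 = 1) (g : G) : ((μ g : ℂ)).im = 0 := by
  have h1 := hom_sq_val h g
  have h2 : (μ g : ℂ) = 1 ∨ (μ g : ℂ) = -1 := mul_self_eq_one_iff.1 h1
  rcases h2 with h2 | h2 <;> simp [h2]

theorem conj_hom (μ : G →* ℂˣ) (g : G) : conj (μ g : ℂ) = ((μ g)⁻¹ : ℂˣ) := by
  have h := IsCharacter.map_inv' (Cfsg.Agent.Lib.Degree.isCharacter_of_units_hom μ) g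
  simp only [map_inv] at h
  exact h.symm

/-- An invariant: real linear characters have indicator one. -/
theorem fsInd_real_linear (χ : IrrCharacter G) (h : IsRealI χ) (h1 : (χ : G → ℂ) 1 = 1) :
    fsInd (χ : G → ℂ) = 1 := by
  have h2 := classInner_irr_self χ.2
  rw [classInner_def] at h2
  rw [← h2]
  unfold fsInd
  congr 1
  refine Finset.sum_congr rfl fun s _ => ?_
  rw [Cfsg.Agent.Lib.Degree.irr_linear_mul χ h1, conj_of_real h]

/-- The number of involutions plus one. -/
theorem card_sq_eq_one [DecidableEq G] :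
    (Finset.univ.filter fun s : G => s * s = 1).card = Nat.card {x : G // orderOf x = 2} + 1 := by
  classical
  have h1 : (Finset.univ.filter fun s : G => s * s = 1) =
      insert 1 (Finset.univ.filter fun s : G => orderOf s = 2) := by
    ext s
    simp only [Finset.mem_filter, Finset.mem_univ, true_and, Finset.mem_insert]
    constructor
    · intro h
      by_cases hs : s = 1
      · exact Or.inl hs
      · right
        haveI : Fact (Nat.Prime 2) := ⟨Nat.prime_two⟩
        exact orderOf_eq_prime (by rw [pow_two, h]) hs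
    · rintro (rfl | h)
      · simp
      · rw [← pow_two, ← h]
        exact pow_orderOf_eq_one s
  rw [h1, Finset.card_insert_of_notMem (by simp), Nat.card_eq_fintype_card, Fintype.card_subtype]

/-- The real linear characters correspond to the `2`-torsion. -/
theorem card_real_linear [DecidablePred fun χ : IrrCharacter G => IsRealI χ ∧ charDegree (χ : G → ℂ) = 1] :
    (Finset.univ.filter fun χ : IrrCharacter G => IsRealI χ ∧ charDegree (χ : G → ℂ) = 1).card =
      Nat.card (tors (G := G) 2) := by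
  classical
  haveI : Fintype (tors (G := G) 2) := Fintype.ofFinite _
  rw [Nat.card_eq_fintype_card, ← Finset.card_univ]
  symm
  refine Finset.card_bij (fun μ _ => (⟨fun g => (μ.1 g : ℂ), isIrrCharacter_of_hom μ.1⟩ : IrrCharacter G)) ?_ ?_ ?_
  · rintro ⟨μ, hμ⟩ -
    simp only [Finset.mem_filter, Finset.mem_univ, true_and]
    refine ⟨fun g => hom_sq_real hμ g, ?_⟩
    have h1 : charDegree (fun g => (μ g : ℂ)) = 1 := by
      unfold charDegree
      simp
    exact h1
  · rintro ⟨μ, hμ⟩ - ⟨ν, hν⟩ - h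
    apply Subtype.ext
    ext g
    exact congrFun (congrArg Subtype.val h) g
  · intro χ hχ
    simp only [Finset.mem_filter, Finset.mem_univ, true_and] at hχ
    obtain ⟨hr, hd⟩ := hχ
    have h1 : (χ : G → ℂ) 1 = 1 := by
      rw [map_one_eq_charDegree (IsIrrCharacter.isCharacter χ.2), hd]
      simp
    let μ : G →* ℂˣ := (Cfsg.Agent.Lib.Degree.linearHom χ h1).toHomUnits
    have hμ : ∀ g, (μ g : ℂ) = (χ : G → ℂ) g := fun g => rfl
    refine ⟨⟨μ, ?_⟩, Finset.mem_univ _, ?_⟩
    · rw [mem_tors]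
      ext g
      have h2 : ((χ : G → ℂ) g) * ((χ : G → ℂ) g⁻¹) = 1 := by
        rw [← Cfsg.Agent.Lib.Degree.irr_linear_mul χ h1, mul_inv_cancel, h1]
      rw [IsCharacter.map_inv' (IsIrrCharacter.isCharacter χ.2), conj_of_real hr] at h2
      simp only [MonoidHom.pow_apply, MonoidHom.one_apply, Units.val_one, Units.val_pow_eq_pow_val, hμ]
      rw [pow_two, h2]
    · apply Subtype.ext
      funext g
      rfl

/-- Modulo `4`: the number of involutions is determined by the real characters of degree at most `2`. -/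
theorem involutions_mod_four [DecidableEq G] (hG : IsPGroup 2 G)
    [DecidablePred fun χ : IrrCharacter G => IsRealI χ ∧ charDegree (χ : G → ℂ) = 1]
    [DecidablePred fun χ : IrrCharacter G => IsRealI χ ∧ charDegree (χ : G → ℂ) = 2] :
    ((Nat.card {x : G // orderOf x = 2} + 1 : ℕ) : ℤ) ≡
      (Nat.card (tors (G := G) 2) : ℤ) +
        2 * ((Finset.univ.filter fun χ : IrrCharacter G => IsRealI χ ∧ charDegree (χ : G → ℂ) = 2).card : ℤ)
        [ZMOD 4] := by
  classical
  have hν : ∀ χ : IrrCharacter G, ∃ n : ℤ, fsInd (χ : G → ℂ) = n ∧ (IsRealI χ → n = 1 ∨ n = -1) ∧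
      (¬ IsRealI χ → n = 0) ∧ (IsRealI χ → (χ : G → ℂ) 1 = 1 → n = 1) := by
    intro χ
    by_cases h : IsRealI χ
    · by_cases h1 : (χ : G → ℂ) 1 = 1
      · refine ⟨1, by simpa using fsInd_real_linear χ h h1, fun _ => Or.inl rfl, fun h2 => absurd h h2, fun _ _ => rfl⟩
      · rcases fsInd_of_real χ h with h2 | h2
        · exact ⟨1, by simpa using h2, fun _ => Or.inl rfl, fun h2 => absurd h h2, fun _ _ => rfl⟩
        · exact ⟨-1, by simpa using h2, fun _ => Or.inr rfl, fun h2 => absurd h h2, fun _ h3 => absurd h3 h1⟩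
    · exact ⟨0, by simpa using fsInd_of_not_real χ h, fun h2 => absurd h2 h, fun _ => rfl, fun h2 => absurd h2 h⟩
  choose ν hν1 hν2 hν3 hν4 using hν
  have hsum : ((Nat.card {x : G // orderOf x = 2} + 1 : ℕ) : ℤ) =
      ∑ χ : IrrCharacter G, ν χ * (charDegree (χ : G → ℂ) : ℤ) := by
    have h1 := sum_fsInd_mul (G := G) 1
    rw [card_sq_eq_one] at h1
    have h2 : (((Nat.card {x : G // orderOf x = 2} + 1 : ℕ) : ℤ) : ℂ) =
        ((∑ χ : IrrCharacter G, ν χ * (charDegree (χ : G → ℂ) : ℤ) : ℤ) : ℂ) := by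
      push_cast
      push_cast at h1
      rw [← h1]
      refine Finset.sum_congr rfl fun χ _ => ?_
      rw [hν1, map_one_eq_charDegree (IsIrrCharacter.isCharacter χ.2)]
    exact_mod_cast h2
  have hdvd : (4 : ℤ) ∣ ∑ χ : IrrCharacter G, (ν χ * (charDegree (χ : G → ℂ) : ℤ) -
      (if IsRealI χ ∧ charDegree (χ : G → ℂ) = 1 then 1 else 0) -
      2 * (if IsRealI χ ∧ charDegree (χ : G → ℂ) = 2 then 1 else 0)) := by
    refine Finset.dvd_sum fun χ _ => ?_
    by_cases h : IsRealI χ
    · have h3 := charDegree_dvd_card χ.2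
      obtain ⟨k, hk⟩ := IsPGroup.iff_card.1 hG
      rw [hk] at h3
      obtain ⟨m, -, hm⟩ := (Nat.dvd_prime_pow Nat.prime_two).1 h3
      rcases m with _ | _ | m
      · have hd : charDegree (χ : G → ℂ) = 1 := by simpa using hm
        have h1 : (χ : G → ℂ) 1 = 1 := by
          rw [map_one_eq_charDegree (IsIrrCharacter.isCharacter χ.2), hd]
          simp
        have e1 : (if IsRealI χ ∧ charDegree (χ : G → ℂ) = 1 then (1 : ℤ) else 0) = 1 := if_pos ⟨h, hd⟩
        have e2 : (if IsRealI χ ∧ charDegree (χ : G → ℂ) = 2 then (1 : ℤ) else 0) = 0 :=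
          if_neg (fun h5 => by omega)
        rw [hν4 χ h h1, e1, e2, hd]
        simp
      · have hd : charDegree (χ : G → ℂ) = 2 := by simpa using hm
        have e1 : (if IsRealI χ ∧ charDegree (χ : G → ℂ) = 1 then (1 : ℤ) else 0) = 0 :=
          if_neg (fun h5 => by omega)
        have e2 : (if IsRealI χ ∧ charDegree (χ : G → ℂ) = 2 then (1 : ℤ) else 0) = 1 := if_pos ⟨h, hd⟩
        rw [e1, e2, hd]
        rcases hν2 χ h with h4 | h4 <;> rw [h4] <;> norm_num
      · have hd : charDegree (χ : G → ℂ) = 4 * 2 ^ m := by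
          rw [hm]
          ring
        have h5 : charDegree (χ : G → ℂ) ≠ 1 := by
          rw [hd]
          have := Nat.one_le_two_pow (n := m)
          omega
        have h6 : charDegree (χ : G → ℂ) ≠ 2 := by
          rw [hd]
          have := Nat.one_le_two_pow (n := m)
          omega
        simp only [h5, h6, and_false, if_false, mul_zero, sub_zero]
        rw [hd]
        push_cast
        exact ⟨ν χ * 2 ^ m, by ring⟩
    · have e1 : (if IsRealI χ ∧ charDegree (χ : G → ℂ) = 1 then (1 : ℤ) else 0) = 0 :=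
        if_neg (fun h5 => h h5.1)
      have e2 : (if IsRealI χ ∧ charDegree (χ : G → ℂ) = 2 then (1 : ℤ) else 0) = 0 :=
        if_neg (fun h5 => h h5.1)
      rw [hν3 χ h, e1, e2]
      simp
  rw [Finset.sum_sub_distrib, Finset.sum_sub_distrib, ← hsum, ← Finset.mul_sum] at hdvd
  have hA : ∑ χ : IrrCharacter G, (if IsRealI χ ∧ charDegree (χ : G → ℂ) = 1 then (1 : ℤ) else 0) =
      (Nat.card (tors (G := G) 2) : ℤ) := by
    rw [← card_real_linear, Finset.card_filter]
    push_cast
    rfl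
  have hB : ∑ χ : IrrCharacter G, (if IsRealI χ ∧ charDegree (χ : G → ℂ) = 2 then (1 : ℤ) else 0) =
      ((Finset.univ.filter fun χ : IrrCharacter G => IsRealI χ ∧ charDegree (χ : G → ℂ) = 2).card : ℤ) := by
    rw [Finset.card_filter]
    push_cast
    rfl
  rw [hA, hB] at hdvd
  apply Int.ModEq.symm
  rw [Int.modEq_iff_dvd]
  convert hdvd using 1
  ring

/-- Non-cyclic `2`-groups have at least two distinct non-trivial characters of order two. -/
theorem exists_tors_of_proper (hG : IsPGroup 2 G) (H : Subgroup G) (hH : H ≠ ⊤) :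
    ∃ μ ∈ tors (G := G) 2, μ ≠ 1 ∧ ∀ h ∈ H, μ h = 1 := by
  classical
  haveI : Fact (Nat.Prime 2) := ⟨Nat.prime_two⟩
  obtain ⟨k, hk⟩ := IsPGroup.iff_card.1 hG
  obtain ⟨n, hn⟩ := IsPGroup.iff_card.1 (hG.to_subgroup H)
  have hlt : n < k := by
    have h1 : Nat.card H < Nat.card G := by
      have h2 : H < ⊤ := lt_top_iff_ne_top.2 hH
      have h3 := Subgroup.card_dvd_of_le h2.le
      rw [Subgroup.card_top] at h3
      refine lt_of_le_of_ne (Nat.le_of_dvd Nat.card_pos h3) ?_
      intro h4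
      apply hH
      exact Subgroup.eq_top_of_card_eq H h4
    rw [hn, hk] at h1
    exact (Nat.pow_lt_pow_iff_right (by norm_num)).1 h1
  have hdvd : 2 ^ (k - 1) ∣ Nat.card G := by
    rw [hk]
    exact pow_dvd_pow 2 (by omega)
  obtain ⟨K, hK, hHK⟩ := Sylow.exists_subgroup_card_pow_prime_le 2 hdvd H hn (by omega)
  have hidx : K.index = 2 := by
    have h1 := Subgroup.card_mul_index K
    rw [hK, hk] at h1
    have h2 : 2 ^ k = 2 ^ (k - 1) * 2 := by
      rw [← pow_succ]
      congr 1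
      omega
    rw [h2] at h1
    exact Nat.eq_of_mul_eq_mul_left (by positivity) h1
  let f : G →* ℂˣ :=
    { toFun := fun g => if g ∈ K then 1 else -1
      map_one' := by simp
      map_mul' := fun a b => by
        by_cases ha : a ∈ K <;> by_cases hb : b ∈ K <;>
          simp [Subgroup.mul_mem_iff_of_index_two hidx, ha, hb] }
  refine ⟨f, ?_, ?_, ?_⟩
  · rw [mem_tors]
    ext g
    change ((f g ^ 2 : ℂˣ) : ℂ) = 1
    by_cases hg : g ∈ K <;> simp [f, hg]
  · intro h1
    have h2 : K ≠ ⊤ := by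
      intro h3
      rw [h3, Subgroup.index_top] at hidx
      omega
    obtain ⟨g, hg⟩ : ∃ g, g ∉ K := by
      by_contra h4
      push Not at h4
      exact h2 (eq_top_iff.2 fun g _ => h4 g)
    have h3 : f g = 1 := by rw [h1]; rfl
    have h4 : f g = -1 := by simp [f, hg]
    rw [h4] at h3
    have h5 := congrArg (fun u : ℂˣ => (u : ℂ)) h3
    norm_num at h5
  · intro h hh
    simp [f, hHK hh]

theorem four_le_tors (hG : IsPGroup 2 G) (hc : ¬ IsCyclic G) : 4 ∣ Nat.card (tors (G := G) 2) := by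
  classical
  haveI : Fintype (tors (G := G) 2) := Fintype.ofFinite _
  have hbot : (⊥ : Subgroup G) ≠ ⊤ := by
    intro h
    apply hc
    haveI : Subsingleton G := by
      refine ⟨fun a b => ?_⟩
      have ha : a ∈ (⊥ : Subgroup G) := by rw [h]; trivial
      have hb : b ∈ (⊥ : Subgroup G) := by rw [h]; trivial
      rw [Subgroup.mem_bot] at ha hb
      rw [ha, hb]
    exact isCyclic_of_subsingleton
  obtain ⟨μ₀, hμ₀, hμ₀1, -⟩ := exists_tors_of_proper hG ⊥ hbot
  obtain ⟨g₀, hg₀⟩ : ∃ g₀, μ₀ g₀ ≠ 1 := by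
    by_contra h
    push Not at h
    exact hμ₀1 (MonoidHom.ext h)
  have hz : Subgroup.zpowers g₀ ≠ ⊤ := by
    intro h
    apply hc
    exact ⟨g₀, fun x => by
      have : x ∈ Subgroup.zpowers g₀ := by rw [h]; trivial
      exact this⟩
  obtain ⟨μ₁, hμ₁, hμ₁1, hμ₁g⟩ := exists_tors_of_proper hG _ hz
  have hne : μ₀ ≠ μ₁ := by
    rintro rfl
    exact hg₀ (hμ₁g g₀ (Subgroup.mem_zpowers g₀))
  have h3 : 3 ≤ Fintype.card (tors (G := G) 2) := by
    have h4 : ({⟨1, Subgroup.one_mem _⟩, ⟨μ₀, hμ₀⟩, ⟨μ₁, hμ₁⟩} : Finset (tors (G := G) 2)).card = 3 := by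
      rw [Finset.card_eq_three]
      refine ⟨_, _, _, ?_, ?_, ?_, rfl⟩
      · intro h
        exact hμ₀1 (congrArg Subtype.val h).symm
      · intro h
        exact hμ₁1 (congrArg Subtype.val h).symm
      · intro h
        exact hne (congrArg Subtype.val h)
    rw [← h4]
    exact Finset.card_le_univ _
  obtain ⟨r, hr⟩ := IsPGroup.iff_card.1 (tors_isPGroup (G := G) 1)
  rw [pow_one] at hr
  rw [hr]
  rw [Nat.card_eq_fintype_card] at hr
  rw [hr] at h3
  have hr2 : 2 ≤ r := by
    by_contra h5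
    have h6 : r = 0 ∨ r = 1 := by omega
    rcases h6 with rfl | rfl <;> omega
  exact pow_dvd_pow 2 hr2

/-- The evaluation homomorphism on the `2`-torsion. -/
def evalTors (g : G) : tors (G := G) 2 →* ℂ where
  toFun μ := (μ.1 g : ℂ)
  map_one' := by simp
  map_mul' a b := by simp

open Classical in
/-- The common kernel of the `2`-torsion. -/
noncomputable def torsKer : Finset G := Finset.univ.filter fun g => ∀ μ ∈ tors (G := G) 2, μ g = 1

theorem mem_torsKer {g : G} : g ∈ (torsKer : Finset G) ↔ ∀ μ ∈ tors (G := G) 2, μ g = 1 := by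
  simp [torsKer]

theorem one_mem_torsKer : (1 : G) ∈ (torsKer : Finset G) := by
  rw [mem_torsKer]
  intro μ _
  exact map_one μ

theorem sq_mem_torsKer (g : G) : g * g ∈ (torsKer : Finset G) := by
  rw [mem_torsKer]
  intro μ hμ
  have h1 : (μ ^ 2) g = 1 := by
    rw [mem_tors.1 hμ]
    rfl
  rw [map_mul, ← pow_two]
  simpa using h1

theorem card_tors_mul_ker : Nat.card (tors (G := G) 2) * (torsKer : Finset G).card = Nat.card G := by
  classical
  haveI : Fintype (tors (G := G) 2) := Fintype.ofFinite _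
  have h1 : ∀ g : G, ∑ μ : tors (G := G) 2, (μ.1 g : ℂ) =
      if g ∈ (torsKer : Finset G) then (Fintype.card (tors (G := G) 2) : ℂ) else 0 := by
    intro g
    have h2 := sum_hom_units (evalTors (G := G) g)
    have h3 : evalTors (G := G) g = 1 ↔ g ∈ (torsKer : Finset G) := by
      rw [mem_torsKer]
      constructor
      · intro h μ hμ
        have h4 := DFunLike.congr_fun h ⟨μ, hμ⟩
        exact Units.ext h4
      · intro h
        ext μ
        change (μ.1 g : ℂ) = 1
        rw [h μ.1 μ.2]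
        rfl
    simp only [h3] at h2
    rw [Nat.cast_ite, Nat.cast_zero] at h2
    exact h2
  have h2 : ∀ μ : tors (G := G) 2, ∑ g : G, (μ.1 g : ℂ) =
      if μ = 1 then (Fintype.card G : ℂ) else 0 := by
    intro μ
    have h3 := sum_hom_units ((Units.coeHom ℂ).comp μ.1)
    have h4 : (Units.coeHom ℂ).comp μ.1 = 1 ↔ μ = 1 := by
      constructor
      · intro h
        apply Subtype.ext
        ext g
        exact DFunLike.congr_fun h g
      · rintro rfl
        ext g
        simp
    simp only [h4] at h3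
    rw [Nat.cast_ite, Nat.cast_zero] at h3
    exact h3
  have h3 : ∑ g : G, ∑ μ : tors (G := G) 2, (μ.1 g : ℂ) = ∑ μ : tors (G := G) 2, ∑ g : G, (μ.1 g : ℂ) :=
    Finset.sum_comm
  simp only [h1, h2] at h3
  rw [Finset.sum_ite_eq' Finset.univ (1 : tors (G := G) 2)] at h3
  rw [Finset.sum_ite, Finset.sum_const_zero, add_zero, Finset.sum_const, nsmul_eq_mul] at h3
  simp only [Finset.filter_mem_eq_inter, Finset.univ_inter, Finset.mem_univ, if_true] at h3
  rw [Nat.card_eq_fintype_card, Nat.card_eq_fintype_card]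
  have h5 : ((Fintype.card (tors (G := G) 2) * (torsKer : Finset G).card : ℕ) : ℂ) = (Fintype.card G : ℂ) := by
    push_cast
    rw [← h3]
    ring
  exact_mod_cast h5

theorem val_eq_zero_of_fixed {χ : IrrCharacter G} (hfix : ∀ μ ∈ tors (G := G) 2, μ • χ = χ) {g : G}
    (hg : g ∉ (torsKer : Finset G)) : (χ : G → ℂ) g = 0 := by
  rw [mem_torsKer] at hg
  push Not at hg
  obtain ⟨μ, hμ, hμg⟩ := hg
  by_contra h
  have h1 := congrFun (congrArg Subtype.val (hfix μ hμ)) g
  change (χ : G → ℂ) g * (μ g : ℂ) = (χ : G → ℂ) g at h1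
  have h2 : (μ g : ℂ) = 1 := by
    have h3 : (χ : G → ℂ) g * (μ g : ℂ) = (χ : G → ℂ) g * 1 := by rw [h1, mul_one]
    exact mul_left_cancel₀ h h3
  exact hμg (Units.ext h2)

theorem val_ne_zero_of_fixed (h4 : 4 ≤ Nat.card (tors (G := G) 2)) {χ : IrrCharacter G}
    (hd : charDegree (χ : G → ℂ) = 2) (hfix : ∀ μ ∈ tors (G := G) 2, μ • χ = χ) :
    Nat.card (tors (G := G) 2) = 4 ∧ ∀ g ∈ (torsKer : Finset G), (χ : G → ℂ) g ≠ 0 := by
  classical
  have hχ := IsIrrCharacter.isCharacter χ.2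
  have hnorm : ∑ g ∈ (torsKer : Finset G), Complex.normSq ((χ : G → ℂ) g) = Nat.card G := by
    have h2 := classInner_irr_self χ.2
    rw [classInner_def] at h2
    have hG : (Nat.card G : ℂ) ≠ 0 := by exact_mod_cast Nat.card_pos.ne'
    have h3 : ∑ g : G, (χ : G → ℂ) g * conj ((χ : G → ℂ) g) = (Nat.card G : ℂ) := by
      field_simp at h2
      exact h2
    have h5 : ∑ g : G, (χ : G → ℂ) g * conj ((χ : G → ℂ) g) =
        ∑ g ∈ (torsKer : Finset G), (χ : G → ℂ) g * conj ((χ : G → ℂ) g) := by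
      symm
      apply Finset.sum_subset (Finset.subset_univ _)
      intro g _ hg
      rw [val_eq_zero_of_fixed hfix hg, zero_mul]
    rw [h5] at h3
    have h6 : ((∑ g ∈ (torsKer : Finset G), Complex.normSq ((χ : G → ℂ) g) : ℝ) : ℂ) = (Nat.card G : ℂ) := by
      rw [← h3]
      push_cast
      refine Finset.sum_congr rfl fun g _ => ?_
      rw [Complex.mul_conj]
    exact_mod_cast h6
  have hle : ∀ g, Complex.normSq ((χ : G → ℂ) g) ≤ 4 := by
    intro g
    have h2 := norm_le_charDegree hχ g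
    rw [hd] at h2
    rw [Complex.normSq_eq_norm_sq]
    have h3 := norm_nonneg ((χ : G → ℂ) g)
    norm_num at h2
    nlinarith
  have hcard := card_tors_mul_ker (G := G)
  have hpos : 0 < (torsKer : Finset G).card := Finset.card_pos.2 ⟨1, one_mem_torsKer⟩
  have hsumle : ∑ g ∈ (torsKer : Finset G), Complex.normSq ((χ : G → ℂ) g) ≤
      ∑ g ∈ (torsKer : Finset G), (4 : ℝ) := Finset.sum_le_sum fun g _ => hle g
  rw [hnorm, Finset.sum_const, nsmul_eq_mul] at hsumle
  have hle2 : Nat.card G ≤ (torsKer : Finset G).card * 4 := by exact_mod_cast hsumle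
  rw [← hcard] at hle2
  have hR : Nat.card (tors (G := G) 2) ≤ 4 := by
    have h5 : Nat.card (tors (G := G) 2) * (torsKer : Finset G).card ≤ 4 * (torsKer : Finset G).card := by
      linarith
    exact Nat.le_of_mul_le_mul_right h5 hpos
  have hR4 : Nat.card (tors (G := G) 2) = 4 := le_antisymm hR h4
  refine ⟨hR4, ?_⟩
  intro g hg h0
  have h5 : ∑ g ∈ (torsKer : Finset G), ((4 : ℝ) - Complex.normSq ((χ : G → ℂ) g)) = 0 := by
    rw [Finset.sum_sub_distrib, hnorm, Finset.sum_const, nsmul_eq_mul, ← hcard, hR4]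
    push_cast
    ring
  have h6 := (Finset.sum_eq_zero_iff_of_nonneg (fun g _ => sub_nonneg.2 (hle g))).1 h5 g hg
  rw [h0, map_zero] at h6
  norm_num at h6

/-- The main step: `4`-torsion is `2`-torsion. -/
theorem tors_four_le_two [DecidablePred fun χ : IrrCharacter G => IsRealI χ ∧ charDegree (χ : G → ℂ) = 2]
    (h4 : 4 ≤ Nat.card (tors (G := G) 2))
    (hodd : ¬ 2 ∣ (Finset.univ.filter fun χ : IrrCharacter G => IsRealI χ ∧ charDegree (χ : G → ℂ) = 2).card)
    (lam : G →* ℂˣ) (hlam : lam ^ 4 = 1) : lam ^ 2 = 1 := by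
  classical
  haveI : Fact (Nat.Prime 2) := ⟨Nat.prime_two⟩
  set X := (Finset.univ.filter fun χ : IrrCharacter G => IsRealI χ ∧ charDegree (χ : G → ℂ) = 2) with hX
  have hmemX : ∀ χ, χ ∈ X ↔ IsRealI χ ∧ charDegree (χ : G → ℂ) = 2 := by
    intro χ
    simp [hX]
  have hdeg : ∀ (μ : G →* ℂˣ) (χ : IrrCharacter G), charDegree ((μ • χ : IrrCharacter G) : G → ℂ) = charDegree (χ : G → ℂ) := by
    intro μ χ
    unfold charDegree
    rw [twist_apply]
    simp
  have hRX : ∀ (e : tors (G := G) (2 ^ 1)), ∀ x ∈ X, e • x ∈ X := by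
    rintro ⟨μ, hμ⟩ χ hχ
    rw [hmemX] at hχ ⊢
    refine ⟨fun g => ?_, (hdeg μ χ).trans hχ.2⟩
    change ((χ : G → ℂ) g * (μ g : ℂ)).im = 0
    have hμ' : μ ^ 2 = 1 := by
      have := mem_tors.1 hμ
      simpa using this
    rw [Complex.mul_im, hχ.1 g, hom_sq_real hμ' g]
    simp
  have hm1 := card_fixed_modEq_of_stable (tors_isPGroup (G := G) 1) X hRX
  set Y := X.filter (fun x => ∀ e : tors (G := G) (2 ^ 1), e • x = x) with hY
  have hmemY : ∀ χ, χ ∈ Y ↔ (IsRealI χ ∧ charDegree (χ : G → ℂ) = 2) ∧ ∀ μ ∈ tors (G := G) (2 ^ 1), μ • χ = χ := by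
    intro χ
    rw [hY, Finset.mem_filter, hmemX]
    constructor
    · rintro ⟨h1, h2⟩
      exact ⟨h1, fun μ hμ => h2 ⟨μ, hμ⟩⟩
    · rintro ⟨h1, h2⟩
      exact ⟨h1, fun e => h2 e.1 e.2⟩
  have hLY : ∀ (e : tors (G := G) (2 ^ 2)), ∀ x ∈ Y, e • x ∈ Y := by
    rintro ⟨l, hl⟩ χ hχ
    rw [hmemY] at hχ ⊢
    obtain ⟨⟨hr, hd⟩, hfix⟩ := hχ
    have hl4 : l ^ 4 = 1 := by
      have := mem_tors.1 hl
      simpa using this
    refine ⟨⟨fun g => ?_, (hdeg l χ).trans hd⟩, fun μ hμ => ?_⟩
    · change ((χ : G → ℂ) g * (l g : ℂ)).im = 0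
      rw [← Complex.conj_eq_iff_im, map_mul, conj_of_real hr, conj_hom]
      have h1 : (l ^ 2) ∈ tors (G := G) (2 ^ 1) := by
        rw [mem_tors, ← pow_mul]
        simpa using hl4
      have h2 := congrFun (congrArg Subtype.val (hfix _ h1)) g
      change (χ : G → ℂ) g * ((l ^ 2) g : ℂ) = (χ : G → ℂ) g at h2
      have h3 : (((l g)⁻¹ : ℂˣ) : ℂ) * (l g : ℂ) = 1 := by simp
      have h4' : ((l ^ 2) g : ℂ) = (l g : ℂ) * (l g : ℂ) := by simp [pow_two]
      rw [h4'] at h2
      calc (χ : G → ℂ) g * (((l g)⁻¹ : ℂˣ) : ℂ)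
          = ((χ : G → ℂ) g * ((l g : ℂ) * (l g : ℂ))) * (((l g)⁻¹ : ℂˣ) : ℂ) := by rw [h2]
        _ = (χ : G → ℂ) g * (l g : ℂ) * ((((l g)⁻¹ : ℂˣ) : ℂ) * (l g : ℂ)) := by ring
        _ = (χ : G → ℂ) g * (l g : ℂ) := by rw [h3, mul_one]
    · have h1 : μ • (l • χ) = l • (μ • χ) := by
        rw [← mul_smul, ← mul_smul]
        exact congrArg (fun m : G →* ℂˣ => m • χ) (mul_comm μ l)
      change μ • (l • χ) = l • χ
      rw [h1, hfix μ hμ]
  have hm2 := card_fixed_modEq_of_stable (tors_isPGroup (G := G) 2) Y hLY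
  set Z := Y.filter (fun x => ∀ e : tors (G := G) (2 ^ 2), e • x = x) with hZ
  have hZne : Z.Nonempty := by
    rw [← Finset.card_pos]
    by_contra h0
    have h00 : Z.card = 0 := by omega
    rw [h00] at hm2
    have h5 := (Nat.modEq_zero_iff_dvd.1 hm2)
    exact hodd (Nat.modEq_zero_iff_dvd.1 (hm1.trans (Nat.modEq_zero_iff_dvd.2 h5)))
  obtain ⟨χ, hχ⟩ := hZne
  rw [hZ, Finset.mem_filter, hmemY] at hχ
  obtain ⟨⟨⟨hr, hd⟩, hfix⟩, hfixL⟩ := hχ
  have hfix2 : ∀ μ ∈ tors (G := G) 2, μ • χ = χ := fun μ hμ => hfix μ (by simpa using hμ)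
  obtain ⟨-, hval⟩ := val_ne_zero_of_fixed h4 hd hfix2
  have hl : lam • χ = χ := hfixL ⟨lam, by
    rw [mem_tors]
    simpa using hlam⟩
  ext g
  have hg := sq_mem_torsKer g
  have h1 := congrFun (congrArg Subtype.val hl) (g * g)
  change (χ : G → ℂ) (g * g) * (lam (g * g) : ℂ) = (χ : G → ℂ) (g * g) at h1
  have h2 : (lam (g * g) : ℂ) = 1 := by
    have h3 : (χ : G → ℂ) (g * g) * (lam (g * g) : ℂ) = (χ : G → ℂ) (g * g) * 1 := by rw [h1, mul_one]
    exact mul_left_cancel₀ (hval _ hg) h3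
  simp only [map_mul, Units.val_mul] at h2
  simp [pow_two, h2]

/-- A fixed point of the `2`-torsion among the real characters of degree two. -/
theorem exists_fixed_two [DecidablePred fun χ : IrrCharacter G => IsRealI χ ∧ charDegree (χ : G → ℂ) = 2]
    (hodd : ¬ 2 ∣ (Finset.univ.filter fun χ : IrrCharacter G => IsRealI χ ∧ charDegree (χ : G → ℂ) = 2).card) :
    ∃ χ : IrrCharacter G, charDegree (χ : G → ℂ) = 2 ∧ ∀ μ ∈ tors (G := G) 2, μ • χ = χ := by
  classical
  haveI : Fact (Nat.Prime 2) := ⟨Nat.prime_two⟩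
  set X := (Finset.univ.filter fun χ : IrrCharacter G => IsRealI χ ∧ charDegree (χ : G → ℂ) = 2) with hX
  have hmemX : ∀ χ, χ ∈ X ↔ IsRealI χ ∧ charDegree (χ : G → ℂ) = 2 := by
    intro χ
    simp [hX]
  have hdeg : ∀ (μ : G →* ℂˣ) (χ : IrrCharacter G), charDegree ((μ • χ : IrrCharacter G) : G → ℂ) = charDegree (χ : G → ℂ) := by
    intro μ χ
    unfold charDegree
    rw [twist_apply]
    simp
  have hRX : ∀ (e : tors (G := G) (2 ^ 1)), ∀ x ∈ X, e • x ∈ X := by
    rintro ⟨μ, hμ⟩ χ hχ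
    rw [hmemX] at hχ ⊢
    refine ⟨fun g => ?_, (hdeg μ χ).trans hχ.2⟩
    change ((χ : G → ℂ) g * (μ g : ℂ)).im = 0
    have hμ' : μ ^ 2 = 1 := by
      have := mem_tors.1 hμ
      simpa using this
    rw [Complex.mul_im, hχ.1 g, hom_sq_real hμ' g]
    simp
  have hm1 := card_fixed_modEq_of_stable (tors_isPGroup (G := G) 1) X hRX
  have hne : (X.filter (fun x => ∀ e : tors (G := G) (2 ^ 1), e • x = x)).Nonempty := by
    rw [← Finset.card_pos]
    by_contra h0
    have h00 : (X.filter (fun x => ∀ e : tors (G := G) (2 ^ 1), e • x = x)).card = 0 := by omega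
    rw [h00] at hm1
    exact hodd (Nat.modEq_zero_iff_dvd.1 hm1)
  obtain ⟨χ, hχ⟩ := hne
  rw [Finset.mem_filter, hmemX] at hχ
  refine ⟨χ, hχ.1.2, fun μ hμ => hχ.2 ⟨μ, by simpa using hμ⟩⟩

/-- **The theorem**. -/
theorem two_group_involutions (hG : IsPGroup 2 G) (ht : Nat.card {x : G // orderOf x = 2} % 4 = 1) :
    IsCyclic G ∨ (commutator G).index = 4 := by
  classical
  by_cases hc : IsCyclic G
  · exact Or.inl hc
  right
  have h4d := four_le_tors hG hc
  have h4 : 4 ≤ Nat.card (tors (G := G) 2) := by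
    refine Nat.le_of_dvd ?_ h4d
    haveI : Finite (tors (G := G) 2) := inferInstance
    exact Nat.card_pos
  have hmod := involutions_mod_four (G := G) hG
  have hodd : ¬ 2 ∣ (Finset.univ.filter fun χ : IrrCharacter G => IsRealI χ ∧ charDegree (χ : G → ℂ) = 2).card := by
    set b := (Finset.univ.filter fun χ : IrrCharacter G => IsRealI χ ∧ charDegree (χ : G → ℂ) = 2).card
    obtain ⟨k, hk⟩ := h4d
    rw [hk] at hmod
    unfold Int.ModEq at hmod
    push_cast at hmod
    intro hb
    obtain ⟨m, hm⟩ := hb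
    rw [hm] at hmod
    push_cast at hmod
    omega
  have hall : ∀ (k : ℕ) (lam : G →* ℂˣ), lam ^ 2 ^ k = 1 → lam ^ 2 = 1 := by
    intro k
    induction k with
    | zero =>
      intro lam h
      have h1 : lam = 1 := by simpa using h
      rw [h1]
      ext g
      simp
    | succ k ih =>
      intro lam h
      rcases k with _ | k
      · simpa using h
      · apply ih
        have h2 := tors_four_le_two h4 hodd (lam ^ 2 ^ k) (by
          rw [← pow_mul]
          rw [← h]
          congr 1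
          ring)
        rw [← pow_mul] at h2
        rw [← h2]
        congr 1
  obtain ⟨n, hn⟩ := IsPGroup.iff_card.1 hG
  have hRtop : ∀ lam : G →* ℂˣ, lam ^ 2 = 1 := by
    intro lam
    apply hall n
    ext g
    simp only [MonoidHom.pow_apply, MonoidHom.one_apply]
    rw [← map_pow, ← hn, pow_card_eq_one', map_one]
  have hR4 : Nat.card (tors (G := G) 2) = 4 := by
    obtain ⟨χ₀, hχ₀⟩ := exists_fixed_two hodd
    exact (val_ne_zero_of_fixed h4 hχ₀.1 hχ₀.2).1
  have h1 := card_linear_eq_index_commutator (G := G)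
  rw [← h1, Nat.card_congr (linearEquivHom G)]
  rw [← hR4]
  refine Nat.card_congr ?_
  exact (Equiv.subtypeUnivEquiv (fun lam => hRtop lam)).symm

end Main

end Cfsg.Agent.Lib.CharExtra
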